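import Mathlib

/-!
Arithmetic of the multiplicities for the minimal index of symplectic groups in characteristic two.
-/

set_option autoImplicit false

namespace Cfsg.Agent.H2.MinIdx

lemma geom_exists (q : ℤ) : ∀ j : ℕ, ∃ G : ℤ, (q - 1) * G = q ^ j - 1 ∧
    (2 ≤ j → 4 ≤ q → q + 1 ≤ G ∧ (q = 4 → ∃ H, G = 1 + 4 * H)) := by
  intro j
  refine ⟨∑ i ∈ Finset.range j, q ^ i, by rw [mul_comm, geom_sum_mul], fun hj hq => ?_⟩
  obtain ⟨i, rfl⟩ := Nat.exists_eq_add_of_le hj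
  have hsplit : ∑ x ∈ Finset.range (2 + i), q ^ x = 1 + q * ∑ x ∈ Finset.range (1 + i), q ^ x := by
    rw [show 2 + i = (1 + i) + 1 by omega, geom_sum_succ]; ring
  have hs : ∑ x ∈ Finset.range (1 + i), q ^ x = 1 + q * ∑ x ∈ Finset.range i, q ^ x := by
    rw [add_comm 1 i, geom_sum_succ]; ring
  have hnn : 0 ≤ ∑ x ∈ Finset.range i, q ^ x :=
    Finset.sum_nonneg fun x _ => pow_nonneg (by omega) x
  refine ⟨?_, fun h4 => ⟨_, by rw [hsplit, h4]⟩⟩
  rw [hsplit, hs]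
  have : 0 ≤ q * (q * ∑ x ∈ Finset.range i, q ^ x) := mul_nonneg (by omega) (mul_nonneg (by omega) hnn)
  nlinarith

lemma alt_exists (q : ℤ) : ∀ j : ℕ, ∃ G : ℤ, (q + 1) * G = q ^ j - (-1) ^ j := by
  intro j
  induction j with
  | zero => exact ⟨0, by simp⟩
  | succ j ih =>
    obtain ⟨G, hG⟩ := ih
    exact ⟨q ^ j - G, by rw [mul_sub, hG]; ring⟩

/-- No solution for the torus normaliser of order `2 (q + 1)`. -/
theorem arith_minus {q : ℤ} (hq : 4 ≤ q) (heven : Even q) {j : ℕ} (hj : 2 ≤ j) {v : ℤ} (hv1 : 1 ≤ v)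
    (hv2 : v ≤ 2) {U V : ℤ} (hU : 0 ≤ U) (hV : 0 ≤ V)
    (h : 2 * (v * (q ^ (j + 1) - 1)) = (q - 1) * (U * (q ^ j + 1) + V * (q ^ j - 1))) : False := by
  obtain ⟨G, hG, hG'⟩ := geom_exists q j
  obtain ⟨hGlo, hG4⟩ := hG' hj hq
  have hT : U * (q ^ j + 1) + V * (q ^ j - 1) = 2 * v * (q ^ j + G) := by
    apply mul_left_cancel₀ (show (q - 1) ≠ 0 by omega)
    linear_combination -h - 2 * v * hG
  set e := U + V - 2 * v with he
  have hkey : e * q ^ j = 2 * v * G - (U - V) := by rw [he]; linear_combination hT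
  have hq2 : 16 ≤ q ^ j := by
    calc (16 : ℤ) ≤ q ^ 2 := by nlinarith
      _ ≤ q ^ j := pow_le_pow_right₀ (by omega) hj
  rcases lt_trichotomy e 0 with he0 | he0 | he0
  · have h1 : e * q ^ j ≤ -(q ^ j) := by nlinarith
    have h2 : 0 ≤ v * G := mul_nonneg (by omega) (by omega)
    linarith
  · rw [he0, zero_mul] at hkey
    have h2 : v * (q + 1) ≤ v * G := mul_le_mul_of_nonneg_left hGlo (by omega)
    nlinarith
  · have h3 : e * ((q - 1) * G) ≤ 4 * G + 4 := by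
      rw [hG]
      have : v * G ≤ 2 * G := mul_le_mul_of_nonneg_right hv2 (by omega)
      nlinarith
    obtain ⟨r, hr⟩ := heven
    rcases eq_or_lt_of_le hq with hq4 | hq4
    · subst hq4
      obtain ⟨H, hH⟩ := hG4 rfl
      have he1 : e = 1 := by
        by_contra hne
        have : 2 * (((4 : ℤ) - 1) * G) ≤ e * ((4 - 1) * G) :=
          mul_le_mul_of_nonneg_right (by omega) (by omega)
        omega
      rw [he1, one_mul] at hkey
      rw [show (4 : ℤ) - 1 = 3 by norm_num] at hG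
      rcases (show v = 1 ∨ v = 2 by omega) with rfl | rfl <;> omega
    · have h5 : 5 * G ≤ (q - 1) * G := mul_le_mul_of_nonneg_right (by omega) (by omega)
      have h6 : (q - 1) * G ≤ e * ((q - 1) * G) :=
        le_mul_of_one_le_left (mul_nonneg (by omega) (by omega)) (by omega)
      omega

/-- No solution for the torus normaliser of order `2 (q - 1)`. -/
theorem arith_plus {q : ℤ} (hq : 4 ≤ q) (heven : Even q) {j : ℕ} (hj : 2 ≤ j) {w : ℤ} (hw1 : 1 ≤ w)
    (hw2 : w ≤ 2) {U V : ℤ} (hU : 0 ≤ U) (hV : 0 ≤ V)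
    (h : 2 * (w * (q ^ (j + 1) - (-1) ^ (j + 1))) = (q + 1) * (U * (q ^ j + 1) + V * (q ^ j - 1))) :
    False := by
  obtain ⟨G, hG⟩ := alt_exists q j
  have hT : U * (q ^ j + 1) + V * (q ^ j - 1) = 2 * w * (q ^ j - G) := by
    apply mul_left_cancel₀ (show (q + 1) ≠ 0 by omega)
    rw [← h]
    linear_combination (2 * w) * hG
  set e := U + V - 2 * w with he
  have hkey : e * q ^ j + (U - V) = -(2 * w * G) := by rw [he]; linear_combination hT
  have hq2 : q * q ≤ q ^ j := by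
    calc q * q = q ^ 2 := by ring
      _ ≤ q ^ j := pow_le_pow_right₀ (by omega) hj
  have hsign : (-1 : ℤ) ^ j = 1 ∨ (-1 : ℤ) ^ j = -1 := neg_one_pow_eq_or ℤ j
  have hGlo : q - 1 ≤ G := by
    refine le_of_mul_le_mul_left ?_ (show 0 < q + 1 by omega)
    rcases hsign with hs | hs <;> rw [hG, hs] <;> nlinarith
  have hGhi : (q + 1) * G ≤ q ^ j + 1 := by rcases hsign with hs | hs <;> rw [hG, hs] <;> omega
  have hwG : 0 ≤ w * G := mul_nonneg (by omega) (by omega)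
  rcases lt_trichotomy e 0 with he0 | he0 | he0
  · have h3 : (-e) * ((q + 1) * G) ≤ 4 * G + 4 := by
      have h4 : w * G ≤ 2 * G := mul_le_mul_of_nonneg_right hw2 (by omega)
      have h5 : (-e) * ((q + 1) * G) ≤ (-e) * (q ^ j + 1) := mul_le_mul_of_nonneg_left hGhi (by omega)
      nlinarith
    have h6 : (q + 1) * G ≤ (-e) * ((q + 1) * G) :=
      le_mul_of_one_le_left (mul_nonneg (by omega) (by omega)) (by omega)
    obtain ⟨r, hr⟩ := heven
    rcases eq_or_lt_of_le hq with hq4 | hq4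
    · subst hq4
      have he1 : e = -1 := by
        by_contra hne
        have : 2 * (((4 : ℤ) + 1) * G) ≤ (-e) * ((4 + 1) * G) :=
          mul_le_mul_of_nonneg_right (by omega) (by omega)
        linarith
      rw [he1] at hkey
      rw [show (4 : ℤ) + 1 = 5 by norm_num] at hG
      obtain ⟨m, hm⟩ : ∃ m, (4 : ℤ) ^ j = 16 * m := ⟨4 ^ (j - 2), by
        rw [show (16 : ℤ) = 4 ^ 2 by norm_num, ← pow_add]; congr 1; omega⟩
      rcases hsign with hs | hs <;> rw [hs] at hG <;>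
        rcases (show w = 1 ∨ w = 2 by omega) with rfl | rfl <;> omega
    · have h7 : 7 * G ≤ (q + 1) * G := mul_le_mul_of_nonneg_right (by omega) (by omega)
      omega
  · rw [he0, zero_mul] at hkey
    have h8 : w * (q - 1) ≤ w * G := mul_le_mul_of_nonneg_left hGlo (by omega)
    nlinarith
  · have h9 : e * q ^ j ≥ e * 16 := mul_le_mul_of_nonneg_left (by nlinarith) (by omega)
    nlinarith

/-- Congruence forcing one multiplicity to vanish. -/
theorem eq_zero_of_dvd {d u : ℤ} (hd : Odd d) (hu0 : 0 ≤ u) (hlt : u < d) (h : d ∣ 4 * u) : u = 0 := by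
  have h2 : IsCoprime d (2 : ℤ) := by
    obtain ⟨r, hr⟩ := hd
    exact ⟨1, -r, by rw [hr]; ring⟩
  have h4 : IsCoprime d (4 : ℤ) := by rw [show (4 : ℤ) = 2 * 2 by norm_num]; exact h2.mul_right h2
  rcases eq_or_lt_of_le hu0 with h0 | h0
  · exact h0.symm
  · exact absurd (Int.le_of_dvd h0 (h4.dvd_of_dvd_mul_left h)) (not_le.mpr hlt)

/-- Too many multiplicities make the degree large. -/
theorem mult_bound {q : ℤ} (hq : 4 ≤ q) {n : ℕ} (hn : 2 ≤ n) {u v N x P : ℤ} (hx : 0 ≤ x) (hu : 0 ≤ u)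
    (hv : 0 ≤ v) (hN : N < P) (hP : P * (q - 1) + 1 = q ^ (2 * n + 2))
    (h : 2 * (N - x) = q ^ (n + 1) * (u * (q ^ n + 1) + v * (q ^ n - 1))) : u + v ≤ 2 := by
  by_contra hgt
  have hQ : 16 ≤ q ^ n := by
    calc (16 : ℤ) ≤ q ^ 2 := by nlinarith
      _ ≤ q ^ n := pow_le_pow_right₀ (by omega) hn
  have h3 : 3 * (q ^ n - 1) ≤ u * (q ^ n + 1) + v * (q ^ n - 1) := by
    have : 3 * (q ^ n - 1) ≤ (u + v) * (q ^ n - 1) := mul_le_mul_of_nonneg_right (by omega) (by omega)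
    nlinarith
  have hpos : 0 ≤ q ^ (n + 1) := pow_nonneg (by omega) _
  have e1 : q ^ (n + 1) = q * q ^ n := by rw [pow_succ]; ring
  have e2 : q ^ (2 * n + 2) = q * q * (q ^ n * q ^ n) := by rw [← pow_two, ← pow_add, ← pow_add]; congr 1; omega
  have h4 : q ^ (n + 1) * (3 * (q ^ n - 1)) ≤ 2 * (N - x) := by rw [h]; exact mul_le_mul_of_nonneg_left h3 hpos
  have h5 : 2 * P * (q - 1) ≤ q ^ (n + 1) * (3 * (q ^ n - 1)) * (q - 1) := by
    have e3 : 2 * P * (q - 1) = 2 * q ^ (2 * n + 2) - 2 := by linear_combination 2 * hP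
    rw [e3, e1, e2]
    have h6 : 2 * q * q ^ n ≤ 3 * (q ^ n - 1) * (q - 1) := by nlinarith
    have h7 : q * q ^ n * (2 * q * q ^ n) ≤ q * q ^ n * (3 * (q ^ n - 1) * (q - 1)) :=
      mul_le_mul_of_nonneg_left h6 (by positivity)
    nlinarith
  have h8 := le_of_mul_le_mul_right h5 (show 0 < q - 1 by omega)
  linarith

end Cfsg.Agent.H2.MinIdx
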