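import Cfsg.Agent.H2.MinIdx.EvenOrbit
import Cfsg.Agent.H2.MinIdx.EvenArith

/-!
Even characteristic, rank at least three: the degree is at least the number of points.
-/

set_option autoImplicit false

namespace Cfsg.Agent.H2.MinIdx

open Matrix MulAction
open scoped MatrixGroups

variable {j : ℕ} {F : Type*} [Field F] [Fintype F]
variable {Ω : Type*} [MulAction (Matrix.symplecticGroup (Fin (j + 1 + 1)) F) Ω]

local notation "Pr" => SL(2, F) × Matrix.symplecticGroup (Fin (j + 1)) F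

attribute [local instance] pairAct

omit [Fintype F] in
lemma indep_e0_up {n : ℕ} {a : Fin n ⊕ Fin n → F} (ha : a ≠ 0) :
    LinearIndependent F ![(e0 : Fin (n + 1) ⊕ Fin (n + 1) → F), up a] := by
  refine LinearIndependent.pair_iff.mpr fun s t h => ?_
  have h1 := congrArg (fun x => Cfsg.sympForm _ F x (f0 : Fin (n + 1) ⊕ Fin (n + 1) → F)) h
  simp only [fadd_l, fsmul_l, form_e0_f0, form_up_f0, fzero_l, mul_one, mul_zero, add_zero] at h1
  subst h1
  rw [zero_smul, zero_add] at h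
  exact ⟨rfl, (smul_eq_zero.mp h).resolve_right fun h0 => ha (up_injective (h0.trans (map_zero up).symm))⟩

/-- The congruence killing one multiplicity. -/
lemma mult_congr {q D G T' u v : ℤ} {n : ℕ} (hG : (D = q - 1 ∧ D * G = q ^ n - 1) ∨
      (D = q + 1 ∧ D * G = q ^ n - (-1) ^ n))
    (h : 2 * (u * (q ^ n + 1) + v * (q ^ n - 1)) = D * T') :
    ((D = q - 1 ∨ Even n) ∧ D ∣ 4 * u) ∨ ((D = q + 1 ∧ Odd n) ∧ D ∣ 4 * v) := by
  rcases hG with ⟨hD, hG⟩ | ⟨hD, hG⟩
  · exact Or.inl ⟨Or.inl hD, T' - 2 * (u + v) * G, by linear_combination h + 2 * (u + v) * hG⟩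
  · rcases Nat.even_or_odd n with he | ho
    · rw [he.neg_one_pow] at hG
      exact Or.inl ⟨Or.inr he, T' - 2 * (u + v) * G, by linear_combination h + 2 * (u + v) * hG⟩
    · rw [ho.neg_one_pow] at hG
      exact Or.inr ⟨⟨hD, ho⟩, 2 * (u + v) * G - T', by linear_combination -h - 2 * (u + v) * hG⟩

/-- Two commuting transvections across the two factors and inside the second factor. -/
theorem fx_pair_typeC (h2 : (2 : F) = 0) (hj : 1 ≤ j) :
    fx Ω (pairHom ((H92.sx 1, transv (e0 : Fin (j + 1) ⊕ Fin (j + 1) → F) 1) : Pr)) =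
      fx Ω (pairHom ((1, transv (e0 : Fin (j + 1) ⊕ Fin (j + 1) → F) 1 *
        transv (up (a1 hj : Fin j ⊕ Fin j → F)) 1) : Pr)) := by
  rw [pairHom_apply, pairHom_apply, map_one, one_mul, map_mul, incl_transv, incl_transv, sl_sx h2,
    fx_typeC (n := j + 1) h2 (by omega) (form_e0_up _) (indep_e0_up e0_ne_zero),
    fx_typeC (n := j + 1) h2 (by omega) (by rw [form_up, form_e0_up]) ?_]
  refine LinearIndependent.pair_iff.mpr fun s t h => ?_
  rw [← map_smul, ← map_smul, ← map_add] at h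
  exact LinearIndependent.pair_iff.mp (indep_e0_up (a1_ne_zero hj)) s t
    (up_injective (h.trans (map_zero up).symm))

/-- All orbits of one kind: the arithmetic. -/
theorem homog_contra {q D u v N x B X Z SU SV : ℤ} {j : ℕ} (hj : 1 ≤ j) (hq : 4 ≤ q) (hqe : Even q)
    (hDcases : D = q - 1 ∨ D = q + 1) (hu0 : 0 ≤ u) (hv0 : 0 ≤ v) (huv : u + v ≤ 2) (hSU : 0 ≤ SU)
    (hSV : 0 ≤ SV) (hB0 : 1 ≤ B)
    (hNx : 2 * (N - x) = q ^ (j + 1 + 1) * (u * (q ^ (j + 1) + 1) + v * (q ^ (j + 1) - 1)))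
    (hT' : 2 * (B - X) = q ^ (j + 1) * (SU * (q ^ j + 1) + SV * (q ^ j - 1)))
    (hNB : 2 * N = q * D * B) (hxX : 2 * x = q * D * X) (hBX : B = D * X) (hXZ : X = D * Z) :
    False := by
  have hq0 : q ≠ 0 := by omega
  have hqpow : q ^ (j + 1) ≠ 0 := pow_ne_zero _ hq0
  set T := u * (q ^ (j + 1) + 1) + v * (q ^ (j + 1) - 1)
  set T' := SU * (q ^ j + 1) + SV * (q ^ j - 1) with hT'def
  have hTT : 2 * T = D * T' := by
    apply mul_left_cancel₀ (mul_ne_zero hq0 hqpow)
    rw [pow_succ _ (j + 1)] at hNx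
    linear_combination -(2 : ℤ) * hNx + 2 * hNB - 2 * hxX + q * D * hT'
  have hdD : D = q - 1 ∨ D = q + 1 := by
    exact hDcases
  have hDodd : Odd D := by
    rcases hdD with h | h <;> rw [h]
    · exact hqe.sub_odd odd_one
    · exact hqe.add_odd odd_one
  obtain ⟨G1, hG1, -⟩ := geom_exists q (j + 1)
  obtain ⟨G2, hG2⟩ := alt_exists q (j + 1)
  obtain ⟨G, hG⟩ : ∃ G, (D = q - 1 ∧ D * G = q ^ (j + 1) - 1) ∨
      (D = q + 1 ∧ D * G = q ^ (j + 1) - (-1) ^ (j + 1)) := by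
    rcases hdD with h | h
    · exact ⟨G1, Or.inl ⟨h, by rw [h]; exact hG1⟩⟩
    · exact ⟨G2, Or.inr ⟨h, by rw [h]; exact hG2⟩⟩
  -- one multiplicity vanishes
  obtain ⟨W, hW0, hW2, hTW⟩ : ∃ W : ℤ, 0 ≤ W ∧ W ≤ 2 ∧
      ((D = q - 1 ∧ T = W * (q ^ (j + 1) - 1)) ∨
        (D = q + 1 ∧ T = W * (q ^ (j + 1) - (-1) ^ (j + 1)))) := by
    rcases mult_congr hG hTT with ⟨hcase, hdvd⟩ | ⟨⟨hDq, ho⟩, hdvd⟩
    · have hu := eq_zero_of_dvd hDodd (hu0) (by omega) hdvd
      refine ⟨v, hv0, by omega, ?_⟩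
      rcases hdD with h | h
      · exact Or.inl ⟨h, by simp only [T, hu, zero_mul, zero_add]⟩
      · rcases hcase with h' | he
        · omega
        · exact Or.inr ⟨h, by simp only [T, hu, zero_mul, zero_add, he.neg_one_pow]⟩
    · have hv := eq_zero_of_dvd hDodd (hv0) (by omega) hdvd
      refine ⟨u, hu0, by omega, Or.inr ⟨hDq, ?_⟩⟩
      simp only [T, hv, zero_mul, add_zero, ho.neg_one_pow, sub_neg_eq_add]
  have hW1 : 1 ≤ W := by
    by_contra hlt
    have hT0 : T = 0 := by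
      rcases hTW with ⟨-, h⟩ | ⟨-, h⟩ <;> rw [h, show W = 0 by omega, zero_mul]
    rw [hT0, mul_zero] at hTT
    have hT'0 : T' = 0 := (mul_eq_zero.mp hTT.symm).resolve_left (by omega)
    rw [hT'0, mul_zero] at hT'
    have h0 : B - X = 0 := by omega
    have h1 : (D - 1) * X = 0 := by linear_combination h0 - hBX
    have h2' : X = 0 := (mul_eq_zero.mp h1).resolve_left (by omega)
    rw [hBX, h2', mul_zero] at hB0
    omega
  rcases eq_or_lt_of_le hj with hj1 | hj2
  · subst hj1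
    rcases hTW with ⟨hDq, h⟩ | ⟨hDq, h⟩ <;> rw [hDq] at hBX hXZ hTT hDodd <;> rw [h] at hTT
    · have hTv : T' = 2 * W * (q + 1) :=
        mul_left_cancel₀ (show q - 1 ≠ 0 by omega) (by rw [← hTT]; ring)
      have hk : (q - 2) * ((q - 1) * Z) = q ^ 2 * (W * (q + 1)) := by
        apply mul_left_cancel₀ (show (2 : ℤ) ≠ 0 by norm_num)
        rw [hTv, hBX, hXZ] at hT'
        linear_combination hT'
      have h0 := eq_zero_of_dvd hDodd hW0 (by omega)
        ⟨2 * ((q - 2) * Z - W * (q ^ 2 + 2 * q + 2)), by linear_combination -(2 : ℤ) * hk⟩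
      omega
    · have hTv : T' = 2 * W * (q - 1) :=
        mul_left_cancel₀ (show q + 1 ≠ 0 by omega) (by rw [← hTT]; ring)
      have hk : (q + 1) * Z = W * (q ^ 2 - q) := by
        apply mul_left_cancel₀ (mul_ne_zero (show (2 : ℤ) ≠ 0 by norm_num) hq0)
        rw [hTv, hBX, hXZ] at hT'
        linear_combination hT'
      have h0 := eq_zero_of_dvd hDodd hW0 (by omega)
        ⟨2 * (Z - W * (q - 2)), by linear_combination -(2 : ℤ) * hk⟩
      omega
  · rcases hTW with ⟨hDq, h⟩ | ⟨hDq, h⟩ <;> rw [h, hDq, hT'def] at hTT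
    · exact arith_minus hq hqe hj2 hW1 hW2 hSU hSV hTT
    · exact arith_plus hq hqe hj2 hW1 hW2 hSU hSV hTT


set_option maxHeartbeats 1000000 in
/-- Even characteristic, rank at least three. -/
theorem even_high [Finite Ω] [Nonempty Ω]
    [IsPretransitive (Matrix.symplecticGroup (Fin (j + 1 + 1)) F) Ω] (h2 : (2 : F) = 0) (hj : 1 ≤ j)
    (h4 : 4 ≤ Fintype.card F)
    (IH : ∀ R : Subgroup (Matrix.symplecticGroup (Fin (j + 1)) F), R ≠ ⊤ →
      pts (j + 1) (Fintype.card F) ≤ R.index)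
    (hmove : ∀ (ω : Ω) (p : Fin (j + 1 + 1) ⊕ Fin (j + 1 + 1) → F), p ≠ 0 →
      ∃ t, transv p t • ω ≠ ω) :
    pts (j + 1 + 1) (Fintype.card F) ≤ Nat.card Ω := by
  classical
  by_contra! hsmall
  have hle := zSub_card_le (n := j + 1) h2 (by omega) hsmall hmove
  have := Fintype.ofFinite (orbitRel.Quotient Pr Ω)
  choose w b horb hbP hdata using fun o : orbitRel.Quotient Pr Ω =>
    orbit_struct (n := j + 1) h2 (by omega) h4 IH hsmall hmove hle o.out
  set q := Fintype.card F with hqdef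
  have hq : (4 : ℤ) ≤ q := by exact_mod_cast h4
  have hqe : Even (q : ℤ) := by
    rw [Int.even_coe_nat, Nat.even_iff]
    exact FiniteField.even_card_of_char_two (ringChar_eq_two h2)
  set P' := pts (j + 1) q with hP'def
  have hP'1 : q + 1 ≤ P' := succ_le_pts q (by omega)
  have hsucc : pts (j + 1 + 1) q = q + 1 + q * q * P' := pts_succ _ _
  have hP'mul : (P' : ℤ) * ((q : ℤ) - 1) + 1 = (q : ℤ) ^ (2 * (j + 1)) := by
    have h := congrArg (fun x : ℕ => (x : ℤ)) (pts_mul (j + 1) (q := q) (by omega))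
    push_cast [Nat.cast_sub (show 1 ≤ q by omega)] at h
    exact h
  have hN : Nat.card Ω = ∑ o, w o * b o := by
    rw [card_sum_orbits (P := Pr), Finset.sum_congr rfl fun o _ => horb o]
  have hNb : ∀ s : Finset (orbitRel.Quotient Pr Ω), ∑ o ∈ s, w o * b o ≤ Nat.card Ω := fun s =>
    hN ▸ Finset.sum_le_sum_of_subset (Finset.subset_univ s)
  have hwsum : ∀ s : Finset (orbitRel.Quotient Pr Ω), ∑ o ∈ s, w o ≤ q * q := fun s => by
    have h5 : (∑ o ∈ s, w o) * P' ≤ ∑ o ∈ s, w o * b o := by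
      rw [Finset.sum_mul]
      exact Finset.sum_le_sum fun o _ => Nat.mul_le_mul_left _ (hbP o)
    have h6 := hNb s
    have h7 : (∑ o ∈ s, w o) * P' < (q * q + 1) * P' := by
      rw [Nat.add_mul, one_mul]; omega
    exact Nat.lt_succ_iff.mp (Nat.lt_of_mul_lt_mul_right h7)
  have hwlo : ∀ o, (q : ℤ) * (q - 1) ≤ 2 * w o := fun o => by
    rcases hdata o with ⟨hw, -⟩ | ⟨d, hd, hw, -⟩
    · have : (w o : ℤ) + q = q * q := by exact_mod_cast hw
      nlinarith
    · have : (2 : ℤ) * w o = q * d := by exact_mod_cast hw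
      have hd' : (q : ℤ) - 1 ≤ d := by omega
      nlinarith
  -- the fixed points of a transvection
  obtain ⟨u, v, hNx, -⟩ := exists_mult (Ω := Ω) (n := j + 1) h2 (by omega)
  have hx : fx Ω (transv (e0 : Fin (j + 1 + 1) ⊕ Fin (j + 1 + 1) → F) 1) =
      ∑ o : orbitRel.Quotient Pr Ω, fx (orbit Pr o.out) ((H92.sx 1, 1) : Pr) := by
    rw [← fx_sum_orbits]
    show _ = fx Ω (pairHom ((H92.sx 1, 1) : Pr))
    rw [pairHom_apply, map_one, mul_one, sl_sx h2]
  set x := fx Ω (transv (e0 : Fin (j + 1 + 1) ⊕ Fin (j + 1 + 1) → F) 1) with hxdef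
  have huv : (u : ℤ) + v ≤ 2 := by
    refine mult_bound (n := j + 1) hq (by omega) (Int.natCast_nonneg x) (Int.natCast_nonneg u)
      (Int.natCast_nonneg v) (P := (pts (j + 1 + 1) q : ℤ)) (by exact_mod_cast hsmall) ?_ hNx
    have h := congrArg (fun x : ℕ => (x : ℤ)) (pts_mul (j + 1 + 1) (q := q) (by omega))
    push_cast [Nat.cast_sub (show 1 ≤ q by omega)] at h
    rw [h, Nat.mul_succ]
  have hqpow : (q : ℤ) ^ (j + 1) ≠ 0 := pow_ne_zero _ (by omega)
  -- no orbit of the first kind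
  have hB : ∀ o, ∃ d, (d + 1 = q ∨ d = q + 1) ∧ 2 * w o = q * d ∧
      2 * fx (orbit Pr o.out) ((H92.sx 1, 1) : Pr) = q * b o ∧
      ∃ L0 : Subgroup (Matrix.symplecticGroup (Fin (j + 1)) F), L0.index = b o ∧
        ∀ l, fx (orbit Pr o.out) ((1, l) : Pr) =
            w o * fx (Matrix.symplecticGroup (Fin (j + 1)) F ⧸ L0) l ∧
          2 * fx (orbit Pr o.out) ((H92.sx 1, l) : Pr) =
            q * fx (Matrix.symplecticGroup (Fin (j + 1)) F ⧸ L0) l := by
    intro i0
    refine (hdata i0).resolve_left fun ⟨hw0, hx0⟩ => ?_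
    have huniv : (Finset.univ : Finset (orbitRel.Quotient Pr Ω)) = {i0} := by
      refine Finset.eq_singleton_iff_unique_mem.mpr ⟨Finset.mem_univ _, fun i _ => ?_⟩
      by_contra hne
      have h := hwsum {i0, i}
      rw [Finset.sum_pair (Ne.symm hne)] at h
      have h' : (w i0 : ℤ) + w i ≤ q * q := by exact_mod_cast h
      have : (w i0 : ℤ) + q = q * q := by exact_mod_cast hw0
      have := hwlo i
      nlinarith
    rw [huniv, Finset.sum_singleton] at hN hx
    rw [hx0] at hx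
    rw [hx, hN, Nat.cast_mul, Nat.cast_zero, sub_zero] at hNx
    have hw0' : (w i0 : ℤ) = q * (q - 1) := by
      have : (w i0 : ℤ) + q = q * q := by exact_mod_cast hw0
      linarith
    rw [hw0', pow_succ] at hNx
    have hb2 : 2 * ((q : ℤ) - 1) * b i0 =
        (q : ℤ) ^ (j + 1) * ((u : ℤ) * ((q : ℤ) ^ (j + 1) + 1) + v * ((q : ℤ) ^ (j + 1) - 1)) := by
      apply mul_left_cancel₀ (show (q : ℤ) ≠ 0 by omega)
      linear_combination hNx
    obtain ⟨G, hG, -⟩ := geom_exists (q : ℤ) (j + 1)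
    set T := (u : ℤ) * ((q : ℤ) ^ (j + 1) + 1) + v * ((q : ℤ) ^ (j + 1) - 1) with hT
    have hu : (u : ℤ) = 0 := by
      refine eq_zero_of_dvd (d := (q : ℤ) - 1) ?_ (Int.natCast_nonneg u) (by omega) ?_
      · exact hqe.sub_odd odd_one
      · refine ⟨2 * (2 * b i0 - G * T - ((u : ℤ) + v) * G), ?_⟩
        linear_combination -(2 : ℤ) * hb2 + 2 * (T + u + v) * hG
    rw [hT, hu, zero_mul, zero_add] at hb2
    have h5 : (P' : ℤ) * ((q : ℤ) - 1) ≤ b i0 * ((q : ℤ) - 1) :=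
      mul_le_mul_of_nonneg_right (by exact_mod_cast hbP i0) (by omega)
    have h6 : (v : ℤ) * ((q : ℤ) ^ (j + 1) * ((q : ℤ) ^ (j + 1) - 1)) ≤
        2 * ((q : ℤ) ^ (j + 1) * ((q : ℤ) ^ (j + 1) - 1)) := by
      have h7 : (4 : ℤ) ≤ (q : ℤ) ^ (j + 1) := hq.trans (le_self_pow₀ (by omega) (by omega))
      exact mul_le_mul_of_nonneg_right (by omega) (mul_nonneg (by omega) (by omega))
    have h7 : (4 : ℤ) ≤ (q : ℤ) ^ (j + 1) := hq.trans (le_self_pow₀ (by omega) (by omega))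
    have e : (q : ℤ) ^ (2 * (j + 1)) = (q : ℤ) ^ (j + 1) * (q : ℤ) ^ (j + 1) := by
      rw [← pow_add]; congr 1; omega
    rw [e] at hP'mul
    nlinarith
  choose d hd hw hxo L0 hL0 hlev using hB
  have hw' : ∀ o, (2 : ℤ) * w o = q * d o := fun o => by exact_mod_cast hw o
  by_cases hmix : ∃ i0 i1, d i0 + 1 = q ∧ d i1 = q + 1
  · obtain ⟨i0, i1, h0, h1⟩ := hmix
    have hne : i0 ≠ i1 := fun h => by rw [h] at h0; omega
    have e0' : (d i0 : ℤ) = q - 1 := by omega
    have e1' : (d i1 : ℤ) = q + 1 := by omega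
    have huniv : (Finset.univ : Finset (orbitRel.Quotient Pr Ω)) = {i0, i1} := by
      refine (Finset.eq_univ_of_forall fun i => ?_).symm
      by_contra hi
      simp only [Finset.mem_insert, Finset.mem_singleton, not_or] at hi
      have h := hwsum {i, i0, i1}
      rw [Finset.sum_insert (by simp [hi.1, hi.2]), Finset.sum_pair hne] at h
      have h' : (w i : ℤ) + (w i0 + w i1) ≤ q * q := by exact_mod_cast h
      have := hwlo i
      have := hw' i0
      have := hw' i1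
      rw [e0'] at *
      rw [e1'] at *
      nlinarith
    rw [huniv, Finset.sum_pair hne] at hN hx
    have hw0 := hw' i0
    have hw1 := hw' i1
    rw [e0'] at hw0
    rw [e1'] at hw1
    have hbeq : ∀ i, i = i0 ∨ i = i1 → b i = P' := by
      intro i hi
      refine le_antisymm ?_ (hbP i)
      by_contra hgt
      have h5 : (w i0 : ℤ) * P' ≤ w i0 * b i0 :=
        mul_le_mul_of_nonneg_left (by exact_mod_cast hbP i0) (by omega)
      have h6 : (w i1 : ℤ) * P' ≤ w i1 * b i1 :=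
        mul_le_mul_of_nonneg_left (by exact_mod_cast hbP i1) (by omega)
      have h8 : (w i0 * b i0 + w i1 * b i1 : ℤ) < q + 1 + q * q * P' := by
        rw [hN, hsucc] at hsmall; exact_mod_cast hsmall
      rcases hi with rfl | rfl
      · have h9 : (w i : ℤ) * (P' + 1) ≤ w i * b i :=
          mul_le_mul_of_nonneg_left (by exact_mod_cast Nat.lt_of_not_le hgt) (by omega)
        nlinarith
      · have h9 : (w i : ℤ) * (P' + 1) ≤ w i * b i :=
          mul_le_mul_of_nonneg_left (by exact_mod_cast Nat.lt_of_not_le hgt) (by omega)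
        nlinarith
    have hb0 := hbeq i0 (Or.inl rfl)
    have hb1 := hbeq i1 (Or.inr rfl)
    have hx0 : (2 : ℤ) * fx (orbit Pr i0.out) ((H92.sx 1, 1) : Pr) = q * b i0 := by
      exact_mod_cast hxo i0
    have hx1 : (2 : ℤ) * fx (orbit Pr i1.out) ((H92.sx 1, 1) : Pr) = q * b i1 := by
      exact_mod_cast hxo i1
    rw [hb0] at hx0
    rw [hb1] at hx1
    rw [hN, hx] at hNx
    push_cast at hNx
    rw [hb0, hb1] at hNx
    have h9 : 2 * ((q : ℤ) * ((q : ℤ) ^ (2 * (j + 1)) - 1)) =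
        q * ((q : ℤ) ^ (j + 1) * ((u : ℤ) * ((q : ℤ) ^ (j + 1) + 1) + v * ((q : ℤ) ^ (j + 1) - 1))) := by
      rw [← hP'mul]
      linear_combination hNx - (P' : ℤ) * hw0 - (P' : ℤ) * hw1 + hx0 + hx1
    have h10 := mul_left_cancel₀ (show (q : ℤ) ≠ 0 by omega)
      (show (q : ℤ) * (2 * ((q : ℤ) ^ (2 * (j + 1)) - 1)) = q * _ by rw [← h9]; ring)
    have hdvd : (q : ℤ) ∣ 2 := by
      refine ⟨2 * (q : ℤ) ^ (2 * j + 1) -
        (q : ℤ) ^ j * ((u : ℤ) * ((q : ℤ) ^ (j + 1) + 1) + v * ((q : ℤ) ^ (j + 1) - 1)), ?_⟩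
      linear_combination -h10
    have := Int.le_of_dvd (by norm_num) hdvd
    omega
  -- all orbits of one kind
  obtain ⟨o0⟩ : Nonempty (orbitRel.Quotient Pr Ω) := Nonempty.map Quotient.mk'' inferInstance
  push Not at hmix
  have hconst : ∀ o, d o = d o0 := fun o => by
    rcases hd o with h | h <;> rcases hd o0 with h' | h'
    · omega
    · exact absurd h' (hmix o o0 h)
    · exact absurd h (hmix o0 o h')
    · omega
  set D : ℤ := (d o0 : ℤ) with hD
  have hw'' : ∀ o, (2 : ℤ) * w o = q * D := fun o => by rw [hw' o, hconst o]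
  set t' := transv (e0 : Fin (j + 1) ⊕ Fin (j + 1) → F) 1 with ht'
  set a' := (a1 hj : Fin j ⊕ Fin j → F) with ha'
  set l2 := t' * transv (up a') 1 with hl2
  choose U V hUV _hUV using fun o : orbitRel.Quotient Pr Ω =>
    exists_mult (Ω := Matrix.symplecticGroup (Fin (j + 1)) F ⧸ L0 o) (n := j) h2 hj
  set B : ℤ := ∑ o, (b o : ℤ)
  set X : ℤ := ∑ o, (fx (Matrix.symplecticGroup (Fin (j + 1)) F ⧸ L0 o) t' : ℤ)
  set Z : ℤ := ∑ o, (fx (Matrix.symplecticGroup (Fin (j + 1)) F ⧸ L0 o) l2 : ℤ)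
  set SU : ℤ := ∑ o, (U o : ℤ)
  set SV : ℤ := ∑ o, (V o : ℤ)
  have hT' : 2 * (B - X) = (q : ℤ) ^ (j + 1) * (SU * ((q : ℤ) ^ j + 1) + SV * ((q : ℤ) ^ j - 1)) := by
    simp only [B, X, SU, SV, ← Finset.sum_sub_distrib, Finset.sum_mul, ← Finset.sum_add_distrib,
      Finset.mul_sum]
    refine Finset.sum_congr rfl fun o _ => ?_
    have h := hUV o
    rw [show Nat.card (Matrix.symplecticGroup (Fin (j + 1)) F ⧸ L0 o) = b o from hL0 o] at h
    linear_combination h
  have hsumfx : ∀ p : Pr, (fx Ω (pairHom p) : ℤ) =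
      ∑ o : orbitRel.Quotient Pr Ω, (fx (orbit Pr o.out) p : ℤ) := fun p => by
    rw [← Nat.cast_sum, ← fx_sum_orbits]
    rfl
  have hxB : 2 * (x : ℤ) = q * B := by
    rw [hx, Nat.cast_sum, Finset.mul_sum, Finset.mul_sum]
    exact Finset.sum_congr rfl fun o _ => by exact_mod_cast hxo o
  have hxX : 2 * (x : ℤ) = q * D * X := by
    have e : fx Ω (pairHom ((1, t') : Pr)) = x := by
      rw [pairHom_apply, map_one, one_mul, ht', incl_transv]
      exact fx_transv h2 (fun h0 => e0_ne_zero (up_injective (h0.trans (map_zero up).symm))) one_ne_zero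
    rw [← e, hsumfx, Finset.mul_sum, Finset.mul_sum]
    refine Finset.sum_congr rfl fun o _ => ?_
    rw [(hlev o t').1, Nat.cast_mul, ← hw'' o, mul_assoc]
  have hzz : q * X = q * D * Z := by
    have e1 : fx Ω (pairHom ((H92.sx 1, t') : Pr)) = fx Ω (pairHom ((1, l2) : Pr)) :=
      fx_pair_typeC h2 hj
    have h := congrArg (fun k : ℕ => (2 : ℤ) * (k : ℤ)) e1
    simp only [hsumfx, Finset.mul_sum] at h
    rw [Finset.sum_congr rfl fun o _ => (show (2 : ℤ) * (fx (orbit Pr o.out) ((H92.sx 1, t') : Pr) : ℤ) =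
        q * fx (Matrix.symplecticGroup (Fin (j + 1)) F ⧸ L0 o) t' by exact_mod_cast (hlev o t').2),
      Finset.sum_congr rfl fun o _ => (show (2 : ℤ) * (fx (orbit Pr o.out) ((1, l2) : Pr) : ℤ) =
        q * D * fx (Matrix.symplecticGroup (Fin (j + 1)) F ⧸ L0 o) l2 by
          rw [(hlev o l2).1, Nat.cast_mul, ← hw'' o, mul_assoc]),
      ← Finset.mul_sum, ← Finset.mul_sum] at h
    exact h
  have hq0 : (q : ℤ) ≠ 0 := by omega
  have hBX : B = D * X := mul_left_cancel₀ hq0 (by rw [← hxB, hxX, mul_assoc])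
  have hXZ : X = D * Z := mul_left_cancel₀ hq0 (by rw [hzz, mul_assoc])
  have hNB : 2 * (Nat.card Ω : ℤ) = q * D * B := by
    rw [hN, Nat.cast_sum, Finset.mul_sum, Finset.mul_sum]
    exact Finset.sum_congr rfl fun o _ => by rw [Nat.cast_mul, ← mul_assoc, hw'' o]
  exact homog_contra hj hq hqe
    (by rcases hd o0 with h | h <;> omega) (Int.natCast_nonneg u) (Int.natCast_nonneg v) huv
    (SU := SU) (SV := SV) (Finset.sum_nonneg fun o _ => Int.natCast_nonneg _)
    (Finset.sum_nonneg fun o _ => Int.natCast_nonneg _)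
    (by
      have h := Finset.single_le_sum (f := fun o => (b o : ℤ)) (fun o _ => Int.natCast_nonneg _)
        (Finset.mem_univ o0)
      have := hbP o0
      omega)
    hNx hT' hNB hxX hBX hXZ

end Cfsg.Agent.H2.MinIdx
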