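import Cfsg.Agent.H2.MinIdx.Split

/-!
The orbits of `Sp₂ × Sp_{2n}` on a small set, in characteristic two.
-/

set_option autoImplicit false

namespace Cfsg.Agent.H2.MinIdx

open Matrix MulAction
open scoped MatrixGroups

variable {n : ℕ} {F : Type*} [Field F] [Fintype F]
variable {Ω : Type*} [MulAction (Matrix.symplecticGroup (Fin (n + 1)) F) Ω]

local notation "Pr" => SL(2, F) × Matrix.symplecticGroup (Fin n) F

/-- The action of the product of the Levi factors. -/
@[instance_reducible] noncomputable def pairAct :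
    MulAction (SL(2, F) × Matrix.symplecticGroup (Fin n) F) Ω :=
  MulAction.compHom Ω pairHom

attribute [local instance] pairAct

omit [Fintype F] in
lemma pts_succ (n q : ℕ) : pts (n + 1) q = q + 1 + q * q * pts n q := by
  rw [pts, pts, show 2 * (n + 1) = 2 * n + 1 + 1 by ring, geom_sum_succ, geom_sum_succ]
  ring

omit [Fintype F] in
lemma succ_le_pts {n : ℕ} (q : ℕ) (hn : 1 ≤ n) : q + 1 ≤ pts n q := by
  obtain ⟨j, rfl⟩ : ∃ j, n = j + 1 := ⟨n - 1, by omega⟩
  rw [pts_succ]; omega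

/-- The second Levi factor at a point. -/
noncomputable def levi (ω : Ω) : Subgroup (Matrix.symplecticGroup (Fin n) F) :=
  (stabilizer (Matrix.symplecticGroup (Fin (n + 1)) F) ω).comap incl

lemma stab_inl (ω : Ω) :
    (stabilizer Pr ω).comap (MonoidHom.inl _ _) = slStab (n := n) (F := F) ω := by
  ext g
  show pairHom (g, (1 : Matrix.symplecticGroup (Fin n) F)) • ω = ω ↔ _
  rw [pairHom_apply, map_one, mul_one]
  rfl

lemma stab_inr (ω : Ω) :
    (stabilizer Pr ω).comap (MonoidHom.inr _ _) = levi (n := n) (F := F) ω := by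
  ext g
  show pairHom ((1 : SL(2, F)), g) • ω = ω ↔ _
  rw [pairHom_apply, map_one, one_mul]
  rfl

omit [Field F] [Fintype F] in
/-- Fixed cosets, as a count of conjugators. -/
lemma fx_coset {L : Type*} [Group L] [Finite L] (L0 : Subgroup L) (l : L) :
    fx (L ⧸ L0) l * Nat.card L0 = Nat.card {g : L // g⁻¹ * l * g ∈ L0} := by
  have h := fx_orbit (P := L) ((1 : L) : L ⧸ L0) l
  rw [MulAction.stabilizer_quotient] at h
  rw [← h]
  congr 1
  refine Nat.card_congr (Equiv.subtypeEquiv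
    ((Equiv.setCongr (orbit_eq_univ L ((1 : L) : L ⧸ L0))).trans (Equiv.Set.univ _)) fun x => ?_).symm
  simp only [MulAction.mem_fixedBy, Subtype.ext_iff]
  rfl

lemma card_SL2_lt_sp (hn : 2 ≤ n) :
    Nat.card SL(2, F) < Nat.card (Matrix.symplecticGroup (Fin n) F) := by
  classical
  have hq : 2 ≤ Fintype.card F := Fintype.one_lt_card
  rw [card_SL2, card_sp, Nat.card_eq_fintype_card]
  set q := Fintype.card F
  have hf : ∀ i : ℕ, 1 ≤ q ^ (2 * (i + 1)) - 1 := fun i => by
    have : q ≤ q ^ (2 * (i + 1)) := Nat.le_self_pow (by omega) q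
    omega
  have h1 : q ^ 2 - 1 ≤ ∏ i ∈ Finset.range n, (q ^ (2 * (i + 1)) - 1) :=
    Finset.single_le_prod' (f := fun i => q ^ (2 * (i + 1)) - 1) (fun i _ => hf i)
      (Finset.mem_range.mpr (show 0 < n by omega))
  have h2 : q < q ^ (n ^ 2) := by
    calc q = q ^ 1 := (pow_one q).symm
      _ < q ^ (n ^ 2) := Nat.pow_lt_pow_right (by omega) (by nlinarith)
  have h3 : 1 ≤ q ^ 2 - 1 := hf 0
  calc q * (q ^ 2 - 1) < q ^ (n ^ 2) * (q ^ 2 - 1) := Nat.mul_lt_mul_of_pos_right h2 h3
    _ ≤ _ := Nat.mul_le_mul_left _ h1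

/-- The shape of an orbit of the product of the Levi factors. -/
theorem orbit_struct [Finite Ω] (h2 : (2 : F) = 0) (hn : 2 ≤ n) (h4 : 4 ≤ Fintype.card F)
    (IH : ∀ R : Subgroup (Matrix.symplecticGroup (Fin n) F), R ≠ ⊤ →
      pts n (Fintype.card F) ≤ R.index)
    (hsmall : Nat.card Ω < pts (n + 1) (Fintype.card F))
    (hmove : ∀ (ω : Ω) (p : Fin (n + 1) ⊕ Fin (n + 1) → F), p ≠ 0 → ∃ t, transv p t • ω ≠ ω)
    (hle : ∀ ω : Ω, Nat.card (zSub (n := n) (F := F) ω) ≤ 2) (ω : Ω) :
    ∃ w b : ℕ, Nat.card (orbit Pr ω) = w * b ∧ pts n (Fintype.card F) ≤ b ∧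
      ((w + Fintype.card F = Fintype.card F * Fintype.card F ∧
          fx (orbit Pr ω) ((H92.sx 1, 1) : Pr) = 0) ∨
        ∃ d, (d + 1 = Fintype.card F ∨ d = Fintype.card F + 1) ∧ 2 * w = Fintype.card F * d ∧
          2 * fx (orbit Pr ω) ((H92.sx 1, 1) : Pr) = Fintype.card F * b ∧
          ∃ L0 : Subgroup (Matrix.symplecticGroup (Fin n) F), L0.index = b ∧
            ∀ l, fx (orbit Pr ω) ((1, l) : Pr) = w * fx (Matrix.symplecticGroup (Fin n) F ⧸ L0) l ∧
              2 * fx (orbit Pr ω) ((H92.sx 1, l) : Pr) =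
                Fintype.card F * fx (Matrix.symplecticGroup (Fin n) F ⧸ L0) l) := by
  classical
  set q := Fintype.card F with hq
  set K := stabilizer Pr ω with hKdef
  set S0 := slStab (n := n) (F := F) ω
  set L0 := levi (n := n) (F := F) ω
  set pS := K.map (MonoidHom.fst SL(2, F) (Matrix.symplecticGroup (Fin n) F))
  set pL := K.map (MonoidHom.snd SL(2, F) (Matrix.symplecticGroup (Fin n) F))
  have hS0 : K.comap (MonoidHom.inl _ _) = S0 := stab_inl ω
  have hL0 : K.comap (MonoidHom.inr _ _) = L0 := stab_inr ω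
  have hfst := card_eq_fst K
  have hsnd := card_eq_snd K
  rw [hL0] at hfst
  rw [hS0] at hsnd
  have hpL : pL ≠ ⊤ := by
    intro htop
    have hnor : L0.Normal := ⟨fun r hr m => by
      rw [← hL0] at hr ⊢
      exact snd_normalises K (show m ∈ pL by rw [htop]; trivial) hr⟩
    rcases normal_sp h2 (by omega) (commutator_sp_eq_top (Or.inr (Or.inr h4))) L0 with h | h
    · change Nat.card K = Nat.card pS * Nat.card L0 at hfst
      change Nat.card K = Nat.card S0 * Nat.card pL at hsnd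
      rw [h, Subgroup.card_bot, mul_one] at hfst
      rw [htop, Subgroup.card_top] at hsnd
      have h5 : Nat.card pS ≤ Nat.card SL(2, F) := Subgroup.card_le_card_group pS
      have h6 := card_SL2_lt_sp (F := F) hn
      have : 0 < Nat.card S0 := Nat.card_pos
      nlinarith
    · obtain ⟨t, ht⟩ := hmove ω (up (a1 (F := F) (n := n) (by omega)))
        fun h0 => a1_ne_zero (F := F) (n := n) (by omega) (up_injective (h0.trans (map_zero up).symm))
      refine ht ?_
      have : transv (a1 (F := F) (n := n) (by omega)) t ∈ L0 := by rw [h]; trivial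
      rw [← incl_transv]
      exact this
  set w := S0.index with hw
  set b := pL.index with hb
  have hb1 : pts n q ≤ b := IH pL hpL
  have hKcard : Nat.card K = Nat.card S0 * Nat.card pL := hsnd
  have horb : Nat.card (orbit Pr ω) = w * b := by
    have h := K.card_mul_index
    rw [hKdef, index_stabilizer, ← Nat.card_coe_set_eq, ← hKdef, hKcard, Nat.card_prod,
      ← S0.card_mul_index, ← pL.card_mul_index] at h
    apply Nat.eq_of_mul_eq_mul_left (Nat.mul_pos (Nat.card_pos (α := S0)) (Nat.card_pos (α := pL)))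
    rw [h]; ring
  have hN : w * b ≤ Nat.card Ω := horb ▸ Nat.card_le_card_of_injective _ Subtype.val_injective
  have hwq : w ≤ q * q := by
    by_contra hgt
    have h5 : (q * q + 1) * pts n q ≤ w * b := Nat.mul_le_mul (by omega) hb1
    have h6 := succ_le_pts q (show 1 ≤ n by omega)
    rw [pts_succ] at hsmall
    rw [Nat.add_mul, one_mul] at h5
    omega
  have hA : Nat.card S0 * w = q * (q ^ 2 - 1) := by rw [hw, Subgroup.card_mul_index, card_SL2]
  have hS0q : q ≤ Nat.card S0 := by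
    by_contra hlt
    have h5 : Nat.card S0 * w ≤ (q - 1) * (q * q) := Nat.mul_le_mul (by omega) hwq
    rw [hA] at h5
    obtain ⟨r, hr⟩ : ∃ r, q = r + 1 := ⟨q - 1, by omega⟩
    rw [hr, show r + 1 - 1 = r by omega, show (r + 1) ^ 2 - 1 = r * (r + 2) by
      rw [Nat.sub_eq_iff_eq_add (Nat.one_le_pow _ _ (by omega))]; ring] at h5
    nlinarith
  obtain ⟨-, htype⟩ := small_struct h2 S0 (by omega) (slStab_small h2 hle ω)
  -- fixed points of the first factor
  have hfxt : fx (orbit Pr ω) ((H92.sx 1, 1) : Pr) * Nat.card S0 =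
      q * Nat.card {r : SL(2, F) // r ∈ S0 ∧ r ≠ 1 ∧ r * r = 1} * b := by
    have h := fx_orbit (P := Pr) ω ((H92.sx 1, 1) : Pr)
    have e : Nat.card {g : Pr // g⁻¹ * ((H92.sx 1, 1) : Pr) * g ∈ stabilizer Pr ω} =
        Nat.card {a : SL(2, F) // a⁻¹ * H92.sx 1 * a ∈ S0} *
          Nat.card (Matrix.symplecticGroup (Fin n) F) := by
      rw [← Nat.card_prod]
      refine Nat.card_congr ((Equiv.subtypeEquivRight fun g => ?_).trans
        Equiv.prodSubtypeFstEquivSubtypeProd)
      rw [← hS0, Subgroup.mem_comap, show g⁻¹ * ((H92.sx 1, 1) : Pr) * g =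
        (g.1⁻¹ * H92.sx 1 * g.1, 1) from Prod.ext rfl (by simp)]
      rfl
    rw [e, count_invol h2 S0 sx_one_ne (sx_trace h2 1), ← pL.card_mul_index, ← hKdef, hKcard,
      ← hq, ← hb] at h
    apply Nat.eq_of_mul_eq_mul_right (Nat.card_pos (α := pL))
    linear_combination h
  refine ⟨w, b, horb, hb1, ?_⟩
  rcases htype hS0q h4 with ⟨hcard, hnoinv⟩ | ⟨k, hk, hcard, hself, hinv⟩
  · left
    refine ⟨?_, ?_⟩
    · rw [hcard, show q ^ 2 - 1 = (q + 1) * (q - 1) by rw [← Nat.sq_sub_sq, one_pow]] at hA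
      have h5 : w = q * (q - 1) := by
        apply Nat.eq_of_mul_eq_mul_left (show 0 < q + 1 by omega)
        rw [hA]; ring
      rw [h5]
      obtain ⟨r, hr⟩ : ∃ r, q = r + 1 := ⟨q - 1, by omega⟩
      rw [hr, Nat.add_sub_cancel]; ring
    · have h0 : Nat.card {r : SL(2, F) // r ∈ S0 ∧ r ≠ 1 ∧ r * r = 1} = 0 :=
        Nat.card_eq_zero.mpr (Or.inl ⟨fun r => r.2.2.1 (hnoinv r.1 r.2.1 r.2.2.2)⟩)
      rw [h0, mul_zero, zero_mul] at hfxt
      exact (mul_eq_zero.mp hfxt).resolve_right (Nat.card_pos (α := S0)).ne'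
  · right
    have hk0 : 0 < k := by omega
    have hpS : pS = K.comap (MonoidHom.inl _ _) := by
      rw [hS0]
      exact hself pS (hS0 ▸ comap_inl_le K) fun m hm r hr => by
        rw [← hS0] at hr ⊢
        exact fst_normalises K hm hr
    obtain ⟨hprod, hpL0⟩ := eq_prod K hpS
    rw [hS0, hL0] at hprod
    rw [hL0] at hpL0
    change pL = L0 at hpL0
    obtain ⟨d, hd, hkd⟩ : ∃ d, (d + 1 = q ∨ d = q + 1) ∧ q ^ 2 - 1 = k * d := by
      rcases hk with h | h
      · exact ⟨q - 1, Or.inl (by omega), by rw [h, ← Nat.sq_sub_sq, one_pow]⟩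
      · exact ⟨q + 1, Or.inr rfl, by
          rw [show k = q - 1 by omega, mul_comm (q - 1), ← Nat.sq_sub_sq, one_pow]⟩
    refine ⟨d, hd, ?_, ?_, L0, by rw [hb, hpL0], fun l => ?_⟩
    · rw [hkd, hcard] at hA
      apply Nat.eq_of_mul_eq_mul_left hk0
      linear_combination hA
    · rw [hcard, hinv] at hfxt
      apply Nat.eq_of_mul_eq_mul_left hk0
      linear_combination hfxt
    have hcnt := fx_coset L0 l
    have hiff : ∀ (c : SL(2, F)) (g : Pr), g⁻¹ * ((c, l) : Pr) * g ∈ K ↔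
        g.1⁻¹ * c * g.1 ∈ S0 ∧ g.2⁻¹ * l * g.2 ∈ L0 := fun c g => by
      rw [hprod, Subgroup.mem_prod]
      simp
    have hpos : 0 < Nat.card S0 * Nat.card L0 := Nat.mul_pos Nat.card_pos Nat.card_pos
    refine ⟨?_, ?_⟩
    · have h := fx_orbit (P := Pr) ω ((1, l) : Pr)
      have e : Nat.card {g : Pr // g⁻¹ * ((1, l) : Pr) * g ∈ stabilizer Pr ω} =
          Nat.card SL(2, F) *
            Nat.card {g : Matrix.symplecticGroup (Fin n) F // g⁻¹ * l * g ∈ L0} := by
        rw [← Nat.card_congr (Equiv.subtypeUnivEquiv (p := fun a : SL(2, F) => a⁻¹ * 1 * a ∈ S0)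
          fun a => by simp), ← Nat.card_prod]
        exact Nat.card_congr ((Equiv.subtypeEquivRight fun g => hiff 1 g).trans
          (Equiv.subtypeProdEquivProd (p := fun a : SL(2, F) => a⁻¹ * 1 * a ∈ S0)
            (q := fun g : Matrix.symplecticGroup (Fin n) F => g⁻¹ * l * g ∈ L0)))
      rw [e, ← hcnt, ← hKdef, hKcard, hpL0, ← S0.card_mul_index, ← hw] at h
      apply Nat.eq_of_mul_eq_mul_right hpos
      linear_combination h
    · have h := fx_orbit (P := Pr) ω ((H92.sx 1, l) : Pr)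
      have e : Nat.card {g : Pr // g⁻¹ * ((H92.sx 1, l) : Pr) * g ∈ stabilizer Pr ω} =
          Nat.card {a : SL(2, F) // a⁻¹ * H92.sx 1 * a ∈ S0} *
            Nat.card {g : Matrix.symplecticGroup (Fin n) F // g⁻¹ * l * g ∈ L0} := by
        rw [← Nat.card_prod]
        exact Nat.card_congr ((Equiv.subtypeEquivRight fun g => hiff _ g).trans
          (Equiv.subtypeProdEquivProd (p := fun a : SL(2, F) => a⁻¹ * H92.sx 1 * a ∈ S0)
            (q := fun g : Matrix.symplecticGroup (Fin n) F => g⁻¹ * l * g ∈ L0)))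
      rw [e, count_invol h2 S0 sx_one_ne (sx_trace h2 1), hinv, ← hcnt, ← hKdef, hKcard, hpL0,
        hcard, ← hq] at h
      apply Nat.eq_of_mul_eq_mul_left (Nat.mul_pos hk0 (Nat.card_pos (α := L0)))
      linear_combination h

end Cfsg.Agent.H2.MinIdx
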