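import Cfsg.Agent.H2.MinIdx.Geom
import Cfsg.Agent.H2.Card

/-!
A proper subgroup of `Sp_{2m}(q)` containing all transvections with a given centre has index at least
the number of points.
-/

set_option autoImplicit false

namespace Cfsg.Agent.H2.MinIdx

open Matrix MulAction
open scoped Pointwise

variable {m n : ℕ} {F : Type*} [Field F]

local notation "⟪" u ", " v "⟫" => Cfsg.sympForm _ F u v

/-- A totally isotropic subspace. -/
def TI (X : Submodule F (Fin m ⊕ Fin m → F)) : Prop := ∀ x ∈ X, ∀ y ∈ X, ⟪x, y⟫ = 0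

/-- The orthogonal subspace. -/
abbrev perp (X : Submodule F (Fin m ⊕ Fin m → F)) : Submodule F (Fin m ⊕ Fin m → F) :=
  (sympBilin m F).orthogonal X

lemma mem_perp {X : Submodule F (Fin m ⊕ Fin m → F)} {y : Fin m ⊕ Fin m → F} :
    y ∈ perp X ↔ ∀ x ∈ X, ⟪x, y⟫ = 0 :=
  ⟨fun h x hx => by simpa using h x hx, fun h x hx => by
    show sympBilin m F x y = 0
    rw [sympBilin_apply]; exact h x hx⟩

lemma act_mem_smul {X : Submodule F (Fin m ⊕ Fin m → F)} (g : Matrix.symplecticGroup (Fin m) F)
    {x : Fin m ⊕ Fin m → F} (hx : x ∈ X) : act g x ∈ g • X :=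
  Submodule.smul_mem_pointwise_smul x g X hx

lemma mem_smul_iff {X : Submodule F (Fin m ⊕ Fin m → F)} (g : Matrix.symplecticGroup (Fin m) F)
    {x : Fin m ⊕ Fin m → F} : x ∈ g • X ↔ act g⁻¹ x ∈ X := by
  constructor
  · intro h
    have := act_mem_smul g⁻¹ h
    rwa [inv_smul_smul] at this
  · intro h
    have := act_mem_smul g h
    rwa [act_act_inv] at this

lemma finrank_smul_sub (g : Matrix.symplecticGroup (Fin m) F) (X : Submodule F (Fin m ⊕ Fin m → F)) :
    Module.finrank F (g • X : Submodule F (Fin m ⊕ Fin m → F)) = Module.finrank F X := by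
  have e : g • X = X.map (spRho m F g) := by
    ext x
    rw [mem_smul_iff, Submodule.mem_map]
    exact ⟨fun h => ⟨_, h, by rw [spRho_apply]; exact act_act_inv g x⟩, by
      rintro ⟨y, hy, rfl⟩
      rw [spRho_apply]
      exact (act_inv_act g y).symm ▸ hy⟩
  rw [e]
  refine (Submodule.equivMapOfInjective _ ?_ X).finrank_eq.symm
  intro x y h
  exact act_injective g (by simpa using h)

lemma TI.smul {X : Submodule F (Fin m ⊕ Fin m → F)} (h : TI X)
    (g : Matrix.symplecticGroup (Fin m) F) : TI (g • X) := by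
  intro x hx y hy
  rw [mem_smul_iff] at hx hy
  rw [← form_act g⁻¹]
  exact h _ hx _ hy

lemma smul_perp (g : Matrix.symplecticGroup (Fin m) F) (X : Submodule F (Fin m ⊕ Fin m → F)) :
    g • perp X = perp (g • X) := by
  ext y
  rw [mem_smul_iff, mem_perp, mem_perp]
  constructor
  · intro h x hx
    rw [← form_act g⁻¹]
    exact h _ ((mem_smul_iff g).mp hx)
  · intro h x hx
    rw [← form_act g, act_act_inv]
    exact h _ (act_mem_smul g hx)

lemma finrank_perp (X : Submodule F (Fin m ⊕ Fin m → F)) :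
    Module.finrank F (perp X) = 2 * m - Module.finrank F X := by
  rw [perp, LinearMap.BilinForm.finrank_orthogonal (sympBilin_nondegenerate m F)]
  simp [two_mul]

variable [Fintype F]

/-- Double counting of incidences of vectors and a transitive family of subspaces. -/
theorem orbit_count (X : Submodule F (Fin (n + 1) ⊕ Fin (n + 1) → F)) :
    Nat.card (orbit (Matrix.symplecticGroup (Fin (n + 1)) F) X) *
        (Fintype.card F ^ Module.finrank F X - 1) =
      (Fintype.card F ^ (2 * (n + 1)) - 1) *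
        Nat.card {Y : orbit (Matrix.symplecticGroup (Fin (n + 1)) F) X // e0 ∈ Y.1} := by
  classical
  let G := Matrix.symplecticGroup (Fin (n + 1)) F
  let V := Fin (n + 1) ⊕ Fin (n + 1) → F
  have := Fintype.ofFinite (orbit G X)
  let e : (Σ Y : orbit G X, {x : Y.1 // x ≠ 0}) ≃
      Σ x : {x : V // x ≠ 0}, {Y : orbit G X // x.1 ∈ Y.1} :=
    { toFun := fun p => ⟨⟨p.2.1.1, fun h => p.2.2 (Subtype.ext h)⟩, p.1, p.2.1.2⟩
      invFun := fun p => ⟨p.2.1, ⟨p.1.1, p.2.2⟩, fun h => p.1.2 (congrArg Subtype.val h)⟩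
      left_inv := fun p => rfl
      right_inv := fun p => rfl }
  have hc := Nat.card_congr e
  rw [Nat.card_sigma, Nat.card_sigma] at hc
  have h1 : ∀ Y : orbit G X, Nat.card {x : Y.1 // x ≠ 0} =
      Fintype.card F ^ Module.finrank F X - 1 := by
    rintro ⟨-, g, rfl⟩
    rw [Nat.card_eq_fintype_card, Fintype.card_subtype_compl, Fintype.card_subtype_eq,
      ← Nat.card_eq_fintype_card, Module.natCard_eq_pow_finrank (K := F), Nat.card_eq_fintype_card]
    exact congrArg (fun d => Fintype.card F ^ d - 1) (finrank_smul_sub g X)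
  have h2 : ∀ x : {x : V // x ≠ 0}, Nat.card {Y : orbit G X // x.1 ∈ Y.1} =
      Nat.card {Y : orbit G X // e0 ∈ Y.1} := by
    rintro ⟨x, hx⟩
    obtain ⟨g, hg⟩ := exists_map_vec (e0_ne_zero (F := F) (n := n)) hx
    refine Nat.card_congr (Equiv.subtypeEquiv (MulAction.toPerm g⁻¹) fun Y => ?_)
    show x ∈ Y.1 ↔ e0 ∈ g⁻¹ • Y.1
    rw [mem_smul_iff, inv_inv]
    exact iff_of_eq (by rw [show act g e0 = x from hg])
  rw [Finset.sum_congr rfl fun Y _ => h1 Y, Finset.sum_congr rfl fun x _ => h2 x, Finset.sum_const,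
    Finset.sum_const, Finset.card_univ, Finset.card_univ, smul_eq_mul, smul_eq_mul,
    ← Nat.card_eq_fintype_card] at hc
  rw [hc, Fintype.card_subtype_compl, Fintype.card_subtype_eq, Fintype.card_fun, Fintype.card_sum,
    Fintype.card_fin, two_mul]

lemma exists_translate_e0 {X : Submodule F (Fin (n + 1) ⊕ Fin (n + 1) → F)} (hX : X ≠ ⊥) :
    ∃ g : Matrix.symplecticGroup (Fin (n + 1)) F, e0 ∈ g • X := by
  obtain ⟨x, hx, hx0⟩ := (Submodule.ne_bot_iff X).mp hX
  obtain ⟨g, hg⟩ := exists_map_vec hx0 (e0_ne_zero (F := F) (n := n))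
  exact ⟨g, hg ▸ act_mem_smul g hx⟩

/-- A totally isotropic subspace has at least as many translates as there are points. -/
theorem ti_orbit_ge (n : ℕ) (X : Submodule F (Fin (n + 1) ⊕ Fin (n + 1) → F)) (hX : X ≠ ⊥)
    (hti : TI X) : Fintype.card F ^ (2 * (n + 1)) - 1 ≤
      Nat.card (orbit (Matrix.symplecticGroup (Fin (n + 1)) F) X) * (Fintype.card F - 1) := by
  induction n with
  | zero =>
    have hk : Module.finrank F X = 1 := by
      have h1 := finrank_perp X
      have h2 : Module.finrank F X ≤ Module.finrank F (perp X) :=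
        Submodule.finrank_mono fun x hx => mem_perp.mpr fun y hy => hti y hy x hx
      have h3 : Module.finrank F X ≠ 0 := fun h => hX (Submodule.finrank_eq_zero.mp h)
      omega
    obtain ⟨g, hg⟩ := exists_translate_e0 hX
    have : Nonempty {Y : orbit (Matrix.symplecticGroup (Fin (0 + 1)) F) X // e0 ∈ Y.1} :=
      ⟨⟨⟨_, mem_orbit X g⟩, hg⟩⟩
    have hpos := Nat.card_pos (α := {Y : orbit (Matrix.symplecticGroup (Fin (0 + 1)) F) X // e0 ∈ Y.1})
    have hoc := orbit_count X
    rw [hk, pow_one] at hoc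
    rw [hoc]
    exact Nat.le_mul_of_pos_right _ hpos
  | succ n ih =>
    obtain ⟨g₀, hg₀⟩ := exists_translate_e0 hX
    set X0 := g₀ • X with hX0
    have hti0 : TI X0 := hti.smul g₀
    have horb : orbit (Matrix.symplecticGroup (Fin (n + 1 + 1)) F) X0 =
        orbit (Matrix.symplecticGroup (Fin (n + 1 + 1)) F) X := orbit_eq_iff.mpr (mem_orbit X g₀)
    rw [← horb]
    have hq : 2 ≤ Fintype.card F := Fintype.one_lt_card
    set k := Module.finrank F X0 with hk
    have hk0 : k ≠ 0 := fun h =>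
      e0_ne_zero (F := F) (n := n + 1) (by simpa [Submodule.finrank_eq_zero.mp h] using hg₀)
    have hkle : k ≤ n + 2 := by
      have h1 := finrank_perp X0
      have h2 : Module.finrank F X0 ≤ Module.finrank F (perp X0) :=
        Submodule.finrank_mono fun x hx => mem_perp.mpr fun y hy => hti0 y hy x hx
      omega
    let S0 := {Y : orbit (Matrix.symplecticGroup (Fin (n + 1 + 1)) F) X0 // e0 ∈ Y.1}
    have : Nonempty S0 := ⟨⟨⟨X0, mem_orbit_self X0⟩, hg₀⟩⟩
    have hpos := Nat.card_pos (α := S0)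
    have hoc := orbit_count X0
    have hkey : Fintype.card F ^ k - 1 ≤ Nat.card S0 * (Fintype.card F - 1) := by
      rcases Nat.lt_or_ge k 2 with hk2 | hk2
      · have : k = 1 := by omega
        rw [this, pow_one]
        exact Nat.le_mul_of_pos_left _ hpos
      let X' := X0.map down
      have hdec : ∀ x ∈ X0, x = ⟪x, f0⟫ • e0 + up (down x) := fun x hx => by
        conv_lhs => rw [decomp x, hti0 _ hg₀ _ hx, zero_smul, add_zero]
      have hX0eq : X0 = Submodule.span F {e0} ⊔ X'.map up := by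
        refine le_antisymm (fun x hx => ?_) (sup_le ?_ ?_)
        · rw [hdec x hx]
          exact Submodule.add_mem_sup (Submodule.smul_mem _ _ (Submodule.mem_span_singleton_self _))
            (Submodule.mem_map_of_mem (Submodule.mem_map_of_mem hx))
        · rwa [Submodule.span_singleton_le_iff_mem]
        · rintro _ ⟨_, ⟨x, hx, rfl⟩, rfl⟩
          have := X0.sub_mem hx (X0.smul_mem ⟪x, f0⟫ hg₀)
          rwa [eq_sub_of_add_eq' (hdec x hx).symm]
      have hti' : TI X' := by
        rintro _ ⟨x, hx, rfl⟩ _ ⟨y, hy, rfl⟩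
        have := form_decomp x y
        rwa [hti0 x hx y hy, hti0 _ hg₀ x hx, hti0 _ hg₀ y hy, mul_zero, zero_mul, sub_zero,
          zero_add, eq_comm] at this
      have hX' : X' ≠ ⊥ := by
        intro h
        have hle : X0 ≤ Submodule.span F {e0} := by
          rw [hX0eq, h, Submodule.map_bot, sup_bot_eq]
        have := Submodule.finrank_mono hle
        rw [finrank_span_singleton (e0_ne_zero (F := F) (n := n + 1))] at this
        omega
      have hsmul : ∀ g : Matrix.symplecticGroup (Fin (n + 1)) F,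
          incl g • X0 = Submodule.span F {e0} ⊔ (g • X').map up := by
        intro g
        refine le_antisymm (fun x hx => ?_) (sup_le ?_ ?_)
        · rw [mem_smul_iff] at hx
          obtain ⟨y, hy, rfl⟩ : ∃ y ∈ X0, x = act (incl g) y := ⟨_, hx, (act_act_inv _ _).symm⟩
          rw [show act (incl g) y = ⟪y, f0⟫ • e0 + up (act g (down y)) by
            conv_lhs => rw [hdec y hy]
            rw [act_add, act_smul, act_incl_e0, act_incl_up]]
          exact Submodule.add_mem_sup (Submodule.smul_mem _ _ (Submodule.mem_span_singleton_self _))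
            (Submodule.mem_map_of_mem (act_mem_smul g (Submodule.mem_map_of_mem hy)))
        · rw [Submodule.span_singleton_le_iff_mem]
          simpa using act_mem_smul (incl g) hg₀
        · rintro _ ⟨a, ha, rfl⟩
          rw [SetLike.mem_coe, mem_smul_iff] at ha
          obtain ⟨y, hy, hya⟩ := ha
          have h1 : y - ⟪y, f0⟫ • e0 = up (down y) := sub_eq_of_eq_add' (hdec y hy)
          have h2 := act_mem_smul (incl g) (X0.sub_mem hy (X0.smul_mem ⟪y, f0⟫ hg₀))
          rw [h1, act_incl_up, hya, act_act_inv] at h2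
          exact h2
      have hdown : ∀ Y : Submodule F (Fin (n + 1) ⊕ Fin (n + 1) → F),
          (Submodule.span F {e0} ⊔ Y.map up).map down = Y := by
        intro Y
        rw [Submodule.map_sup, Submodule.map_span, Set.image_singleton, down_e0,
          Submodule.span_zero_singleton, bot_sup_eq, ← Submodule.map_comp]
        rw [show (down : (Fin (n + 1 + 1) ⊕ Fin (n + 1 + 1) → F) →ₗ[F] _) ∘ₗ up = LinearMap.id from
          LinearMap.ext fun a => down_up a, Submodule.map_id]
      let ι : orbit (Matrix.symplecticGroup (Fin (n + 1)) F) X' → S0 := fun Y =>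
        ⟨⟨Submodule.span F {e0} ⊔ Y.1.map up, by
          obtain ⟨g, hg⟩ := Y.2
          exact ⟨incl g, (hsmul g).trans (by rw [show g • X' = Y.1 from hg])⟩⟩,
          Submodule.mem_sup_left (Submodule.mem_span_singleton_self _)⟩
      have hι : Function.Injective ι := fun Y Z h => by
        have := congrArg (fun T : S0 => (T.1.1).map down) h
        simp only [ι, hdown] at this
        exact Subtype.ext this
      calc Fintype.card F ^ k - 1 ≤ Fintype.card F ^ (2 * (n + 1)) - 1 :=
            Nat.sub_le_sub_right (Nat.pow_le_pow_right (by omega) (by omega)) 1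
        _ ≤ _ := ih X' hX' hti'
        _ ≤ _ := Nat.mul_le_mul_right _ (Nat.card_le_card_of_injective ι hι)
    have hkpos : 0 < Fintype.card F ^ k - 1 := by
      have := Nat.one_lt_pow hk0 hq
      omega
    refine Nat.le_of_mul_le_mul_right ?_ hkpos
    calc (Fintype.card F ^ (2 * (n + 1 + 1)) - 1) * (Fintype.card F ^ k - 1)
        ≤ (Fintype.card F ^ (2 * (n + 1 + 1)) - 1) * (Nat.card S0 * (Fintype.card F - 1)) :=
          Nat.mul_le_mul_left _ hkey
      _ = Nat.card (orbit (Matrix.symplecticGroup (Fin (n + 1 + 1)) F) X0) *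
            (Fintype.card F ^ k - 1) * (Fintype.card F - 1) := by rw [hoc]; ring
      _ = _ := by ring

/-- Translates of a non-degenerate subspace. -/
theorem nondeg_orbit_ge (X : Submodule F (Fin (n + 1) ⊕ Fin (n + 1) → F)) (hX : X ≠ ⊥)
    (hnd : X ⊓ perp X = ⊥) :
    (Fintype.card F ^ (2 * (n + 1)) - 1) *
        Fintype.card F ^ (2 * (n + 1) - Module.finrank F X) ≤
      Nat.card (orbit (Matrix.symplecticGroup (Fin (n + 1)) F) X) *
        (Fintype.card F ^ Module.finrank F X - 1) := by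
  obtain ⟨g₀, hg₀⟩ := exists_translate_e0 hX
  have horb : orbit (Matrix.symplecticGroup (Fin (n + 1)) F) (g₀ • X) =
      orbit (Matrix.symplecticGroup (Fin (n + 1)) F) X := orbit_eq_iff.mpr (mem_orbit X g₀)
  rw [← horb, ← finrank_smul_sub g₀ X]
  set X0 := g₀ • X
  have hnd0 : X0 ⊓ perp X0 = ⊥ := by
    rw [eq_bot_iff]
    rintro x ⟨hx, hx'⟩
    rw [SetLike.mem_coe, ← smul_perp, mem_smul_iff] at hx'
    have : act g₀⁻¹ x ∈ X ⊓ perp X := ⟨(mem_smul_iff g₀).mp hx, hx'⟩
    rw [hnd, Submodule.mem_bot] at this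
    rw [Submodule.mem_bot]
    exact act_injective g₀⁻¹ (this.trans (act_zero _).symm)
  obtain ⟨z, hz, hze⟩ : ∃ z ∈ X0, ⟪z, e0⟫ ≠ 0 := by
    by_contra h
    push Not at h
    have : e0 ∈ X0 ⊓ perp X0 := ⟨hg₀, mem_perp.mpr h⟩
    rw [hnd0, Submodule.mem_bot] at this
    exact e0_ne_zero this
  have hor : ∀ a : perp X0, ⟪(a : Fin (n + 1) ⊕ Fin (n + 1) → F), e0⟫ = 0 := fun a =>
    fswap_zero (mem_perp.mp a.2 _ hg₀)
  have hfix : ∀ a : perp X0, act (qel e0 (a : Fin (n + 1) ⊕ Fin (n + 1) → F) 0) e0 = e0 := fun a => by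
    rw [act_qel (hor a), sympForm_self, fswap_zero (hor a)]; simp
  let ι : perp X0 → {Y : orbit (Matrix.symplecticGroup (Fin (n + 1)) F) X0 // e0 ∈ Y.1} := fun a =>
    ⟨⟨qel e0 (a : Fin (n + 1) ⊕ Fin (n + 1) → F) 0 • X0, mem_orbit _ _⟩, by
      simpa [hfix a] using act_mem_smul (qel e0 (a : Fin (n + 1) ⊕ Fin (n + 1) → F) 0) hg₀⟩
  have hι : Function.Injective ι := by
    intro a b h
    have h' : qel e0 (b : Fin (n + 1) ⊕ Fin (n + 1) → F) 0 • X0 =
        qel e0 (a : Fin (n + 1) ⊕ Fin (n + 1) → F) 0 • X0 :=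
      (congrArg (fun Y => Y.1.1) h).symm
    have hna : ⟪-(a : Fin (n + 1) ⊕ Fin (n + 1) → F), e0⟫ = 0 := by rw [fneg_l, hor a, neg_zero]
    have hmem := act_mem_smul (qel e0 (b : Fin (n + 1) ⊕ Fin (n + 1) → F) 0) hz
    rw [h', mem_smul_iff, ← act_mul, qel_inv (hor a), qel_mul hna (hor b),
      act_qel (by rw [fadd_l, hna, hor b, add_zero])] at hmem
    have hzz : ⟪z, -(a : Fin (n + 1) ⊕ Fin (n + 1) → F) + b⟫ = 0 := by
      rw [fadd_r, fneg_r, mem_perp.mp a.2 z hz, mem_perp.mp b.2 z hz, neg_zero, add_zero]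
    rw [hzz, zero_smul, add_zero] at hmem
    have h1 := X0.sub_mem (X0.sub_mem hmem hz) (X0.smul_mem
      ((-0 + 0 + ⟪(b : Fin (n + 1) ⊕ Fin (n + 1) → F), -(a : Fin (n + 1) ⊕ Fin (n + 1) → F)⟫) *
        ⟪z, e0⟫) hg₀)
    have h2 : ⟪z, e0⟫ • (-(a : Fin (n + 1) ⊕ Fin (n + 1) → F) + b) ∈ X0 := by
      convert h1 using 1; abel
    have h3 : -(a : Fin (n + 1) ⊕ Fin (n + 1) → F) + b ∈ X0 ⊓ perp X0 :=
      ⟨(Submodule.smul_mem_iff X0 hze).mp h2, (perp X0).add_mem ((perp X0).neg_mem a.2) b.2⟩
    rw [hnd0, Submodule.mem_bot, neg_add_eq_zero] at h3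
    exact Subtype.ext h3
  have hcard : Nat.card (perp X0) = Fintype.card F ^ (2 * (n + 1) - Module.finrank F X0) := by
    rw [Module.natCard_eq_pow_finrank (K := F), finrank_perp, Nat.card_eq_fintype_card]
  rw [orbit_count X0, ← hcard]
  exact Nat.mul_le_mul_left _ (Nat.card_le_card_of_injective ι hι)

lemma index_ge_orbit {m : ℕ} {H : Subgroup (Matrix.symplecticGroup (Fin m) F)}
    (X : Submodule F (Fin m ⊕ Fin m → F)) {k : ℕ} (hk : Nat.card (orbit H X) = k) :
    Nat.card (orbit (Matrix.symplecticGroup (Fin m) F) X) ≤ H.index * k := by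
  classical
  set S := stabilizer (Matrix.symplecticGroup (Fin m) F) X
  have h1 : (H ⊓ S).index = H.index * k := by
    rw [← hk, ← Subgroup.relIndex_mul_index (inf_le_left : H ⊓ S ≤ H), Subgroup.inf_relIndex_left,
      mul_comm]
    congr 1
    rw [Subgroup.relIndex, Nat.card_coe_set_eq, ← MulAction.index_stabilizer]
    congr 1
  rw [← h1, Nat.card_coe_set_eq, ← MulAction.index_stabilizer]
  exact Nat.le_of_dvd (Nat.pos_of_ne_zero Subgroup.index_ne_zero_of_finite)
    (Subgroup.index_dvd_of_le inf_le_right)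

lemma card_orbit_eq_one {m : ℕ} {H : Subgroup (Matrix.symplecticGroup (Fin m) F)}
    {X : Submodule F (Fin m ⊕ Fin m → F)} (h : ∀ g ∈ H, g • X = X) : Nat.card (orbit H X) = 1 := by
  have hs : Subsingleton (orbit H X) := ⟨by
    rintro ⟨-, a, rfl⟩ ⟨-, b, rfl⟩
    exact Subtype.ext ((h a.1 a.2).trans (h b.1 b.2).symm)⟩
  exact Nat.card_eq_one_iff_unique.mpr ⟨hs, ⟨⟨X, mem_orbit_self X⟩⟩⟩

private lemma two_mul_pow_ge {a : ℕ} (ha : 2 ≤ a) (j : ℕ) : j + 2 ≤ 2 * a ^ j := by
  induction j with
  | zero => simp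
  | succ j ih =>
    have h1 : 1 ≤ a ^ j := Nat.one_le_pow _ _ (by omega)
    have h2 : a ^ j * 2 ≤ a ^ j * a := Nat.mul_le_mul_left _ ha
    rw [pow_succ]; omega

/-- Core estimate. -/
theorem full_index_bound {H : Subgroup (Matrix.symplecticGroup (Fin (n + 1)) F)} (hn : 1 ≤ n)
    (hq : 3 ≤ Fintype.card F) {p : Fin (n + 1) ⊕ Fin (n + 1) → F} (hp : Full H p) (hH : H ≠ ⊤) :
    pts (n + 1) (Fintype.card F) ≤ H.index := by
  classical
  set q := Fintype.card F with hqdef
  have hpts := pts_mul (n + 1) (q := q) (by omega)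
  have hred : q ^ (2 * (n + 1)) - 1 ≤ H.index * (q - 1) → pts (n + 1) q ≤ H.index := fun h =>
    Nat.le_of_mul_le_mul_right (le_trans (by omega) h) (by omega : 0 < q - 1)
  have hinv : ∀ R : Submodule F (Fin (n + 1) ⊕ Fin (n + 1) → F), R ≠ ⊥ → TI R →
      (∀ g ∈ H, g • R = R) → pts (n + 1) q ≤ H.index := by
    intro R hR hti hst
    refine hred ((ti_orbit_ge n R hR hti).trans (Nat.mul_le_mul_right _ ?_))
    simpa using index_ge_orbit R (card_orbit_eq_one hst)
  by_cases hex : ∃ X, FullSpace H X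
  swap
  · -- all full centres are orthogonal
    have horth : ∀ a b, Full H a → Full H b → ⟪a, b⟫ = 0 := fun a b ha hb => by
      by_contra h; exact hex ⟨_, fullSpace_span ha hb h⟩
    let R := Submodule.span F {x | Full H x}
    have hti : TI R := by
      intro x hx y hy
      have hy' : ∀ a, Full H a → ⟪a, y⟫ = 0 := fun a ha => by
        induction hy using Submodule.span_induction with
        | mem b hb => exact horth a b ha hb
        | zero => exact fzero_r a
        | add _ _ _ _ h1 h2 => rw [fadd_r, h1, h2, add_zero]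
        | smul c _ _ h1 => rw [fsmul_r, h1, mul_zero]
      induction hx using Submodule.span_induction with
      | mem a ha => exact hy' a ha
      | zero => exact fzero_l y
      | add _ _ _ _ h1 h2 => rw [fadd_l, h1, h2, add_zero]
      | smul c _ _ h1 => rw [fsmul_l, h1, mul_zero]
    refine hinv R ?_ hti fun g hg => ?_
    · exact (Submodule.ne_bot_iff R).mpr ⟨p, Submodule.subset_span hp, hp.1⟩
    · have hle : ∀ h ∈ H, h • R ≤ R := fun h hh x hx => by
        rw [mem_smul_iff] at hx
        have : R ≤ R.comap (spRho (n + 1) F h) := Submodule.span_le.mpr fun a ha => by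
          simpa using Submodule.subset_span (R := F) (s := {x | Full H x}) (ha.act hh)
        have h3 := this hx
        rw [Submodule.mem_comap, spRho_apply] at h3
        rwa [show (h : Matrix _ _ F) *ᵥ act h⁻¹ x = x from act_act_inv h x] at h3
      refine le_antisymm (hle g hg) fun x hx => ?_
      rw [mem_smul_iff]
      exact hle g⁻¹ (H.inv_mem hg) (act_mem_smul g⁻¹ hx)
  obtain ⟨X, hX, hmax⟩ : ∃ X, FullSpace H X ∧
      ∀ Z, FullSpace H Z → Module.finrank F Z ≤ Module.finrank F X := by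
    obtain ⟨X, hX, hm⟩ := Set.exists_max_image {X | FullSpace H X}
      (fun X => Module.finrank F X) (Set.toFinite _) hex
    exact ⟨X, hX, hm⟩
  have htr : ∀ g ∈ H, FullSpace H (g • X) := by
    intro g hg
    refine ⟨fun x hx => ?_, ?_⟩
    · obtain ⟨hxm, z, hz, hxz⟩ := hx
      rw [mem_smul_iff] at hxm hz
      have hxz' : ⟪act g⁻¹ x, act g⁻¹ z⟫ ≠ 0 := by rwa [form_act]
      have h3 := (hX.1 _ ⟨hxm, _, hz, hxz'⟩).act hg
      rwa [act_act_inv] at h3
    · obtain ⟨w, hw, z, hz, hwz⟩ := hX.2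
      exact ⟨act g w, act_mem_smul g hw, act g z, act_mem_smul g hz, by rwa [form_act]⟩
  have hpair : ∀ g ∈ H, ∀ h ∈ H, h • X = g • X ∨ ∀ y ∈ h • X, ∀ x ∈ g • X, ⟪x, y⟫ = 0 :=
    fun g hg h hh => fullSpace_orth hq (htr g hg) (htr h hh)
      (fun Z hZ => (finrank_smul_sub g X).symm ▸ hmax Z hZ) (by rw [finrank_smul_sub, finrank_smul_sub])
  by_cases hrad : X ⊓ perp X = ⊥
  swap
  · -- the radicals span an invariant totally isotropic subspace
    let R := Submodule.span F {x | ∃ g ∈ H, x ∈ g • (X ⊓ perp X)}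
    have hgen : ∀ g ∈ H, ∀ x ∈ g • (X ⊓ perp X), x ∈ g • X ∧ ∀ y ∈ g • X, ⟪y, x⟫ = 0 := by
      intro g _ x hx
      rw [mem_smul_iff] at hx
      exact ⟨(mem_smul_iff g).mpr hx.1, fun y hy => by
        rw [← form_act g⁻¹]; exact mem_perp.mp hx.2 _ ((mem_smul_iff g).mp hy)⟩
    have hpz : ∀ a b, (∃ g ∈ H, a ∈ g • (X ⊓ perp X)) → (∃ g ∈ H, b ∈ g • (X ⊓ perp X)) →
        ⟪a, b⟫ = 0 := by
      rintro a b ⟨g, hg, ha⟩ ⟨h, hh, hb⟩
      rcases hpair g hg h hh with e | e
      · exact (hgen h hh b hb).2 a (e ▸ (hgen g hg a ha).1)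
      · exact e b (hgen h hh b hb).1 a (hgen g hg a ha).1
    have hti : TI R := by
      intro x hx y hy
      have hy' : ∀ a, (∃ g ∈ H, a ∈ g • (X ⊓ perp X)) → ⟪a, y⟫ = 0 := fun a ha => by
        induction hy using Submodule.span_induction with
        | mem b hb => exact hpz a b ha hb
        | zero => exact fzero_r a
        | add _ _ _ _ h1 h2 => rw [fadd_r, h1, h2, add_zero]
        | smul c _ _ h1 => rw [fsmul_r, h1, mul_zero]
      induction hx using Submodule.span_induction with
      | mem a ha => exact hy' a ha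
      | zero => exact fzero_l y
      | add _ _ _ _ h1 h2 => rw [fadd_l, h1, h2, add_zero]
      | smul c _ _ h1 => rw [fsmul_l, h1, mul_zero]
    refine hinv R ?_ hti fun g hg => ?_
    · obtain ⟨x, hx, hx0⟩ := (Submodule.ne_bot_iff _).mp hrad
      refine (Submodule.ne_bot_iff R).mpr ⟨x, Submodule.subset_span ⟨1, H.one_mem, ?_⟩, hx0⟩
      rwa [one_smul]
    · have hle : ∀ h ∈ H, h • R ≤ R := fun h hh x hx => by
        rw [mem_smul_iff] at hx
        have : R ≤ R.comap (spRho (n + 1) F h) := Submodule.span_le.mpr fun a ⟨k, hk, ha⟩ => by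
          have : act h a ∈ R := Submodule.subset_span
            ⟨h * k, H.mul_mem hh hk, by rw [mul_smul]; exact act_mem_smul h ha⟩
          simpa using this
        have h3 := this hx
        rw [Submodule.mem_comap, spRho_apply] at h3
        rwa [show (h : Matrix _ _ F) *ᵥ act h⁻¹ x = x from act_act_inv h x] at h3
      refine le_antisymm (hle g hg) fun x hx => ?_
      rw [mem_smul_iff]
      exact hle g⁻¹ (H.inv_mem hg) (act_mem_smul g⁻¹ hx)
  -- the non-degenerate case
  set D := Module.finrank F X with hD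
  have hXb : X ≠ ⊥ := by
    rintro rfl
    obtain ⟨w, hw, z, hz, hwz⟩ := hX.2
    rw [Submodule.mem_bot] at hw
    exact hwz (by rw [hw, fzero_l])
  have hD2 : 2 ≤ D := by
    by_contra h
    have h1 : D = 1 := by
      have : D ≠ 0 := fun h0 => hXb (Submodule.finrank_eq_zero.mp h0)
      omega
    obtain ⟨w, hw, z, hz, hwz⟩ := hX.2
    have hw0 : (⟨w, hw⟩ : X) ≠ 0 := fun h0 => hwz (by
      rw [show w = 0 from congrArg Subtype.val h0, fzero_l])
    obtain ⟨c, hc⟩ := (finrank_eq_one_iff_of_nonzero' (⟨w, hw⟩ : X) hw0).mp h1 ⟨z, hz⟩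
    refine hwz ?_
    rw [← show c • w = z from congrArg Subtype.val hc, fsmul_r, sympForm_self, mul_zero]
  have hDlt : D < 2 * (n + 1) := by
    by_contra h
    have htop : X = ⊤ := Submodule.eq_top_of_finrank_eq (by
      have := Submodule.finrank_le X
      simp only [Module.finrank_fintype_fun_eq_card, Fintype.card_sum, Fintype.card_fin] at this ⊢
      omega)
    refine hH (eq_top_of_forall_full fun v hv => hX.1 v ⟨htop ▸ Submodule.mem_top, ?_⟩)
    obtain ⟨z, hz⟩ := exists_sympForm_ne hv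
    exact ⟨z, htop ▸ Submodule.mem_top, fun h0 => hz (fswap_zero h0)⟩
  set k := Nat.card (orbit H X) with hk
  have hkD : k * D ≤ 2 * (n + 1) := by
    have := Fintype.ofFinite (orbit H X)
    let sup : Finset (orbit H X) → Submodule F (Fin (n + 1) ⊕ Fin (n + 1) → F) := fun s =>
      s.sup fun Y => Y.1
    have key : ∀ s : Finset (orbit H X), Module.finrank F (sup s) = s.card * D := by
      intro s
      induction s using Finset.induction_on with
      | empty => simp [sup]
      | @insert Y s hY ih =>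
        obtain ⟨g, hgY⟩ := Y.2
        have hgY' : (g : Matrix.symplecticGroup (Fin (n + 1)) F) • X = Y.1 := hgY
        have hdis : Y.1 ⊓ sup s = ⊥ := by
          rw [eq_bot_iff]
          rintro x ⟨hx, hxs⟩
          rw [SetLike.mem_coe] at hxs
          have hsub : sup s ≤ perp Y.1 := Finset.sup_le fun Z hZ => by
            obtain ⟨h, hhZ⟩ := Z.2
            have hhZ' : (h : Matrix.symplecticGroup (Fin (n + 1)) F) • X = Z.1 := hhZ
            rcases hpair g g.2 h h.2 with e | e
            · exact absurd (Subtype.ext (hgY'.symm.trans (e.symm.trans hhZ')) ▸ hZ) hY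
            · intro z hz
              rw [mem_perp]
              rw [← hgY', ← hhZ'] at *
              exact e z hz
          have h2 : act (g : Matrix.symplecticGroup (Fin (n + 1)) F)⁻¹ x ∈ X ⊓ perp X := by
            have h4 := hsub hxs
            rw [← hgY'] at hx h4
            rw [← smul_perp, mem_smul_iff] at h4
            exact ⟨(mem_smul_iff _).mp hx, h4⟩
          rw [hrad, Submodule.mem_bot] at h2
          rw [Submodule.mem_bot]
          exact act_injective _ (h2.trans (act_zero _).symm)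
        have h3 := Submodule.finrank_sup_add_finrank_inf_eq Y.1 (sup s)
        rw [hdis, finrank_bot, add_zero, ih, ← hgY', finrank_smul_sub] at h3
        rw [Finset.card_insert_of_notMem hY]
        rw [show sup (insert Y s) = Y.1 ⊔ sup s from Finset.sup_insert, ← hgY', h3]
        ring
    have h1 := key Finset.univ
    rw [Finset.card_univ, ← Nat.card_eq_fintype_card, ← hk] at h1
    have h2 := Submodule.finrank_le (sup Finset.univ)
    rw [Module.finrank_fintype_fun_eq_card, Fintype.card_sum, Fintype.card_fin, h1] at h2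
    omega
  have hq1 : 1 ≤ q := by omega
  have hne : Nonempty (orbit H X) := ⟨⟨X, mem_orbit_self X⟩⟩
  have hkpos : 0 < k := Nat.card_pos
  refine hred ?_
  rcases Nat.lt_or_ge k 2 with hk1 | hk2
  · have hkeq : k = 1 := by omega
    have hfix : ∀ g ∈ H, g • X = X := fun g hg => by
      have hs := (Nat.card_eq_one_iff_unique.mp (hk.symm.trans hkeq)).1
      exact congrArg Subtype.val (hs.elim (⟨_, mem_orbit X (⟨g, hg⟩ : H)⟩ : orbit H X)
        ⟨X, mem_orbit_self X⟩)
    obtain ⟨Y, hY0, hYnd, hYfix, hYD⟩ : ∃ Y : Submodule F (Fin (n + 1) ⊕ Fin (n + 1) → F),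
        Y ≠ ⊥ ∧ Y ⊓ perp Y = ⊥ ∧ (∀ g ∈ H, g • Y = Y) ∧ Module.finrank F Y ≤ n + 1 := by
      rcases Nat.lt_or_ge (n + 1) D with h | h
      · have hpp : perp (perp X) = X := LinearMap.BilinForm.orthogonal_orthogonal
          (sympBilin_nondegenerate _ F) (sympBilin_isAlt _ F).isRefl X
        refine ⟨perp X, fun h0 => ?_, by rw [hpp, inf_comm, hrad],
          fun g hg => by rw [smul_perp, hfix g hg], ?_⟩
        · have := finrank_perp X
          rw [h0, finrank_bot] at this; omega
        · rw [finrank_perp]; omega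
      · exact ⟨X, hXb, hrad, hfix, h⟩
    have h1 := nondeg_orbit_ge Y hY0 hYnd
    have h2 := index_ge_orbit Y (card_orbit_eq_one hYfix)
    rw [mul_one] at h2
    have h3 : q ^ Module.finrank F Y - 1 ≤ q ^ (2 * (n + 1) - Module.finrank F Y) * (q - 1) := by
      calc q ^ Module.finrank F Y - 1 ≤ q ^ Module.finrank F Y := Nat.sub_le _ _
        _ ≤ q ^ (2 * (n + 1) - Module.finrank F Y) := Nat.pow_le_pow_right hq1 (by omega)
        _ ≤ _ := Nat.le_mul_of_pos_right _ (by omega)
    have hpos : 0 < q ^ Module.finrank F Y - 1 := by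
      have : Module.finrank F Y ≠ 0 := fun h => hY0 (Submodule.finrank_eq_zero.mp h)
      have := Nat.one_lt_pow this (by omega : 1 < q)
      omega
    refine Nat.le_of_mul_le_mul_right ?_ hpos
    calc (q ^ (2 * (n + 1)) - 1) * (q ^ Module.finrank F Y - 1)
        ≤ (q ^ (2 * (n + 1)) - 1) * (q ^ (2 * (n + 1) - Module.finrank F Y) * (q - 1)) :=
          Nat.mul_le_mul_left _ h3
      _ = (q ^ (2 * (n + 1)) - 1) * q ^ (2 * (n + 1) - Module.finrank F Y) * (q - 1) := by ring
      _ ≤ Nat.card (orbit (Matrix.symplecticGroup (Fin (n + 1)) F) Y) *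
            (q ^ Module.finrank F Y - 1) * (q - 1) := Nat.mul_le_mul_right _ h1
      _ ≤ H.index * (q ^ Module.finrank F Y - 1) * (q - 1) :=
          Nat.mul_le_mul_right _ (Nat.mul_le_mul_right _ h2)
      _ = _ := by ring
  · have h1 := nondeg_orbit_ge X hXb hrad
    rw [← hD] at h1
    have h2 := index_ge_orbit X hk.symm
    have h3 : k * (q ^ D - 1) ≤ q ^ (2 * (n + 1) - D) * (q - 1) := by
      obtain ⟨j, hj⟩ := Nat.exists_eq_add_of_le hk2
      have hpow : q ^ ((k - 1) * D) ≤ q ^ (2 * (n + 1) - D) :=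
        Nat.pow_le_pow_right hq1 (by rw [Nat.sub_mul, one_mul]; omega)
      have e : q ^ ((k - 1) * D) = q ^ D * (q ^ D) ^ j := by
        rw [← pow_mul, ← pow_add]; congr 1
        rw [hj, show 2 + j - 1 = j + 1 by omega]; ring
      calc k * (q ^ D - 1) ≤ k * q ^ D := Nat.mul_le_mul_left _ (Nat.sub_le _ _)
        _ ≤ (2 * (q ^ D) ^ j) * q ^ D := Nat.mul_le_mul_right _ (by
            rw [hj, add_comm]
            exact two_mul_pow_ge ((by omega : 2 ≤ q).trans (Nat.le_self_pow (by omega) q)) j)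
        _ = q ^ ((k - 1) * D) * 2 := by rw [e]; ring
        _ ≤ _ := Nat.mul_le_mul hpow (by omega)
    have hpos : 0 < k * (q ^ D - 1) := by
      have := Nat.one_lt_pow (by omega : D ≠ 0) (by omega : 1 < q)
      exact Nat.mul_pos hkpos (by omega)
    refine Nat.le_of_mul_le_mul_right ?_ hpos
    calc (q ^ (2 * (n + 1)) - 1) * (k * (q ^ D - 1))
        ≤ (q ^ (2 * (n + 1)) - 1) * (q ^ (2 * (n + 1) - D) * (q - 1)) := Nat.mul_le_mul_left _ h3
      _ = (q ^ (2 * (n + 1)) - 1) * q ^ (2 * (n + 1) - D) * (q - 1) := by ring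
      _ ≤ Nat.card (orbit (Matrix.symplecticGroup (Fin (n + 1)) F) X) * (q ^ D - 1) * (q - 1) :=
          Nat.mul_le_mul_right _ h1
      _ ≤ H.index * k * (q ^ D - 1) * (q - 1) :=
          Nat.mul_le_mul_right _ (Nat.mul_le_mul_right _ h2)
      _ = _ := by ring

end Cfsg.Agent.H2.MinIdx
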