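import Cfsg.Agent.H2.MinIdx.Fourier
import Cfsg.Agent.H2.MinIdx.GeomIndex

/-!
In characteristic two a transvection group meets a point stabiliser of small index in at most two
elements, unless some full group of transvections fixes a point.
-/

set_option autoImplicit false

namespace Cfsg.Agent.H2.MinIdx

open Matrix MulAction
open scoped Pointwise

variable {n : ℕ} {F : Type*} [Field F] [Fintype F]
variable {Ω : Type*} [MulAction (Matrix.symplecticGroup (Fin (n + 1)) F) Ω]

local notation "⟪" u ", " v "⟫" => Cfsg.sympForm _ F u v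

lemma keep_annih {R : Type*} [AddCommGroup R] (φ : F →+ R) {ω : Ω}
    {l : Matrix.symplecticGroup (Fin n) F} (hl : l ∈ keep (n := n) (F := F) ω)
    {c : Fin n ⊕ Fin n → F} (hc : c ∈ annih φ (aImg (n := n) (F := F) ω)) :
    act l c ∈ annih φ (aImg (n := n) (F := F) ω) := by
  intro a ha
  obtain ⟨g, hg, hgl⟩ := mem_keep.mp ((keep (n := n) (F := F) ω).inv_mem hl)
  have h : act l⁻¹ a ∈ aImg (n := n) (F := F) ω := by
    have h1 := (mem_aImg_incl ω l⁻¹ a).mpr ha
    have h3 := aImg_smul_Q (incl l⁻¹ • ω) hg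
    rw [hgl] at h3
    rwa [h3]
  have e : ⟪act l c, a⟫ = ⟪c, act l⁻¹ a⟫ := by
    conv_lhs => rw [← act_act_inv l a, form_act]
  rw [e]
  exact hc _ h

lemma pts_le_two {q : ℕ} (hq : 2 ≤ q) (n : ℕ) : pts (n + 1) q ≤ (q + 2) * q ^ (2 * n) := by
  have h := pts_mul (n + 1) (q := q) (by omega)
  obtain ⟨r, rfl⟩ := Nat.exists_eq_add_of_le (show 1 ≤ q by omega)
  rw [show 1 + r - 1 = r by omega] at h
  have e : (1 + r) ^ (2 * (n + 1)) = (1 + r) * (1 + r) * (1 + r) ^ (2 * n) := by ring
  refine Nat.le_of_mul_le_mul_right ?_ (show 0 < r by omega)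
  have h2 : (1 + r) * (1 + r) ≤ (1 + r + 2) * r := by nlinarith
  calc pts (n + 1) (1 + r) * r ≤ (1 + r) * (1 + r) * (1 + r) ^ (2 * n) := by omega
    _ ≤ (1 + r + 2) * r * (1 + r) ^ (2 * n) := Nat.mul_le_mul_right _ h2
    _ = _ := by ring

variable [Finite Ω]

/-- A fixed transvection forces the whole symplectic module in the image. -/
theorem aImg_top (h2 : (2 : F) = 0) (hsmall : Nat.card Ω < pts (n + 1) (Fintype.card F)) (ω : Ω)
    (h0 : zSub (n := n) (F := F) ω ≠ ⊥) (h1 : zSub (n := n) (F := F) ω ≠ ⊤) :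
    aImg (n := n) (F := F) ω = ⊤ := by
  classical
  by_contra hA
  have h2c : CharP F 2 := by
    have h := CharTwo.of_one_ne_zero_of_two_eq_zero (R := F) one_ne_zero h2
    exact h
  obtain ⟨φ, hφ, -⟩ := exists_functional (p := 2) (⊥ : AddSubgroup F) bot_ne_top
  set q := Fintype.card F
  set A := aImg (n := n) (F := F) ω
  set Z := zSub (n := n) (F := F) ω
  set D := annih φ A
  set k := (keep (n := n) (F := F) ω).index
  have hq : 2 ≤ q := Fintype.one_lt_card
  have hDA : Nat.card D * Nat.card A = q ^ (2 * n) := card_annih φ hφ A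
  have hU : Nat.card (Fin n ⊕ Fin n → F) = q ^ (2 * n) := by
    simp [q, two_mul, Nat.card_eq_fintype_card]
  have hD : D ≠ ⊥ := by
    intro hb
    rw [hb, AddSubgroup.card_bot, one_mul, ← hU] at hDA
    exact hA (AddSubgroup.eq_top_of_card_eq A hDA)
  let X1 := {x : Fin n ⊕ Fin n → F // x ≠ 0}
  let _ : MulAction (Matrix.symplecticGroup (Fin n) F) X1 :=
    { smul := fun g x => ⟨act g x.1, act_ne_zero g x.2⟩
      one_smul := fun x => Subtype.ext (act_one x.1)
      mul_smul := fun g h x => Subtype.ext (act_mul g h x.1) }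
  have : IsPretransitive (Matrix.symplecticGroup (Fin n) F) X1 := ⟨fun x y => by
    obtain ⟨g, hg⟩ := exists_map_vec x.2 y.2
    exact ⟨g, Subtype.ext hg⟩⟩
  have hcov : q ^ (2 * n) ≤ k * Nat.card D := by
    obtain ⟨c, hc, hc0⟩ : ∃ c ∈ D, c ≠ 0 := by
      by_contra h; push Not at h
      exact hD (eq_bot_iff.mpr fun x hx => AddSubgroup.mem_bot.mpr (h x hx))
    have hle := card_le_index_mul (G := Matrix.symplecticGroup (Fin n) F) (keep (n := n) (F := F) ω)
      ({x | x.1 ∈ D} : Set X1) ⟨⟨c, hc0⟩, hc⟩ fun l hl x hx => keep_annih φ hl hx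
    have hX : Nat.card X1 = q ^ (2 * n) - 1 := by
      rw [Nat.card_eq_fintype_card, Fintype.card_subtype_compl, Fintype.card_subtype_eq,
        Fintype.card_fun, Fintype.card_sum, Fintype.card_fin, two_mul]
    have hS : Nat.card ({x | x.1 ∈ D} : Set X1) ≤ Nat.card D - 1 := by
      have h5 : Nat.card ({x | x.1 ∈ D} : Set X1) = Nat.card {x : D // x ≠ 0} :=
        Nat.card_congr
          { toFun := fun x => ⟨⟨x.1.1, x.2⟩, fun h => x.1.2 (congrArg Subtype.val h)⟩
            invFun := fun x => ⟨⟨x.1.1, fun h => x.2 (Subtype.ext h)⟩, x.1.2⟩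
            left_inv := fun _ => rfl
            right_inv := fun _ => rfl }
      rw [h5, Nat.card_eq_fintype_card, Fintype.card_subtype_compl, Fintype.card_subtype_eq,
        Nat.card_eq_fintype_card]
    rw [hX] at hle
    have h6 := hle.trans (Nat.mul_le_mul_left _ hS)
    have hkpos : 0 < k := Nat.pos_of_ne_zero Subgroup.index_ne_zero_of_finite
    have hDpos : 0 < Nat.card D := Nat.card_pos
    obtain ⟨d, hd⟩ := Nat.exists_eq_add_of_le hDpos
    rw [hd] at h6 ⊢
    rw [show 0 + 1 + d - 1 = d by omega] at h6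
    change _ ≤ k * d at h6
    rw [show 0 + 1 + d = d + 1 by omega, Nat.mul_add, Nat.mul_one]
    omega
  have h3 := invariants_bound (n := n) (F := F) ω
  have h4 := scales_bound_two h2 Z h0 h1
  have hZpos : 0 < Nat.card Z := Nat.card_pos
  have hApos : 0 < Nat.card A := Nat.card_pos
  have key : (q + 2) * k * q ^ (2 * n) ≤ Nat.card Ω * Nat.card A := by
    refine Nat.le_of_mul_le_mul_right ?_ (Nat.mul_pos hZpos (show 0 < q by omega))
    calc (q + 2) * k * q ^ (2 * n) * (Nat.card Z * q)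
        = ((q + 2) * Nat.card Z) * (k * q ^ (2 * n + 1)) := by rw [pow_succ]; ring
      _ ≤ (Nat.card (scales Z) * q) * (k * q ^ (2 * n + 1)) := Nat.mul_le_mul_right _ h4
      _ = q * (Nat.card (scales Z) * k * q ^ (2 * n + 1)) := by ring
      _ ≤ q * (Nat.card Ω * (Nat.card Z * Nat.card A)) := Nat.mul_le_mul_left _ h3
      _ = _ := by ring
  refine absurd (pts_le_two hq n) (not_le.mpr (lt_of_le_of_lt ?_ hsmall))
  refine Nat.le_of_mul_le_mul_right ?_ hApos
  calc (q + 2) * q ^ (2 * n) * Nat.card A ≤ (q + 2) * (k * Nat.card D) * Nat.card A :=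
        Nat.mul_le_mul_right _ (Nat.mul_le_mul_left _ hcov)
    _ = (q + 2) * k * (Nat.card D * Nat.card A) := by ring
    _ ≤ _ := by rw [hDA]; exact key

/-- The transvection identity of a plane. -/
lemma pair_identity (h2 : (2 : F) = 0) (u v : Fin (n + 1) ⊕ Fin (n + 1) → F) (h : ⟪u, v⟫ = 0)
    (τ τ' l l' : F) (hl : τ * l = τ' * l') :
    transv (v + l • u) τ * transv v τ * (transv (v + l' • u) τ' * transv v τ') =
      transv u (τ * l * l + τ' * l' * l') := by
  have h' : ⟪v, u⟫ = 0 := fswap_zero h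
  apply ext_of_mulVec
  intro x
  show act _ x = act _ x
  simp only [act_mul, act_transv, fadd_l, fadd_r, fsmul_l, fsmul_r, sympForm_self, h, h']
  simp only [mul_zero, add_zero, zero_add]
  match_scalars
  · ring
  · linear_combination (τ + τ') * ⟪x, v⟫ * h2 + (τ' * l' - τ * l) * (0 : F) +
      ⟪x, u⟫ * hl + ⟪x, u⟫ * τ' * l' * h2
  · linear_combination ⟪x, v⟫ * hl + ⟪x, v⟫ * τ' * l' * h2

/-- Two orthogonal centres give a full group. -/
theorem full_of_pair (h2 : (2 : F) = 0) (hsmall : Nat.card Ω < pts (n + 1) (Fintype.card F))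
    (hmove : ∀ (ω : Ω) (p : Fin (n + 1) ⊕ Fin (n + 1) → F), p ≠ 0 → ∃ t, transv p t • ω ≠ ω)
    (ω : Ω) (h0 : zSub (n := n) (F := F) ω ≠ ⊥) {v : Fin (n + 1) ⊕ Fin (n + 1) → F}
    (hv : ⟪v, e0⟫ = 0) (hind : ∀ c : F, c • e0 ≠ v) {τ τ' : F} (hτ : τ ≠ 0) (hτ' : τ' ≠ 0)
    (hne : τ ≠ τ') (hfix : transv v τ • ω = ω) (hfix' : transv v τ' • ω = ω) : False := by
  have h1 : zSub (n := n) (F := F) ω ≠ ⊤ := by
    intro h
    obtain ⟨t, ht⟩ := hmove ω e0 e0_ne_zero
    exact ht (mem_zSub.mp (by rw [h]; trivial))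
  have hA := aImg_top h2 hsmall ω h0 h1
  have hdv : down v ≠ 0 := by
    intro h
    refine hind ⟪v, f0⟫ ?_
    conv_rhs => rw [decomp v, h, map_zero, add_zero, fswap_zero hv, zero_smul, add_zero]
  obtain ⟨d, hd⟩ : ∃ d, ⟪down v, d⟫ ≠ 0 := by
    by_contra h; push Not at h; exact hdv (sympForm_eq_zero_forall h)
  have hmovev : ∀ l : F, ∀ s, transv v s • ω = ω → transv (v + l • e0) s • ω = ω := by
    intro l s hs
    have ha : (l / ⟪down v, d⟫) • d ∈ aImg (n := n) (F := F) ω := by rw [hA]; trivial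
    obtain ⟨t, ht⟩ := mem_aImg.mp ha
    set g := qel (e0 : Fin (n + 1) ⊕ Fin (n + 1) → F) (up ((l / ⟪down v, d⟫) • d)) t
    have hg : act g v = v + l • e0 := by
      rw [act_qel (form_up_e0 _), hv, zero_smul, add_zero, mul_zero, zero_smul, add_zero]
      congr 2
      rw [form_decomp v, form_e0_up, form_up_f0, down_up, fsmul_r, div_mul_cancel₀ _ hd]
      ring
    have e : transv (v + l • e0) s = g * transv v s * g⁻¹ := by rw [conj_transv, ← hg]
    rw [e, mul_smul, mul_smul, show g⁻¹ • ω = ω by rw [inv_smul_eq_iff, ht], hs, ht]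
  obtain ⟨t, ht⟩ := hmove ω e0 e0_ne_zero
  have hc : τ * (1 + τ / τ') ≠ 0 := by
    refine mul_ne_zero hτ fun h => hne ?_
    have e : τ = τ' * (τ / τ') := (mul_div_cancel₀ τ hτ').symm
    linear_combination e + τ' * h - τ' * h2
  obtain ⟨l, hl⟩ := exists_sq h2 (t / (τ * (1 + τ / τ')))
  apply ht
  have key := pair_identity h2 (e0 : Fin (n + 1) ⊕ Fin (n + 1) → F) v (fswap_zero hv) τ τ' l
    (τ * l / τ') (mul_div_cancel₀ _ hτ').symm
  have hval : τ * l * l + τ' * (τ * l / τ') * (τ * l / τ') = t := by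
    rw [mul_div_cancel₀ _ hτ']
    have h : t = l * l * (τ * (1 + τ / τ')) := by rw [hl, div_mul_cancel₀ _ hc]
    rw [h]; ring
  rw [hval] at key
  rw [← key, mul_smul, mul_smul, mul_smul, hfix', hmovev _ _ hfix', hfix, hmovev _ _ hfix]

/-- At most two transvections with a given centre fix a point. -/
theorem zSub_card_le (h2 : (2 : F) = 0) (hn : 1 ≤ n) [IsPretransitive (Matrix.symplecticGroup (Fin (n + 1)) F) Ω]
    (hsmall : Nat.card Ω < pts (n + 1) (Fintype.card F))
    (hmove : ∀ (ω : Ω) (p : Fin (n + 1) ⊕ Fin (n + 1) → F), p ≠ 0 → ∃ t, transv p t • ω ≠ ω)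
    (ω : Ω) : Nat.card (zSub (n := n) (F := F) ω) ≤ 2 := by
  classical
  by_contra hgt
  push Not at hgt
  set Z := zSub (n := n) (F := F) ω with hZdef
  obtain ⟨τ, τ', hτZ, hτZ', hτ, hτ', hne⟩ :
      ∃ τ τ' : F, τ ∈ Z ∧ τ' ∈ Z ∧ τ ≠ 0 ∧ τ' ≠ 0 ∧ τ ≠ τ' := by
    have := Fintype.ofFinite Z
    rw [Nat.card_eq_fintype_card] at hgt
    obtain ⟨a, b, c, hab, hac, hbc⟩ := Fintype.two_lt_card_iff.mp hgt
    rcases eq_or_ne (a : F) 0 with ha | ha
    · exact ⟨b, c, b.2, c.2, fun h => hab (Subtype.ext (ha.trans h.symm)),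
        fun h => hac (Subtype.ext (ha.trans h.symm)), fun h => hbc (Subtype.ext h)⟩
    rcases eq_or_ne (b : F) 0 with hb | hb
    · exact ⟨a, c, a.2, c.2, ha, fun h => hbc (Subtype.ext (hb.trans h.symm)),
        fun h => hac (Subtype.ext h)⟩
    exact ⟨a, b, a.2, b.2, ha, hb, fun h => hab (Subtype.ext h)⟩
  have h0 : Z ≠ ⊥ := fun h => hτ (by rw [h] at hτZ; simpa using hτZ)
  have h1 : Z ≠ ⊤ := by
    intro h
    obtain ⟨t, ht⟩ := hmove ω e0 e0_ne_zero
    exact ht (mem_zSub.mp (by rw [← hZdef, h]; trivial))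
  -- the stabiliser moves the point
  obtain ⟨h, hh, hhe⟩ : ∃ h : Matrix.symplecticGroup (Fin (n + 1)) F, h • ω = ω ∧
      ∀ c : F, c • e0 ≠ act h e0 := by
    by_contra hcon
    push Not at hcon
    set R := Submodule.span F {(e0 : Fin (n + 1) ⊕ Fin (n + 1) → F)}
    have hR : R ≠ ⊥ := by simp [R, e0_ne_zero]
    have hti : TI R := by
      intro x hx y hy
      obtain ⟨a, rfl⟩ := Submodule.mem_span_singleton.mp hx
      obtain ⟨b, rfl⟩ := Submodule.mem_span_singleton.mp hy
      simp [fsmul_l, fsmul_r, sympForm_self]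
    have hfix : ∀ g ∈ stabilizer (Matrix.symplecticGroup (Fin (n + 1)) F) ω, g • R = R := by
      intro g hg
      refine Submodule.eq_of_le_of_finrank_eq (fun x hx => ?_) (finrank_smul_sub g R)
      rw [mem_smul_iff, Submodule.mem_span_singleton] at hx
      obtain ⟨a, ha⟩ := hx
      obtain ⟨c, hc⟩ := hcon g hg
      rw [← act_act_inv g x, ← ha, act_smul, ← hc]
      exact R.smul_mem _ (R.smul_mem _ (Submodule.mem_span_singleton_self _))
    have h5 := (ti_orbit_ge n R hR hti).trans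
      (Nat.mul_le_mul_right _ (index_ge_orbit R (card_orbit_eq_one hfix)))
    rw [mul_one, MulAction.index_stabilizer_of_transitive] at h5
    have h6 := pts_mul (n + 1) (q := Fintype.card F) Fintype.card_pos
    have hq : 2 ≤ Fintype.card F := Fintype.one_lt_card
    have h7 : pts (n + 1) (Fintype.card F) ≤ Nat.card Ω :=
      Nat.le_of_mul_le_mul_right (le_trans (by omega) h5) (show 0 < Fintype.card F - 1 by omega)
    omega
  set w := act h e0
  have hw : ∀ s ∈ Z, transv w s • ω = ω := by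
    intro s hs
    rw [show transv w s = h * transv e0 s * h⁻¹ from (conj_transv h e0 s).symm, mul_smul, mul_smul,
      show h⁻¹ • ω = ω by rw [inv_smul_eq_iff, hh], mem_zSub.mp hs, hh]
  by_cases horth : ⟪w, e0⟫ = 0
  · exact full_of_pair h2 hsmall hmove ω h0 horth hhe hτ hτ' hne (hw _ hτZ) (hw _ hτZ')
  -- an element of the radical moving `w` inside its orthogonal
  have hA := aImg_top h2 hsmall ω h0 h1
  let E := Fin n → F
  let emb : E → (Fin n ⊕ Fin n → F) := fun x => Sum.elim x 0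
  have hsel : ∀ x : E, ∃ t, qel e0 (up (emb x)) t • ω = ω := fun x =>
    mem_aImg.mp (by rw [hA]; trivial)
  choose tt htt using hsel
  obtain ⟨x, y, hxy, hcl⟩ : ∃ x y : E, x ≠ y ∧
      (QuotientAddGroup.mk (tt x) : F ⧸ Z) = QuotientAddGroup.mk (tt y) := by
    by_contra hcon
    push Not at hcon
    have hinj : Function.Injective fun x : E => (QuotientAddGroup.mk (tt x) : F ⧸ Z) :=
      fun x y hxy => by_contra fun hne => hcon x y hne hxy
    have hle := Nat.card_le_card_of_injective _ hinj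
    have hc : Nat.card (F ⧸ Z) * Nat.card Z = Fintype.card F := by
      rw [← AddSubgroup.card_eq_card_quotient_mul_card_addSubgroup, Nat.card_eq_fintype_card]
    have hE : Fintype.card F ≤ Nat.card E := by
      simp only [E, Nat.card_eq_fintype_card, Fintype.card_fun, Fintype.card_fin]
      exact Nat.le_self_pow (by omega) _
    have hpos : 0 < Nat.card (F ⧸ Z) := Nat.card_pos
    have : 2 * Nat.card (F ⧸ Z) ≤ Fintype.card F := by
      rw [← hc, mul_comm]; exact Nat.mul_le_mul_left _ (by omega)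
    omega
  set a := emb x + emb y
  have hane : a ≠ 0 := fun ha => hxy (funext fun i => by
    have := congrFun ha (.inl i)
    simp only [a, emb, Pi.add_apply, Sum.elim_inl, Pi.zero_apply] at this
    linear_combination this - y i * h2)
  have hz : tt x + tt y ∈ Z := by
    have := (QuotientAddGroup.eq.mp hcl)
    convert this using 1
    linear_combination tt x * h2
  have hg : qel e0 (up a) 0 • ω = ω := by
    have e : transv e0 (tt x + tt y) * (qel e0 (up (emb x)) (tt x) * qel e0 (up (emb y)) (tt y)) =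
        qel e0 (up a) 0 := by
      rw [show transv e0 (tt x + tt y) = qel e0 (up (0 : Fin n ⊕ Fin n → F)) (tt x + tt y) by
        rw [map_zero, qel_zero_vec], qel_up_mul, qel_up_mul, zero_add, fzero_r, add_zero]
      have he : ⟪emb y, emb x⟫ = 0 := by simp [sympForm_apply, emb]
      rw [he, add_zero]
      congr 1
      linear_combination (tt x + tt y) * h2
    rw [← e, mul_smul, mul_smul, htt y, htt x, mem_zSub.mp hz]
  set g := qel (e0 : Fin (n + 1) ⊕ Fin (n + 1) → F) (up a) 0
  set w' := act g w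
  have hw' : ∀ s ∈ Z, transv w' s • ω = ω := by
    intro s hs
    rw [show transv w' s = g * transv w s * g⁻¹ from (conj_transv g w s).symm, mul_smul, mul_smul,
      show g⁻¹ • ω = ω by rw [inv_smul_eq_iff, hg], hw s hs, hg]
  have hww : ⟪w', w⟫ = 0 := by
    show ⟪act g w, w⟫ = 0
    rw [act_qel (form_up_e0 a)]
    simp only [fadd_l, fsmul_l, sympForm_self, sympForm_swap w (up a), sympForm_swap w e0]
    linear_combination -⟪w, e0⟫ * ⟪w, up a⟫ * h2
  -- translate `w` to the base point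
  obtain ⟨b, hb⟩ := exists_map_vec (e0_ne_zero (F := F) (n := n))
    (act_ne_zero h (e0_ne_zero (F := F) (n := n)))
  have hb' : act b e0 = w := hb
  have hfix : ∀ p s, transv p s • ω = ω → transv (act b⁻¹ p) s • (b⁻¹ • ω) = b⁻¹ • ω := by
    intro p s hp
    rw [show transv (act b⁻¹ p) s = b⁻¹ * transv p s * b⁻¹⁻¹ from (conj_transv b⁻¹ p s).symm, inv_inv,
      mul_smul, mul_smul, smul_inv_smul, hp]
  have he0 : act b⁻¹ w = e0 := by rw [← hb', act_inv_act]
  refine full_of_pair h2 hsmall hmove (b⁻¹ • ω) (v := act b⁻¹ w') ?_ ?_ ?_ hτ hτ' hne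
    (hfix _ _ (hw' _ hτZ)) (hfix _ _ (hw' _ hτZ'))
  · intro hbot
    have : τ ∈ zSub (n := n) (F := F) (b⁻¹ • ω) := mem_zSub.mpr (he0 ▸ hfix _ _ (hw _ hτZ))
    rw [hbot] at this
    exact hτ (by simpa using this)
  · rw [← he0, form_act, hww]
  · intro c hc
    have hcw : c • w = w' := by
      apply act_injective b⁻¹
      rw [act_smul, he0, hc]
    have hc1 : c = 1 := by
      have h3 : ⟪c • w, e0⟫ = ⟪w, e0⟫ := by
        rw [hcw]
        show ⟪act g w, e0⟫ = _
        rw [act_qel (form_up_e0 a)]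
        simp [fadd_l, fsmul_l, sympForm_self, form_up_e0]
      rw [fsmul_l] at h3
      exact mul_right_cancel₀ horth (by rw [h3, one_mul])
    rw [hc1, one_smul] at hcw
    have h3 := congrArg down hcw
    change down w = down (act g w) at h3
    rw [act_qel (form_up_e0 a)] at h3
    simp only [map_add, map_smul, down_up, down_e0, smul_zero, add_zero, left_eq_add, smul_eq_zero] at h3
    exact hane (h3.resolve_left horth)

end Cfsg.Agent.H2.MinIdx
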