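import Cfsg.Agent.H2.MinIdx.EvenTwoOrbit
import Cfsg.Agent.H2.MinIdx.EvenArith

/-!
`Sp₄(2^f)`, `f ≥ 2`: the degree is at least the number of points.
-/

set_option autoImplicit false

namespace Cfsg.Agent.H2.MinIdx

open Matrix MulAction
open scoped MatrixGroups

variable {F : Type*} [Field F] [Fintype F]
variable {Ω : Type*} [MulAction (Matrix.symplecticGroup (Fin (1 + 1)) F) Ω]

local notation "A₂" => SL(2, F)
local notation "Pr" => SL(2, F) × SL(2, F)

attribute [local instance] twoAct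

/-- The numbers of one orbit for `q = 4`. -/
theorem two_four [Finite Ω] (h2 : (2 : F) = 0) (h4 : Fintype.card F = 4)
    (hsmall : Nat.card Ω < pts (1 + 1) (Fintype.card F))
    (hmove : ∀ (ω : Ω) (p : Fin (1 + 1) ⊕ Fin (1 + 1) → F), p ≠ 0 → ∃ t, transv p t • ω ≠ ω)
    (hle : ∀ ω : Ω, Nat.card (zSub (n := 1) (F := F) ω) ≤ 2) (ω : Ω) :
    (Nat.card (orbit Pr ω) = 36 ∧ fx (orbit Pr ω) ((H92.sx 1, 1) : Pr) = 12 ∧
        fx (orbit Pr ω) ((H92.sx 1, H92.sx 1) : Pr) ≤ 4) ∨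
      (60 ≤ Nat.card (orbit Pr ω) ∧
        (fx (orbit Pr ω) ((H92.sx 1, 1) : Pr) ≠ fx (orbit Pr ω) ((1, H92.sx 1) : Pr) ∨
          (fx (orbit Pr ω) ((H92.sx 1, 1) : Pr) = 0 ∧ (Nat.card (orbit Pr ω) = 60 ∨
            (Nat.card (orbit Pr ω) = 72 ∧ fx (orbit Pr ω) ((H92.sx 1, H92.sx 1) : Pr) ≤ 8))))) := by
  have hA : Nat.card A₂ = 60 := by rw [card_SL2, h4]; rfl
  rcases two_struct h2 (by omega) hsmall hmove hle ω with ⟨ho, hx⟩ | ⟨hT, hpS, hpR⟩
  · exact Or.inr ⟨by omega, Or.inr ⟨hx, Or.inl (by omega)⟩⟩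
  obtain ⟨ha, hc, he, ho⟩ := two_fx h2 ω
  set K := stabilizer Pr ω with hKdef
  set S := K.comap (MonoidHom.inl A₂ A₂)
  set R := K.comap (MonoidHom.inr A₂ A₂)
  set pS := K.map (MonoidHom.fst A₂ A₂)
  set pR := K.map (MonoidHom.snd A₂ A₂)
  have hK1 : Nat.card K = Nat.card pS * Nat.card R := card_eq_fst K
  have hK2 : Nat.card K = Nat.card S * Nat.card pR := card_eq_snd K
  rw [h4, hA] at ha hc
  rw [h4] at he hpS hpR
  rw [hA] at ho
  have hN : Nat.card (orbit Pr ω) < 85 := by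
    refine (Nat.card_le_card_of_injective _ Subtype.val_injective).trans_lt (hsmall.trans_le ?_)
    rw [h4]; rfl
  have hK43 : 43 ≤ Nat.card K := by
    by_contra h
    have := Nat.mul_le_mul (show Nat.card (orbit Pr ω) ≤ 84 by omega) (show Nat.card K ≤ 42 by omega)
    omega
  obtain ⟨hS3, hSs⟩ := hT S (Or.inl rfl)
  obtain ⟨hR3, hRs⟩ := hT R (Or.inr rfl)
  have hS4 : 4 ≤ Nat.card S := by
    by_contra h
    have := Nat.mul_le_mul (show Nat.card S ≤ 3 by omega) (show Nat.card pR ≤ 10 by omega)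
    omega
  have hR4 : 4 ≤ Nat.card R := by
    by_contra h
    have := Nat.mul_le_mul (show Nat.card pS ≤ 10 by omega) (show Nat.card R ≤ 3 by omega)
    omega
  have hSle : Nat.card S ∣ Nat.card pS := Subgroup.card_dvd_of_le (comap_inl_le K)
  have hRle : Nat.card R ∣ Nat.card pR := Subgroup.card_dvd_of_le (comap_inr_le K)
  rcases (small_struct h2 S hS3 hSs).2 (by omega) (by omega) with ⟨hs, hsn⟩ | ⟨k, hk, hs, hsself, hsi⟩
  <;> rcases (small_struct h2 R hR3 hRs).2 (by omega) (by omega) with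
    ⟨hr, hrn⟩ | ⟨l, hl, hr, hrself, hri⟩
  · -- both of order five
    rw [h4] at hs hr
    have hiS : Nat.card {r : A₂ // r ∈ pS ∧ r ≠ 1 ∧ r * r = 1} + Nat.card S ≤ Nat.card pS :=
      card_invol_add_le (comap_inl_le K) hsn
    have hiR : Nat.card {r : A₂ // r ∈ pR ∧ r ≠ 1 ∧ r * r = 1} + Nat.card R ≤ Nat.card pR :=
      card_invol_add_le (comap_inr_le K) hrn
    rw [hs] at hK2 hSle hiS
    rw [hr] at hK1 hRle hiR
    have hp : Nat.card pS = 10 := by omega
    have hp' : Nat.card pR = 10 := by omega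
    rw [show Nat.card K = 50 by omega] at ha he ho
    have h0 : Nat.card {r : A₂ // r ∈ S ∧ r ≠ 1 ∧ r * r = 1} = 0 :=
      Nat.card_eq_zero.mpr (Or.inl ⟨fun r => r.2.2.1 (hsn r.1 r.2.1 r.2.2.2)⟩)
    rw [h0] at ha
    have h5 := Nat.mul_le_mul (Nat.mul_le_mul_left 4 (show Nat.card {r : A₂ // r ∈ pS ∧ r ≠ 1 ∧ r * r = 1}
      ≤ 5 by change _ + 5 ≤ Nat.card pS at hiS; omega)) (Nat.mul_le_mul_left 4 (show
      Nat.card {r : A₂ // r ∈ pR ∧ r ≠ 1 ∧ r * r = 1} ≤ 5 by
        change _ + 5 ≤ Nat.card pR at hiR; omega))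
    exact Or.inr ⟨by omega, Or.inr ⟨by omega, Or.inr ⟨by omega, by omega⟩⟩⟩
  · rw [h4] at hs hl
    have hp' : pR = R := hrself pR (comap_inr_le K) fun m hm x hx => snd_normalises K hm hx
    rw [hp'] at hK2
    rw [hs] at hK2
    rcases hl with rfl | hl
    · rw [hr] at hK1 hK2
      rw [show Nat.card K = 50 by omega] at ha hc ho
      have h0 : Nat.card {r : A₂ // r ∈ S ∧ r ≠ 1 ∧ r * r = 1} = 0 :=
        Nat.card_eq_zero.mpr (Or.inl ⟨fun r => r.2.2.1 (hsn r.1 r.2.1 r.2.2.2)⟩)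
      rw [h0] at ha
      rw [hri] at hc
      exact Or.inr ⟨by omega, Or.inl (by omega)⟩
    · exfalso; rw [hr, show l = 3 by omega] at hK2; omega
  · rw [h4] at hr hk
    have hp : pS = S := hsself pS (comap_inl_le K) fun m hm x hx => fst_normalises K hm hx
    rw [hp, hr] at hK1
    rcases hk with rfl | hk
    · rw [hs] at hK1 hK2
      rw [show Nat.card K = 50 by omega] at ha hc ho
      have h0 : Nat.card {r : A₂ // r ∈ R ∧ r ≠ 1 ∧ r * r = 1} = 0 :=
        Nat.card_eq_zero.mpr (Or.inl ⟨fun r => r.2.2.1 (hrn r.1 r.2.1 r.2.2.2)⟩)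
      rw [h0] at hc
      rw [hsi] at ha
      exact Or.inr ⟨by omega, Or.inl (by omega)⟩
    · exfalso; rw [hs, show k = 3 by omega] at hK1; omega
  · rw [h4] at hk hl
    have hp : pS = S := hsself pS (comap_inl_le K) fun m hm x hx => fst_normalises K hm hx
    have hp' : pR = R := hrself pR (comap_inr_le K) fun m hm x hx => snd_normalises K hm hx
    rw [hp', hs, hr] at hK2
    rw [hsi] at ha
    rw [hri] at hc
    rw [hp, hp', hsi, hri] at he
    rcases hk with rfl | hk <;> rcases hl with rfl | hl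
    · rw [show Nat.card K = 100 by omega] at ha he ho
      exact Or.inl ⟨by omega, by omega, by omega⟩
    · rw [show l = 3 by omega] at hK2 hc
      rw [show Nat.card K = 60 by omega] at ha hc ho
      exact Or.inr ⟨by omega, Or.inl (by omega)⟩
    · rw [show k = 3 by omega] at hK2 ha
      rw [show Nat.card K = 60 by omega] at ha hc ho
      exact Or.inr ⟨by omega, Or.inl (by omega)⟩
    · exfalso; rw [show k = 3 by omega, show l = 3 by omega] at hK2; omega

/-- `Sp₄(2^f)`, `f ≥ 2`. -/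
theorem even_two [Finite Ω] [Nonempty Ω] [IsPretransitive (Matrix.symplecticGroup (Fin (1 + 1)) F) Ω]
    (h2 : (2 : F) = 0) (h4 : 4 ≤ Fintype.card F)
    (hmove : ∀ (ω : Ω) (p : Fin (1 + 1) ⊕ Fin (1 + 1) → F), p ≠ 0 → ∃ t, transv p t • ω ≠ ω) :
    pts (1 + 1) (Fintype.card F) ≤ Nat.card Ω := by
  classical
  by_contra! hsmall
  have hle := zSub_card_le (n := 1) h2 le_rfl hsmall hmove
  have := Fintype.ofFinite (orbitRel.Quotient Pr Ω)
  obtain ⟨o0⟩ : Nonempty (orbitRel.Quotient Pr Ω) := Nonempty.map Quotient.mk'' inferInstance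
  set q := Fintype.card F with hqdef
  obtain ⟨u, v, hNx, hyz⟩ := exists_mult (Ω := Ω) (n := 1) h2 le_rfl
  have hsum : ∀ p : Pr, fx Ω (twoHom p) = ∑ o : orbitRel.Quotient Pr Ω, fx (orbit Pr o.out) p :=
    fun p => by rw [← fx_sum_orbits]; rfl
  have hN : Nat.card Ω = ∑ o : orbitRel.Quotient Pr Ω, Nat.card (orbit Pr o.out) := card_sum_orbits
  set x := fx Ω (transv (e0 : Fin (1 + 1) ⊕ Fin (1 + 1) → F) 1)
  have hx1 : x = ∑ o : orbitRel.Quotient Pr Ω, fx (orbit Pr o.out) ((H92.sx 1, 1) : Pr) := by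
    rw [← hsum, twoHom_apply, map_one, mul_one, sl_sx h2]
  have hup : (up (e0 : Fin (0 + 1) ⊕ Fin (0 + 1) → F) : Fin (1 + 1) ⊕ Fin (1 + 1) → F) ≠ 0 :=
    fun h => e0_ne_zero (up_injective (h.trans (map_zero up).symm))
  have hx2 : x = ∑ o : orbitRel.Quotient Pr Ω, fx (orbit Pr o.out) ((1, H92.sx 1) : Pr) := by
    rw [← hsum, twoHom_apply, map_one, one_mul, slTwo, MonoidHom.comp_apply, sl_sx h2, incl_transv,
      fx_transv h2 hup one_ne_zero]
  have hz : fx Ω (qel (e0 : Fin (1 + 1) ⊕ Fin (1 + 1) → F) (up (a1 le_rfl)) 1) =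
      ∑ o : orbitRel.Quotient Pr Ω, fx (orbit Pr o.out) ((H92.sx 1, H92.sx 1) : Pr) := by
    rw [← hsum, twoHom_apply, slTwo, MonoidHom.comp_apply, sl_sx h2, sl_sx h2, incl_transv,
      fx_typeC (n := 1) h2 le_rfl (form_e0_up _) ?_]
    refine LinearIndependent.pair_iff.mpr fun s t h => ?_
    have h1 := congrArg (fun x => Cfsg.sympForm _ F x (f0 : Fin (1 + 1) ⊕ Fin (1 + 1) → F)) h
    simp only [fadd_l, fsmul_l, form_e0_f0, form_up_f0, fzero_l, mul_one, mul_zero, add_zero] at h1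
    subst h1
    rw [zero_smul, zero_add] at h
    exact ⟨rfl, (smul_eq_zero.mp h).resolve_right hup⟩
  by_cases hq8 : q = 4
  · have hf : ∀ o : orbitRel.Quotient Pr Ω, _ := fun o => two_four h2 hq8 hsmall hmove hle o.out
    have hN85 : Nat.card Ω < 85 := hsmall.trans_le (by rw [hq8]; rfl)
    rw [← hqdef, hq8] at hNx hyz
    norm_num at hNx hyz
    by_cases hbig : ∃ o : orbitRel.Quotient Pr Ω, 60 ≤ Nat.card (orbit Pr o.out)
    · obtain ⟨o, ho⟩ := hbig
      have huniv : (Finset.univ : Finset (orbitRel.Quotient Pr Ω)) = {o} := by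
        refine Finset.eq_singleton_iff_unique_mem.mpr ⟨Finset.mem_univ _, fun i _ => ?_⟩
        by_contra hne
        have h := Finset.sum_le_sum_of_subset (f := fun o => Nat.card (orbit Pr o.out))
          (Finset.subset_univ {o, i})
        rw [Finset.sum_pair (Ne.symm hne), ← hN] at h
        rcases hf i with ⟨h', -⟩ | ⟨h', -⟩ <;> omega
      rw [huniv, Finset.sum_singleton] at hN hx1 hx2 hz
      rcases hf o with ⟨h', -⟩ | ⟨-, h | ⟨h0, h | ⟨h, hz8⟩⟩⟩ <;> omega
    · push Not at hbig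
      have h36 : ∀ o : orbitRel.Quotient Pr Ω, Nat.card (orbit Pr o.out) = 36 ∧
          fx (orbit Pr o.out) ((H92.sx 1, 1) : Pr) = 12 ∧
          fx (orbit Pr o.out) ((H92.sx 1, H92.sx 1) : Pr) ≤ 4 := fun o =>
        (hf o).resolve_right fun h => by have := hbig o; omega
      have hzle : fx Ω (qel (e0 : Fin (1 + 1) ⊕ Fin (1 + 1) → F) (up (a1 le_rfl)) 1) ≤
          ∑ _o : orbitRel.Quotient Pr Ω, 4 := hz ▸ Finset.sum_le_sum fun o _ => (h36 o).2.2
      rw [Finset.sum_congr rfl fun o _ => (h36 o).1] at hN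
      rw [Finset.sum_congr rfl fun o _ => (h36 o).2.1] at hx1
      simp only [Finset.sum_const, smul_eq_mul] at hN hx1 hzle
      have := Finset.card_pos.mpr (⟨o0, Finset.mem_univ o0⟩ : (Finset.univ : Finset (orbitRel.Quotient Pr Ω)).Nonempty)
      omega
  · have hqe : q % 2 = 0 := FiniteField.even_card_of_char_two (ringChar_eq_two h2)
    have hq6 : 6 ≤ q := by omega
    have hq8' : 8 ≤ q := by
      obtain ⟨p, hp⟩ := CharP.exists F
      obtain ⟨e, hpp, hqe'⟩ := FiniteField.card F p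
      have hdvd : p ∣ q := by rw [hqdef, hqe']; exact dvd_pow_self p e.pos.ne'
      have hp2 : p = 2 := by
        have := CharP.eq F hp (ringChar.of_eq (ringChar_eq_two h2) : CharP F 2)
        exact this
      subst hp2
      rw [← hqdef] at hqe'
      have he3 : 3 ≤ (e : ℕ) := by
        by_contra hlt
        have : q ≤ 2 ^ 2 := hqe' ▸ Nat.pow_le_pow_right (by omega) (by omega)
        omega
      calc 8 = 2 ^ 3 := rfl
        _ ≤ 2 ^ (e : ℕ) := Nat.pow_le_pow_right (by omega) he3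
        _ = q := hqe'.symm
    have hdiag : ∀ o : orbitRel.Quotient Pr Ω, Nat.card (orbit Pr o.out) = Nat.card A₂ ∧
        fx (orbit Pr o.out) ((H92.sx 1, 1) : Pr) = 0 := by
      intro o
      refine (two_struct h2 h4 hsmall hmove hle o.out).resolve_right fun ⟨hT, hpS, hpR⟩ => ?_
      obtain ⟨-, -, -, ho⟩ := two_fx h2 o.out
      rw [card_eq_snd, card_SL2] at ho
      have hS := (Subgroup.card_le_of_le (comap_inl_le (stabilizer Pr o.out))).trans hpS
      have h1 : Nat.card (orbit Pr o.out) *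
          (Nat.card ((stabilizer Pr o.out).comap (MonoidHom.inl A₂ A₂)) *
            Nat.card ((stabilizer Pr o.out).map (MonoidHom.snd A₂ A₂))) ≤
          Nat.card Ω * ((2 * (q + 1)) * (2 * (q + 1))) :=
        Nat.mul_le_mul (Nat.card_le_card_of_injective _ Subtype.val_injective) (Nat.mul_le_mul hS hpR)
      rw [ho] at h1
      obtain ⟨r, hr⟩ := Nat.exists_eq_add_of_le hq8'
      have e : q ^ 2 - 1 = (q + 1) * (q - 1) := by rw [← Nat.sq_sub_sq, one_pow]
      rw [← hqdef, e] at h1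
      simp only [pts, Finset.sum_range_succ, Finset.sum_range_zero] at hsmall
      have h5 : (q * (q - 1)) * (q * (q - 1)) * ((q + 1) * (q + 1)) <
          4 * (q ^ 3 + q ^ 2 + q + 1) * ((q + 1) * (q + 1)) := by
        have h6 : Nat.card Ω < q ^ 3 + q ^ 2 + q + 1 := by ring_nf; ring_nf at hsmall; exact hsmall
        have h7 := (Nat.mul_lt_mul_right (show 0 < 4 * ((q + 1) * (q + 1)) by positivity)).mpr h6
        ring_nf at h1 h7 ⊢
        omega
      have h8 := Nat.lt_of_mul_lt_mul_right h5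
      rw [hr, show 8 + r - 1 = 7 + r by omega] at h8
      nlinarith
    have huniv : (Finset.univ : Finset (orbitRel.Quotient Pr Ω)) = {o0} := by
      refine Finset.eq_singleton_iff_unique_mem.mpr ⟨Finset.mem_univ _, fun i _ => ?_⟩
      by_contra hne
      have h := Finset.sum_le_sum_of_subset (f := fun o => Nat.card (orbit Pr o.out))
        (Finset.subset_univ {o0, i})
      rw [Finset.sum_pair (Ne.symm hne), ← hN, (hdiag o0).1, (hdiag i).1, card_SL2, ← hqdef] at h
      simp only [pts, Finset.sum_range_succ, Finset.sum_range_zero] at hsmall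
      obtain ⟨r, hr⟩ := Nat.exists_eq_add_of_le h4
      have e : q ^ 2 - 1 + 1 = q ^ 2 := Nat.sub_add_cancel (Nat.one_le_pow _ _ (by omega))
      nlinarith
    rw [huniv, Finset.sum_singleton] at hN hx1
    rw [(hdiag o0).2] at hx1
    rw [(hdiag o0).1, card_SL2, ← hqdef] at hN
    rw [hx1, hN, ← hqdef, Nat.cast_mul, Nat.cast_sub (Nat.one_le_pow _ _ (by omega))] at hNx
    push_cast at hNx
    have hdvd : (q : ℤ) ∣ 2 := by
      refine ⟨2 * (q : ℤ) - ((u : ℤ) * ((q : ℤ) ^ 1 + 1) + v * ((q : ℤ) ^ 1 - 1)), ?_⟩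
      apply mul_left_cancel₀ (show (q : ℤ) ≠ 0 by omega)
      linear_combination -hNx
    have := Int.le_of_dvd (by norm_num) hdvd
    omega

end Cfsg.Agent.H2.MinIdx
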