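import Cfsg.Agent.H2.MinIdx.Split

/-!
The orbits of `Sp₂ × Sp₂` in `Sp₄(2^f)` on a small set.
-/

set_option autoImplicit false

namespace Cfsg.Agent.H2.MinIdx

open Matrix MulAction
open scoped MatrixGroups

variable {F : Type*} [Field F] [Fintype F]
variable {Ω : Type*} [MulAction (Matrix.symplecticGroup (Fin (1 + 1)) F) Ω]

local notation "A₂" => SL(2, F)
local notation "Pr" => SL(2, F) × SL(2, F)

/-- The two commuting planes. -/
noncomputable def twoHom : SL(2, F) × SL(2, F) →* Matrix.symplecticGroup (Fin (1 + 1)) F :=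
  (pairHom (n := 1)).comp (MonoidHom.prodMap (MonoidHom.id _) (sl (n := 0)))

lemma twoHom_apply (p : Pr) : twoHom p = sl p.1 * slTwo p.2 := pairHom_apply _

/-- The action of the two planes. -/
@[instance_reducible] noncomputable def twoAct : MulAction (SL(2, F) × SL(2, F)) Ω :=
  MulAction.compHom Ω twoHom

attribute [local instance] twoAct

lemma two_stab_inl (ω : Ω) :
    (stabilizer Pr ω).comap (MonoidHom.inl _ _) = slStab (n := 1) (F := F) ω := by
  ext g
  show twoHom (g, (1 : A₂)) • ω = ω ↔ _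
  rw [twoHom_apply, map_one, mul_one]
  rfl

lemma two_stab_inr (ω : Ω) : ∃ g : Matrix.symplecticGroup (Fin (1 + 1)) F,
    (stabilizer Pr ω).comap (MonoidHom.inr _ _) = slStab (n := 1) (F := F) (g • ω) := by
  obtain ⟨g, hg⟩ := exists_slTwo_conj (F := F)
  refine ⟨g⁻¹, ?_⟩
  ext M
  show twoHom ((1 : A₂), M) • ω = ω ↔ (sl M : Matrix.symplecticGroup (Fin (1 + 1)) F) • g⁻¹ • ω = g⁻¹ • ω
  rw [twoHom_apply, map_one, one_mul, ← hg, mul_smul, mul_smul, ← eq_inv_smul_iff]

section generic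

variable {A : Type*} [Group A] [Finite A] (K : Subgroup (A × A))

/-- Conjugators into the kernel of the second projection. -/
lemma card_conj_fst (t : A) :
    Nat.card {g : A × A // g⁻¹ * (t, 1) * g ∈ K} =
      Nat.card {a : A // a⁻¹ * t * a ∈ K.comap (MonoidHom.inl A A)} * Nat.card A := by
  rw [← Nat.card_prod]
  refine Nat.card_congr ((Equiv.subtypeEquivRight fun g => ?_).trans Equiv.prodSubtypeFstEquivSubtypeProd)
  rw [Subgroup.mem_comap, show g⁻¹ * (t, (1 : A)) * g = (g.1⁻¹ * t * g.1, 1) from Prod.ext rfl (by simp)]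
  rfl

/-- Conjugators into the kernel of the first projection. -/
lemma card_conj_snd (t : A) :
    Nat.card {g : A × A // g⁻¹ * (1, t) * g ∈ K} =
      Nat.card {a : A // a⁻¹ * t * a ∈ K.comap (MonoidHom.inr A A)} * Nat.card A := by
  rw [← Nat.card_prod]
  refine Nat.card_congr (((Equiv.prodComm A A).subtypeEquiv fun g => ?_).trans
    Equiv.prodSubtypeFstEquivSubtypeProd)
  rw [Subgroup.mem_comap, show g⁻¹ * ((1 : A), t) * g = (1, g.2⁻¹ * t * g.2) from Prod.ext (by simp) rfl]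
  rfl

/-- Conjugators are bounded by the projections. -/
lemma card_conj_le (s t : A) :
    Nat.card {g : A × A // g⁻¹ * (s, t) * g ∈ K} ≤
      Nat.card {a : A // a⁻¹ * s * a ∈ K.map (MonoidHom.fst A A)} *
        Nat.card {a : A // a⁻¹ * t * a ∈ K.map (MonoidHom.snd A A)} := by
  rw [← Nat.card_prod]
  exact Nat.card_le_card_of_injective
    (fun g => (⟨g.1.1, ⟨_, g.2, rfl⟩⟩, ⟨g.1.2, ⟨_, g.2, rfl⟩⟩)) fun g h e => Subtype.ext
      (Prod.ext (congrArg (fun z => z.1.1) e) (congrArg (fun z => z.2.1) e))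

end generic

local notation "inv₂" S => {r : SL(2, F) // r ∈ S ∧ r ≠ 1 ∧ r * r = 1}

/-- Involutions of an overgroup of a subgroup without involutions. -/
lemma card_invol_add_le {S M : Subgroup A₂} (hSM : S ≤ M) (hS : ∀ r ∈ S, r * r = 1 → r = 1) :
    Nat.card (inv₂ M) + Nat.card S ≤ Nat.card M := by
  rw [← Nat.card_sum]
  refine Nat.card_le_card_of_injective
    (Sum.elim (fun r => (⟨r.1, r.2.1⟩ : M)) fun s => ⟨s.1, hSM s.2⟩) ?_
  rintro (r | s) (r' | s') h
  · exact congrArg Sum.inl (Subtype.ext (congrArg Subtype.val h :))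
  · have h' : r.1 = s'.1 := congrArg Subtype.val h
    exact absurd (hS r.1 (h' ▸ s'.2) r.2.2.2) r.2.2.1
  · have h' : s.1 = r'.1 := congrArg Subtype.val h
    exact absurd (hS r'.1 (h' ▸ s.2) r'.2.2.2) r'.2.2.1
  · exact congrArg Sum.inr (Subtype.ext (congrArg Subtype.val h :))

variable [Finite Ω]

/-- Fixed points of the three elements on one orbit. -/
lemma two_fx (h2 : (2 : F) = 0) (ω : Ω) :
    fx (orbit Pr ω) ((H92.sx 1, 1) : Pr) * Nat.card (stabilizer Pr ω) =
        Fintype.card F * Nat.card (inv₂ ((stabilizer Pr ω).comap (MonoidHom.inl A₂ A₂))) * Nat.card A₂ ∧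
      fx (orbit Pr ω) ((1, H92.sx 1) : Pr) * Nat.card (stabilizer Pr ω) =
        Fintype.card F * Nat.card (inv₂ ((stabilizer Pr ω).comap (MonoidHom.inr A₂ A₂))) * Nat.card A₂ ∧
      fx (orbit Pr ω) ((H92.sx 1, H92.sx 1) : Pr) * Nat.card (stabilizer Pr ω) ≤
        Fintype.card F * Nat.card (inv₂ ((stabilizer Pr ω).map (MonoidHom.fst A₂ A₂))) *
          (Fintype.card F * Nat.card (inv₂ ((stabilizer Pr ω).map (MonoidHom.snd A₂ A₂)))) ∧
      Nat.card (orbit Pr ω) * Nat.card (stabilizer Pr ω) = Nat.card A₂ * Nat.card A₂ := by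
  refine ⟨?_, ?_, ?_, ?_⟩
  · rw [fx_orbit, card_conj_fst, count_invol h2 _ sx_one_ne (sx_trace h2 1)]
  · rw [fx_orbit, card_conj_snd, count_invol h2 _ sx_one_ne (sx_trace h2 1)]
  · rw [fx_orbit, ← count_invol h2 _ sx_one_ne (sx_trace h2 1),
      ← count_invol h2 _ sx_one_ne (sx_trace h2 1)]
    exact card_conj_le _ _ _
  · rw [← Nat.card_prod A₂ A₂, ← (stabilizer Pr ω).card_mul_index, index_stabilizer, Nat.card_coe_set_eq,
      mul_comm]

/-- An orbit is diagonal, or all four subgroups are small. -/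
theorem two_struct (h2 : (2 : F) = 0) (h4 : 4 ≤ Fintype.card F)
    (hsmall : Nat.card Ω < pts (1 + 1) (Fintype.card F))
    (hmove : ∀ (ω : Ω) (p : Fin (1 + 1) ⊕ Fin (1 + 1) → F), p ≠ 0 → ∃ t, transv p t • ω ≠ ω)
    (hle : ∀ ω : Ω, Nat.card (zSub (n := 1) (F := F) ω) ≤ 2) (ω : Ω) :
    (Nat.card (orbit Pr ω) = Nat.card A₂ ∧ fx (orbit Pr ω) ((H92.sx 1, 1) : Pr) = 0) ∨
      (∀ T : Subgroup A₂, (T = (stabilizer Pr ω).comap (MonoidHom.inl A₂ A₂) ∨
          T = (stabilizer Pr ω).comap (MonoidHom.inr A₂ A₂)) →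
        3 ≤ Nat.card T ∧ ∀ P : Subgroup A₂, P ≤ T → IsPGroup 2 P → Nat.card P ≤ 2) ∧
      Nat.card ((stabilizer Pr ω).map (MonoidHom.fst A₂ A₂)) ≤ 2 * (Fintype.card F + 1) ∧
      Nat.card ((stabilizer Pr ω).map (MonoidHom.snd A₂ A₂)) ≤ 2 * (Fintype.card F + 1) := by
  classical
  set K := stabilizer Pr ω with hKdef
  set S := K.comap (MonoidHom.inl A₂ A₂)
  set R := K.comap (MonoidHom.inr A₂ A₂)
  set pS := K.map (MonoidHom.fst A₂ A₂)
  set pR := K.map (MonoidHom.snd A₂ A₂)
  set a := Nat.card A₂ with ha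
  have hK1 : Nat.card K = Nat.card pS * Nat.card R := card_eq_fst K
  have hK2 : Nat.card K = Nat.card S * Nat.card pR := card_eq_snd K
  obtain ⟨hfx, -, -, horb⟩ := two_fx h2 ω
  rw [← hKdef] at hfx horb
  -- the two small conditions
  have hSsmall : ∀ P : Subgroup A₂, P ≤ S → IsPGroup 2 P → Nat.card P ≤ 2 := fun P hP =>
    slStab_small h2 hle ω P (hP.trans (two_stab_inl ω).le)
  have hRsmall : ∀ P : Subgroup A₂, P ≤ R → IsPGroup 2 P → Nat.card P ≤ 2 := by
    obtain ⟨g, hg⟩ := two_stab_inr (F := F) ω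
    exact fun P hP => slStab_small h2 hle (g • ω) P (hP.trans hg.le)
  have hmov : ∀ (ω' : Ω), slStab (n := 1) (F := F) ω' ≠ ⊤ := fun ω' h => by
    obtain ⟨t, ht⟩ := hmove ω' e0 e0_ne_zero
    refine ht ?_
    rw [← sl_sx h2]
    exact (mem_slStab (n := 1) (F := F)).mp (by rw [h]; trivial)
  have hSne : S ≠ ⊤ := fun h => hmov ω (by rw [← two_stab_inl]; exact h)
  have hRne : R ≠ ⊤ := fun h => by
    obtain ⟨g, hg⟩ := two_stab_inr (F := F) ω
    exact hmov (g • ω) (hg ▸ h)
  have hS1 : 1 ≤ Nat.card S := Nat.card_pos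
  have hR1 : 1 ≤ Nat.card R := Nat.card_pos
  have hpSa : Nat.card pS ≤ a := Subgroup.card_le_card_group pS
  have hpRa : Nat.card pR ≤ a := Subgroup.card_le_card_group pR
  have ha0 : 0 < a := Nat.card_pos
  -- the diagonal case
  have hdiag : Nat.card K = a → Nat.card S = 1 → (Nat.card (orbit Pr ω) = a ∧
      fx (orbit Pr ω) ((H92.sx 1, 1) : Pr) = 0) := fun hK hS => by
    rw [hK] at horb hfx
    refine ⟨Nat.eq_of_mul_eq_mul_right ha0 horb, ?_⟩
    have h0 : Nat.card (inv₂ S) = 0 := Nat.card_eq_zero.mpr (Or.inl ⟨fun r => r.2.2.1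
      (Subgroup.mem_bot.mp ((SetLike.ext_iff.mp (Subgroup.card_eq_one.mp hS) _).mp r.2.1))⟩)
    rw [h0, mul_zero, zero_mul] at hfx
    exact (mul_eq_zero.mp hfx).resolve_right ha0.ne'
  by_cases htS : pS = ⊤
  · have hn : S.Normal := ⟨fun r hr m => fst_normalises K (show m ∈ pS by rw [htS]; trivial) hr⟩
    have hS : S = ⊥ := (normal_SL2 h2 h4 S).resolve_right hSne
    rw [hS, Subgroup.card_bot, one_mul] at hK2
    rw [htS, Subgroup.card_top, ← ha] at hK1
    refine Or.inl (hdiag ?_ (by rw [hS, Subgroup.card_bot]))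
    have : a ≤ a * Nat.card R := Nat.le_mul_of_pos_right _ hR1
    omega
  by_cases htR : pR = ⊤
  · have hn : R.Normal := ⟨fun r hr m => snd_normalises K (show m ∈ pR by rw [htR]; trivial) hr⟩
    have hR : R = ⊥ := (normal_SL2 h2 h4 R).resolve_right hRne
    rw [hR, Subgroup.card_bot, mul_one] at hK1
    rw [htR, Subgroup.card_top, ← ha] at hK2
    have : a ≤ Nat.card S * a := Nat.le_mul_of_pos_left _ hS1
    have hSa : Nat.card S * a = 1 * a := by omega
    exact Or.inl (hdiag (by omega) (Nat.eq_of_mul_eq_mul_right ha0 hSa))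
  right
  -- proper subgroups have index at least three
  have hidx : ∀ M : Subgroup A₂, M ≠ ⊤ → 3 * Nat.card M ≤ a := by
    intro M hM
    rw [ha, ← M.card_mul_index, mul_comm]
    refine Nat.mul_le_mul_left _ ?_
    have h0 : M.index ≠ 0 := Subgroup.index_ne_zero_of_finite
    have h1 : M.index ≠ 1 := fun h => hM (Subgroup.index_eq_one.mp h)
    have h2' : M.index ≠ 2 := fun h => by
      have := Subgroup.normal_of_index_eq_two h
      rcases normal_SL2 h2 h4 M with hb | hb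
      · rw [hb, Subgroup.index_bot, card_SL2] at h
        have : 3 ≤ Fintype.card F ^ 2 - 1 := by
          have : 16 ≤ Fintype.card F ^ 2 := by nlinarith
          omega
        have := Nat.mul_le_mul h4 this
        omega
      · exact hM hb
    omega
  have hN : Nat.card (orbit Pr ω) < pts (1 + 1) (Fintype.card F) :=
    (Nat.card_le_card_of_injective _ Subtype.val_injective).trans_lt hsmall
  have hP : 2 * pts (1 + 1) (Fintype.card F) ≤ 3 * a := by
    rw [ha, card_SL2]
    set q := Fintype.card F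
    obtain ⟨r, hr⟩ := Nat.exists_eq_add_of_le h4
    have e : q ^ 2 - 1 + 1 = q ^ 2 := Nat.sub_add_cancel (Nat.one_le_pow _ _ (by omega))
    simp only [pts, Finset.sum_range_succ, Finset.sum_range_zero]
    nlinarith
  have hsz : ∀ x y : ℕ, Nat.card K = x * y → 3 * y ≤ a → x ≤ 2 → False := by
    intro x y hxy hy hx
    rw [hxy] at horb
    have h6 : x * y * 3 ≤ 2 * a :=
      le_trans (by rw [mul_assoc, mul_comm y]) (Nat.mul_le_mul hx hy)
    nlinarith
  have hS3 : 3 ≤ Nat.card S := by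
    by_contra h
    exact hsz _ _ hK2 (hidx pR htR) (by omega)
  have hR3 : 3 ≤ Nat.card R := by
    by_contra h
    exact hsz _ _ (hK1.trans (mul_comm _ _)) (hidx pS htS) (by omega)
  refine ⟨?_, (small_struct h2 S hS3 hSsmall).1 pS fun m hm r hr => fst_normalises K hm hr,
    (small_struct h2 R hR3 hRsmall).1 pR fun m hm r hr => snd_normalises K hm hr⟩
  rintro T (rfl | rfl)
  · exact ⟨hS3, hSsmall⟩
  · exact ⟨hR3, hRsmall⟩

end Cfsg.Agent.H2.MinIdx
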