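import Cfsg.Agent.H2.MinIdx.Scale

/-!
In characteristic two the fixed point numbers of the three classes of the radical of a point stabiliser
are governed by two multiplicities.
-/

set_option autoImplicit false

namespace Cfsg.Agent.H2.MinIdx

open Matrix MulAction

variable {n : ℕ} {F : Type*} [Field F] [Fintype F]

local notation "⟪" u ", " v "⟫" => Cfsg.sympForm _ F u v

/-- Number of fixed points. -/
noncomputable def fx {G : Type*} [Group G] (Ω : Type*) [MulAction G Ω] (g : G) : ℕ :=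
  Nat.card (fixedBy Ω g)

lemma fx_conj {G : Type*} [Group G] {Ω : Type*} [MulAction G Ω] (g h : G) :
    fx Ω (h * g * h⁻¹) = fx Ω g := by
  refine (Nat.card_congr (Equiv.subtypeEquiv (MulAction.toPerm h) fun x => ?_)).symm
  show g • x = x ↔ (h * g * h⁻¹) • (h • x) = h • x
  rw [smul_smul, inv_mul_cancel_right, ← smul_smul, smul_left_cancel_iff]

lemma exists_sq (h2 : (2 : F) = 0) (c : F) : ∃ d, d * d = c := by
  have hinj : Function.Injective fun d : F => d * d := fun a b h => by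
    have h' : (a - b) * (a - b) = 0 := by
      simp only at h
      linear_combination h + (b * b - a * b) * h2
    exact sub_eq_zero.mp (mul_self_eq_zero.mp h')
  exact Finite.injective_iff_surjective.mp hinj c

section

variable {Ω : Type*} [MulAction (Matrix.symplecticGroup (Fin (n + 1)) F) Ω]

/-- All non-trivial transvections fix equally many points. -/
lemma fx_transv (h2 : (2 : F) = 0) {p : Fin (n + 1) ⊕ Fin (n + 1) → F} (hp : p ≠ 0) {c : F}
    (hc : c ≠ 0) :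
    fx Ω (transv p c) = fx Ω (transv (e0 : Fin (n + 1) ⊕ Fin (n + 1) → F) 1) := by
  obtain ⟨d, hd⟩ := exists_sq h2 c
  have hd0 : d ≠ 0 := fun h => hc (by rw [← hd, h, mul_zero])
  obtain ⟨g, hg⟩ := exists_map_vec (e0_ne_zero (F := F) (n := n)) (smul_ne_zero hd0 hp)
  rw [← fx_conj (Ω := Ω) (transv (e0 : Fin (n + 1) ⊕ Fin (n + 1) → F) 1) g, conj_transv, hg,
    transv_smul, mul_one, hd]

/-- The base vector of the complement. -/
def a1 (hn : 1 ≤ n) : Fin n ⊕ Fin n → F := Pi.single (.inl ⟨0, hn⟩) 1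

omit [Fintype F] in
lemma a1_ne_zero (hn : 1 ≤ n) : (a1 hn : Fin n ⊕ Fin n → F) ≠ 0 := by simp [a1]

lemma fx_qel_zero (hn : 1 ≤ n) {a : Fin n ⊕ Fin n → F} (ha : a ≠ 0) :
    fx Ω (qel (e0 : Fin (n + 1) ⊕ Fin (n + 1) → F) (up a) 0) =
      fx Ω (qel (e0 : Fin (n + 1) ⊕ Fin (n + 1) → F) (up (a1 hn)) 0) := by
  obtain ⟨g, hg⟩ := exists_map_vec (a1_ne_zero (F := F) hn) ha
  rw [← fx_conj (qel (e0 : Fin (n + 1) ⊕ Fin (n + 1) → F) (up (a1 hn)) 0) (incl g), incl_qel]
  rw [show act g (a1 hn) = a from hg]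

lemma fx_qel_one (h2 : (2 : F) = 0) (hn : 1 ≤ n) {a : Fin n ⊕ Fin n → F} (ha : a ≠ 0) {t : F}
    (ht : t ≠ 0) :
    fx Ω (qel (e0 : Fin (n + 1) ⊕ Fin (n + 1) → F) (up a) t) =
      fx Ω (qel (e0 : Fin (n + 1) ⊕ Fin (n + 1) → F) (up (a1 hn)) 1) := by
  obtain ⟨d, hd⟩ := exists_sq h2 t
  have hd0 : d ≠ 0 := fun h => ht (by rw [← hd, h, mul_zero])
  obtain ⟨g, hg⟩ := exists_map_vec (a1_ne_zero (F := F) hn) (smul_ne_zero (inv_ne_zero hd0) ha)
  rw [← fx_conj (qel (e0 : Fin (n + 1) ⊕ Fin (n + 1) → F) (up (a1 hn)) 1) (tor (Units.mk0 d hd0) * incl g)]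
  have e : tor (Units.mk0 d hd0) * incl g * qel (e0 : Fin (n + 1) ⊕ Fin (n + 1) → F) (up (a1 hn)) 1 *
      (tor (Units.mk0 d hd0) * incl g)⁻¹ =
      tor (Units.mk0 d hd0) * (incl g * qel e0 (up (a1 hn)) 1 * (incl g)⁻¹) *
        (tor (Units.mk0 d hd0))⁻¹ := by group
  rw [e, incl_qel, show act g (a1 hn) = d⁻¹ • a from hg, tor_qel]
  simp [smul_smul, hd0, hd]

end

section character

variable (φ : F →+ ZMod 2)

/-- The sign character of a functional. -/
def sgn (t : F) : ℤ := if φ t = 0 then 1 else -1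

omit [Fintype F] in
lemma sgn_add (s t : F) : sgn φ (s + t) = sgn φ s * sgn φ t := by
  unfold sgn
  rw [map_add]
  generalize φ s = a
  generalize φ t = b
  revert a b
  decide

omit [Fintype F] in
lemma sgn_zero : sgn φ 0 = 1 := by simp [sgn]

lemma sum_sgn (hφ : φ ≠ 0) : ∑ t : F, sgn φ t = 0 := by
  obtain ⟨w, hw⟩ : ∃ w, φ w ≠ 0 := by
    by_contra h; push Not at h; exact hφ (AddMonoidHom.ext h)
  have h1 : ∑ t : F, sgn φ (t + w) = ∑ t : F, sgn φ t :=
    Fintype.sum_equiv (Equiv.addRight w) _ _ fun _ => rfl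
  rw [Finset.sum_congr rfl fun t _ => sgn_add φ t w, ← Finset.sum_mul] at h1
  simp only [sgn, hw, if_false] at h1 ⊢
  linarith

lemma sum_sgn_mul (hφ : φ ≠ 0) {c : F} (hc : c ≠ 0) : ∑ t : F, sgn φ (c * t) = 0 := by
  rw [← sum_sgn φ hφ]
  exact Fintype.sum_equiv (Equiv.mulLeft₀ c hc) _ _ fun _ => rfl

lemma sum_sgn_plane (hφ : φ ≠ 0) :
    ∑ p : F × F, sgn φ (p.1 * p.2) = (Fintype.card F : ℤ) := by
  classical
  rw [Fintype.sum_prod_type, Finset.sum_eq_single (0 : F)]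
  · simp [sgn_zero]
  · exact fun b _ hb => sum_sgn_mul φ hφ hb
  · simp

lemma sum_sgn_plane_minus (h2 : (2 : F) = 0) (hφ : φ ≠ 0) {ξ : F} (hξ : ∀ s : F, s * s + s + ξ ≠ 0) :
    ∑ p : F × F, sgn φ (p.1 * p.2 + (p.1 * p.1 + ξ * (p.2 * p.2))) = -(Fintype.card F : ℤ) := by
  classical
  have hbij : Function.Bijective fun d : F => d * d :=
    ⟨fun a b h => by
      have h' : (a - b) * (a - b) = 0 := by
        simp only at h
        linear_combination h + (b * b - a * b) * h2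
      exact sub_eq_zero.mp (mul_self_eq_zero.mp h'), exists_sq h2⟩
  have hsq : ∀ c : F, c ≠ 0 → ∑ b : F, sgn φ (b * b * c) = 0 := fun c hc => by
    rw [← sum_sgn_mul φ hφ hc]
    exact Fintype.sum_bijective _ hbij _ _ fun b => by rw [mul_comm]
  rw [Fintype.sum_prod_type, Finset.sum_comm]
  have h0 : ∀ b : F, b ≠ 0 → ∑ a : F, sgn φ (a * b + (a * a + ξ * (b * b))) =
      ∑ s : F, sgn φ (b * b * (s * s + s + ξ)) := fun b hb =>
    (Fintype.sum_equiv (Equiv.mulRight₀ b hb) _ _ fun s => by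
      congr 1; simp only [Equiv.mulRight₀_apply]; ring).symm
  rw [← Finset.add_sum_erase _ _ (Finset.mem_univ (0 : F)),
    Finset.sum_congr rfl fun b hb => h0 b (Finset.ne_of_mem_erase hb), Finset.sum_comm]
  have h1 : ∀ s : F, ∑ b ∈ Finset.univ.erase 0, sgn φ (b * b * (s * s + s + ξ)) = -1 := fun s => by
    have h := Finset.add_sum_erase Finset.univ (fun b => sgn φ (b * b * (s * s + s + ξ)))
      (Finset.mem_univ (0 : F))
    rw [hsq _ (hξ s)] at h
    simp only [mul_zero, zero_mul, sgn_zero] at h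
    linarith
  rw [Finset.sum_congr rfl fun s _ => h1 s]
  have h2' : ∑ a : F, sgn φ (a * (0 : F) + (a * a + ξ * ((0 : F) * 0))) = 0 := by
    simp only [mul_zero, zero_add, add_zero]
    rw [← sum_sgn φ hφ]
    exact Fintype.sum_bijective _ hbij _ _ fun _ => rfl
  rw [h2']
  simp

lemma exists_irreducible (h2 : (2 : F) = 0) : ∃ ξ : F, ∀ s : F, s * s + s + ξ ≠ 0 := by
  have hns : ¬ Function.Surjective fun s : F => s * s + s := fun h => by
    have hinj := Finite.injective_iff_surjective.mpr h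
    have h01 : (fun s : F => s * s + s) 0 = (fun s : F => s * s + s) 1 := by
      show (0 : F) * 0 + 0 = 1 * 1 + 1
      linear_combination -h2
    exact zero_ne_one (hinj h01)
  obtain ⟨ξ, hξ⟩ := not_forall.mp hns
  refine ⟨ξ, fun s hs => hξ ⟨s, ?_⟩⟩
  show s * s + s = ξ
  linear_combination hs - ξ * h2

end character

private lemma xor_zmod_two :
    ∀ a b : ZMod 2, a ≠ 0 → (b + a = 0 ∧ ¬ b = 0) ∨ (b = 0 ∧ ¬ b + a = 0) := by decide

/-- Quadratic forms on the complement polarising to the symplectic form. -/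
def qf (η ξ : F) (a : Fin n ⊕ Fin n → F) : F :=
  ∑ i : Fin n, (a (.inl i) * a (.inr i) +
    if (i : ℕ) = 0 then η * (a (.inl i) * a (.inl i) + ξ * (a (.inr i) * a (.inr i))) else 0)

omit [Fintype F] in
lemma qf_add (h2 : (2 : F) = 0) (η ξ : F) (a b : Fin n ⊕ Fin n → F) :
    qf η ξ (a + b) = qf η ξ a + qf η ξ b + ⟪b, a⟫ := by
  rw [sympForm_apply, qf, qf, qf, ← Finset.sum_add_distrib, ← Finset.sum_add_distrib]
  refine Finset.sum_congr rfl fun i _ => ?_
  simp only [Pi.add_apply]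
  split_ifs
  · linear_combination (b (.inl i) * a (.inr i) +
      η * (a (.inl i) * b (.inl i) + ξ * (a (.inr i) * b (.inr i)))) * h2
  · linear_combination (b (.inl i) * a (.inr i)) * h2

omit [Fintype F] in
lemma qf_zero (η ξ : F) : qf η ξ (0 : Fin n ⊕ Fin n → F) = 0 := by simp [qf]

lemma sum_sgn_qf (φ : F →+ ZMod 2) (η ξ : F) :
    ∑ a : Fin n ⊕ Fin n → F, sgn φ (qf η ξ a) =
      ∏ i : Fin n, ∑ p : F × F, sgn φ (p.1 * p.2 +
        if (i : ℕ) = 0 then η * (p.1 * p.1 + ξ * (p.2 * p.2)) else 0) := by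
  classical
  rw [Fintype.prod_sum]
  let e : (Fin n ⊕ Fin n → F) ≃ (Fin n → F × F) :=
    (Equiv.sumArrowEquivProdArrow _ _ F).trans (Equiv.arrowProdEquivProdArrow _ _ _).symm
  refine Fintype.sum_equiv e _ _ fun a => ?_
  unfold qf
  show _ = ∏ i : Fin n, sgn φ (a (.inl i) * a (.inr i) +
    if (i : ℕ) = 0 then η * (a (.inl i) * a (.inl i) + ξ * (a (.inr i) * a (.inr i))) else 0)
  induction (Finset.univ : Finset (Fin n)) using Finset.induction_on with
  | empty => simp [sgn_zero]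
  | insert i s hi ih => rw [Finset.sum_insert hi, Finset.prod_insert hi, sgn_add, ih]

variable {Ω : Type*} [MulAction (Matrix.symplecticGroup (Fin (n + 1)) F) Ω] [Finite Ω]

/-- The signed sum attached to a quadratic form is a non-negative multiple of the order of the radical. -/
theorem signed_sum (h2 : (2 : F) = 0) (hn : 1 ≤ n) (φ : F →+ ZMod 2) (hφ : φ ≠ 0)
    (Q0 : (Fin n ⊕ Fin n → F) → F) (hQ : ∀ a b, Q0 (a + b) = Q0 a + Q0 b + ⟪b, a⟫) (hQ0 : Q0 0 = 0) :
    ∃ w : ℕ, (w : ℤ) * (Fintype.card F : ℤ) ^ (2 * n + 1) =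
      (Nat.card Ω : ℤ) - fx Ω (transv (e0 : Fin (n + 1) ⊕ Fin (n + 1) → F) 1) +
        ((fx Ω (qel (e0 : Fin (n + 1) ⊕ Fin (n + 1) → F) (up (a1 hn)) 0) : ℤ) -
          fx Ω (qel (e0 : Fin (n + 1) ⊕ Fin (n + 1) → F) (up (a1 hn)) 1)) *
          (∑ a : Fin n ⊕ Fin n → F, sgn φ (Q0 a) - 1) := by
  classical
  let U := Fin n ⊕ Fin n → F
  let el : U × F → Qgrp n F := fun p => ⟨qel e0 (up p.1) p.2, qel_mem p.1 p.2⟩
  have hel : Function.Bijective el := ⟨fun p r h =>
    Prod.ext (qel_up_inj (congrArg Subtype.val h)).1 (qel_up_inj (congrArg Subtype.val h)).2,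
    fun ⟨g, p, hp⟩ => ⟨p, Subtype.ext hp⟩⟩
  let ee : U × F ≃ Qgrp n F := Equiv.ofBijective el hel
  let f : Qgrp n F → ZMod 2 := fun g => φ ((ee.symm g).2 + Q0 (ee.symm g).1)
  have hf : ∀ p, f (el p) = φ (p.2 + Q0 p.1) := fun p => by
    simp only [f, show el p = ee p from rfl, Equiv.symm_apply_apply]
  have hmul : ∀ p r, el p * el r = el (p.1 + r.1, p.2 + r.2 + ⟪r.1, p.1⟫) := fun p r =>
    Subtype.ext (qel_up_mul _ _ _ _)
  have hfadd : ∀ g h, f (g * h) = f g + f h := fun g h => by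
    obtain ⟨p, rfl⟩ := hel.2 g
    obtain ⟨r, rfl⟩ := hel.2 h
    rw [hmul, hf, hf, hf, ← map_add]
    congr 1
    rw [hQ]
    linear_combination ⟪r.1, p.1⟫ * h2
  let K0 : Subgroup (Qgrp n F) :=
    { carrier := {g | f g = 0}
      one_mem' := by
        show f 1 = 0
        have := hfadd 1 1
        rw [mul_one, left_eq_add] at this
        exact this
      mul_mem' := fun {g h} hg hh => by
        show f _ = 0; rw [hfadd, show f g = 0 from hg, show f h = 0 from hh, add_zero]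
      inv_mem' := fun {g} hg => by
        show f g⁻¹ = 0
        have := hfadd g⁻¹ g
        rw [inv_mul_cancel, show f g = 0 from hg, add_zero] at this
        rw [← this]
        have h1 := hfadd 1 1
        rwa [mul_one, left_eq_add] at h1 }
  have := Fintype.ofFinite Ω
  have := Fintype.ofFinite K0
  have := Fintype.ofFinite (Qgrp n F)
  have := Fintype.ofFinite (orbitRel.Quotient K0 Ω)
  have := Fintype.ofFinite (orbitRel.Quotient (Qgrp n F) Ω)
  have hbK := MulAction.sum_card_fixedBy_eq_card_orbits_mul_card_group K0 Ω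
  have hbQ := MulAction.sum_card_fixedBy_eq_card_orbits_mul_card_group (Qgrp n F) Ω
  simp only [Fintype.card_eq_nat_card] at hbK hbQ
  have hle : Nat.card (orbitRel.Quotient (Qgrp n F) Ω) ≤ Nat.card (orbitRel.Quotient K0 Ω) := by
    refine Nat.card_le_card_of_surjective (Quotient.map' id fun x y hxy => ?_) ?_
    · obtain ⟨k, rfl⟩ := hxy
      exact ⟨(k : Qgrp n F), rfl⟩
    · rintro ⟨x⟩; exact ⟨Quotient.mk'' x, rfl⟩
  have hK0 : 2 * Nat.card K0 = Fintype.card F ^ (2 * n + 1) := by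
    obtain ⟨w, hw⟩ : ∃ w, φ w ≠ 0 := by
      by_contra h; push Not at h; exact hφ (AddMonoidHom.ext h)
    have hidx : K0.index = 2 := by
      rw [Subgroup.index_eq_two_iff]
      refine ⟨el (0, w), fun g => ?_⟩
      have h1 : f (g * el (0, w)) = f g + φ w := by
        rw [hfadd, hf, hQ0, add_zero]
      show Xor' (f (g * el (0, w)) = 0) (f g = 0)
      rw [h1]
      revert hw
      generalize φ w = a
      generalize f g = b
      exact xor_zmod_two a b
    have h := K0.card_mul_index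
    rw [hidx] at h
    rw [mul_comm, h, Nat.card_congr ee.symm, Nat.card_eq_fintype_card]
    simp [U, pow_succ, two_mul]
  refine ⟨Nat.card (orbitRel.Quotient K0 Ω) - Nat.card (orbitRel.Quotient (Qgrp n F) Ω), ?_⟩
  set F1 : Qgrp n F → ℤ := fun g => (fx Ω (g : Matrix.symplecticGroup (Fin (n + 1)) F) : ℤ)
  have hsgn : ∑ g : Qgrp n F, (if f g = 0 then (1 : ℤ) else -1) * F1 g =
      2 * (∑ g : K0, F1 g.1) - ∑ g : Qgrp n F, F1 g := by
    have hK : ∑ g : K0, F1 g.1 = ∑ g ∈ Finset.univ.filter (fun g => f g = 0), F1 g :=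
      (Finset.sum_subtype (Finset.univ.filter fun g => f g = 0) (fun g => by simp; rfl) F1).symm
    rw [hK, Finset.mul_sum, Finset.sum_filter, ← Finset.sum_sub_distrib]
    refine Finset.sum_congr rfl fun g _ => ?_
    split_ifs <;> ring
  have hbK' : ∑ g : K0, F1 g.1 = (Nat.card (orbitRel.Quotient K0 Ω) : ℤ) * Nat.card K0 := by
    rw [← Nat.cast_mul, ← hbK, Nat.cast_sum]
    rfl
  have hbQ' : ∑ g : Qgrp n F, F1 g =
      (Nat.card (orbitRel.Quotient (Qgrp n F) Ω) : ℤ) * Nat.card (Qgrp n F) := by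
    rw [← Nat.cast_mul, ← hbQ, Nat.cast_sum]
    rfl
  have hQcard : Nat.card (Qgrp n F) = Fintype.card F ^ (2 * n + 1) := by
    rw [Nat.card_congr ee.symm, Nat.card_eq_fintype_card]
    simp [U, pow_succ, two_mul]
  rw [hbK', hbQ', hQcard, show (2 : ℤ) * ((Nat.card (orbitRel.Quotient K0 Ω) : ℤ) * Nat.card K0) =
    (Nat.card (orbitRel.Quotient K0 Ω) : ℤ) * ((2 * Nat.card K0 : ℕ) : ℤ) by push_cast; ring, hK0,
    ← sub_mul, ← Nat.cast_sub hle, Nat.cast_pow] at hsgn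
  rw [← hsgn, ← Fintype.sum_equiv ee (fun p => sgn φ (p.2 + Q0 p.1) *
    (fx Ω (qel (e0 : Fin (n + 1) ⊕ Fin (n + 1) → F) (up p.1) p.2) : ℤ)) _ (fun p => by
      rw [show ee p = el p from rfl, hf]; rfl), Fintype.sum_prod_type,
    ← Finset.add_sum_erase _ _ (Finset.mem_univ (0 : U))]
  set x := (fx Ω (transv (e0 : Fin (n + 1) ⊕ Fin (n + 1) → F) 1) : ℤ)
  set y := (fx Ω (qel (e0 : Fin (n + 1) ⊕ Fin (n + 1) → F) (up (a1 hn)) 0) : ℤ)
  set z := (fx Ω (qel (e0 : Fin (n + 1) ⊕ Fin (n + 1) → F) (up (a1 hn)) 1) : ℤ)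
  have hA : ∑ t : F, sgn φ (t + Q0 0) *
      (fx Ω (qel (e0 : Fin (n + 1) ⊕ Fin (n + 1) → F) (up (0 : U)) t) : ℤ) = (Nat.card Ω : ℤ) - x := by
    simp only [hQ0, add_zero, map_zero, qel_zero_vec]
    rw [← Finset.add_sum_erase _ _ (Finset.mem_univ (0 : F)),
      Finset.sum_congr rfl fun t ht => by rw [fx_transv h2 e0_ne_zero (Finset.ne_of_mem_erase ht)],
      ← Finset.sum_mul]
    have h := Finset.add_sum_erase Finset.univ (fun t => sgn φ t) (Finset.mem_univ (0 : F))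
    rw [sum_sgn φ hφ, sgn_zero] at h
    have h1 : fx Ω (1 : Matrix.symplecticGroup (Fin (n + 1)) F) = Nat.card Ω := by
      rw [fx, fixedBy_one_eq_univ]; exact Nat.card_congr (Equiv.Set.univ Ω)
    rw [transv_zero, h1, sgn_zero, show ∑ t ∈ Finset.univ.erase 0, sgn φ t = -1 by linarith]
    ring
  have hB : ∀ a : U, a ≠ 0 → ∑ t : F, sgn φ (t + Q0 a) *
      (fx Ω (qel (e0 : Fin (n + 1) ⊕ Fin (n + 1) → F) (up a) t) : ℤ) = (y - z) * sgn φ (Q0 a) := by
    intro a ha
    rw [← Finset.add_sum_erase _ _ (Finset.mem_univ (0 : F)),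
      Finset.sum_congr rfl fun t ht => by
        rw [fx_qel_one h2 hn ha (Finset.ne_of_mem_erase ht), sgn_add],
      fx_qel_zero hn ha, zero_add, ← Finset.sum_mul, ← Finset.sum_mul]
    have h := Finset.add_sum_erase Finset.univ (fun t => sgn φ t) (Finset.mem_univ (0 : F))
    rw [sum_sgn φ hφ, sgn_zero] at h
    rw [show ∑ t ∈ Finset.univ.erase 0, sgn φ t = -1 by linarith]
    ring
  have hS := Finset.add_sum_erase Finset.univ (fun a => sgn φ (Q0 a)) (Finset.mem_univ (0 : U))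
  rw [hQ0, sgn_zero] at hS
  rw [hA, Finset.sum_congr rfl fun a ha => hB a (Finset.ne_of_mem_erase ha), ← Finset.mul_sum, ← hS]
  ring

/-- The two multiplicities. -/
theorem exists_mult (h2 : (2 : F) = 0) (hn : 1 ≤ n) :
    ∃ u v : ℕ, 2 * ((Nat.card Ω : ℤ) - fx Ω (transv (e0 : Fin (n + 1) ⊕ Fin (n + 1) → F) 1)) =
        (Fintype.card F : ℤ) ^ (n + 1) *
          ((u : ℤ) * ((Fintype.card F : ℤ) ^ n + 1) + v * ((Fintype.card F : ℤ) ^ n - 1)) ∧
      2 * ((fx Ω (qel (e0 : Fin (n + 1) ⊕ Fin (n + 1) → F) (up (a1 hn)) 0) : ℤ) -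
          fx Ω (qel (e0 : Fin (n + 1) ⊕ Fin (n + 1) → F) (up (a1 hn)) 1)) =
        (Fintype.card F : ℤ) ^ (n + 1) * ((u : ℤ) - v) := by
  classical
  have h2c : CharP F 2 := by
    have hr : ringChar F ∣ 2 := ringChar.dvd (by exact_mod_cast h2)
    have : ringChar F = 2 := by
      rcases (Nat.dvd_prime Nat.prime_two).mp hr with h | h
      · have := CharP.char_is_prime F (ringChar F)
        rw [h] at this; exact absurd this Nat.not_prime_one
      · exact h
    exact ringChar.of_eq this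
  obtain ⟨φ, hφ, -⟩ := exists_functional (p := 2) (⊥ : AddSubgroup F) bot_ne_top
  obtain ⟨ξ, hξ⟩ := exists_irreducible h2
  obtain ⟨u, hu⟩ := signed_sum (Ω := Ω) h2 hn φ hφ (qf 0 0) (qf_add h2 0 0) (qf_zero 0 0)
  obtain ⟨v, hv⟩ := signed_sum (Ω := Ω) h2 hn φ hφ (qf 1 ξ) (qf_add h2 1 ξ) (qf_zero 1 ξ)
  have hplus : ∑ a : Fin n ⊕ Fin n → F, sgn φ (qf 0 0 a) = (Fintype.card F : ℤ) ^ n := by
    rw [sum_sgn_qf]
    simp [sum_sgn_plane φ hφ]
  have hminus : ∑ a : Fin n ⊕ Fin n → F, sgn φ (qf 1 ξ a) = -(Fintype.card F : ℤ) ^ n := by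
    rw [sum_sgn_qf]
    obtain ⟨j, rfl⟩ := Nat.exists_eq_add_of_le hn
    rw [← Finset.mul_prod_erase Finset.univ _ (Finset.mem_univ (⟨0, by omega⟩ : Fin (1 + j)))]
    simp only [if_true, one_mul]
    rw [sum_sgn_plane_minus φ h2 hφ hξ, Finset.prod_congr rfl (g := fun _ => (Fintype.card F : ℤ))
      fun i hi => ?_]
    swap
    · have hne : ¬((i : ℕ) = 0) := fun h => Finset.ne_of_mem_erase hi (Fin.ext h)
      simp only [if_neg hne, add_zero, sum_sgn_plane φ hφ]
    simp only [Finset.prod_const, Finset.card_erase_of_mem (Finset.mem_univ _),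
      Finset.card_univ, Fintype.card_fin, Nat.add_sub_cancel_left]
    ring
  rw [hplus] at hu
  rw [hminus] at hv
  set q := (Fintype.card F : ℤ)
  set D := ((fx Ω (qel (e0 : Fin (n + 1) ⊕ Fin (n + 1) → F) (up (a1 hn)) 0) : ℤ) -
    fx Ω (qel (e0 : Fin (n + 1) ⊕ Fin (n + 1) → F) (up (a1 hn)) 1))
  have hq : q ^ (2 * n + 1) = q ^ (n + 1) * q ^ n := by rw [← pow_add]; congr 1; omega
  rw [hq] at hu hv
  have hqn : q ^ n ≠ 0 := pow_ne_zero _ (Int.natCast_ne_zero.mpr Fintype.card_ne_zero)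
  have hD : 2 * D = q ^ (n + 1) * ((u : ℤ) - v) := by
    apply mul_right_cancel₀ hqn
    linear_combination hv - hu
  refine ⟨u, v, ?_, hD⟩
  linear_combination hD - hu - hv

end Cfsg.Agent.H2.MinIdx
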