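import Cfsg.Agent.H2.MinIdx.Basic

/-!
Subgroups of the symplectic group containing a full group of transvections have large index.
-/

set_option autoImplicit false

namespace Cfsg.Agent.H2.MinIdx

open Matrix MulAction
open scoped Pointwise

variable {m n : ℕ} {F : Type*} [Field F]

local notation "⟪" u ", " v "⟫" => Cfsg.sympForm _ F u v

/-- The number of points of the projective space. -/
def pts (m q : ℕ) : ℕ := ∑ i ∈ Finset.range (2 * m), q ^ i

lemma pts_eq {q : ℕ} (hq : 2 ≤ q) (m : ℕ) : pts m q = (q ^ (2 * m) - 1) / (q - 1) :=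
  Nat.geomSum_eq hq _

lemma pts_mul (m : ℕ) {q : ℕ} (hq : 1 ≤ q) : pts m q * (q - 1) + 1 = q ^ (2 * m) :=
  geom_sum_mul_of_one_le hq _ ▸ Nat.sub_add_cancel (Nat.one_le_pow _ _ hq)

/-- A centre all whose transvections lie in `H`. -/
def Full (H : Subgroup (Matrix.symplecticGroup (Fin m) F)) (p : Fin m ⊕ Fin m → F) : Prop :=
  p ≠ 0 ∧ ∀ t, transv p t ∈ H

variable {H : Subgroup (Matrix.symplecticGroup (Fin m) F)}

lemma Full.smul {p : Fin m ⊕ Fin m → F} (hp : Full H p) {c : F} (hc : c ≠ 0) : Full H (c • p) :=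
  ⟨smul_ne_zero hc hp.1, fun t => by rw [transv_smul]; exact hp.2 _⟩

lemma Full.act {p : Fin m ⊕ Fin m → F} (hp : Full H p) {g : Matrix.symplecticGroup (Fin m) F}
    (hg : g ∈ H) : Full H (MinIdx.act g p) := by
  refine ⟨act_ne_zero g hp.1, fun t => ?_⟩
  have := H.mul_mem (H.mul_mem hg (hp.2 t)) (H.inv_mem hg)
  rwa [conj_transv] at this

lemma Full.add_smul {p r : Fin m ⊕ Fin m → F} (hp : Full H p) (hr : Full H r) (h : ⟪p, r⟫ ≠ 0)
    (k : F) : Full H (p + k • r) := by
  have := hp.act (hr.2 (k / ⟪p, r⟫))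
  rwa [act_transv, div_mul_cancel₀ _ h] at this

lemma Full.combo {p r : Fin m ⊕ Fin m → F} (hp : Full H p) (hr : Full H r) (h : ⟪p, r⟫ ≠ 0)
    {a b : F} (hab : a • p + b • r ≠ 0) : Full H (a • p + b • r) := by
  by_cases ha : a = 0
  · have hb : b ≠ 0 := fun hb => hab (by simp [ha, hb])
    simpa [ha] using hr.smul hb
  · have := (hp.add_smul hr h (a⁻¹ * b)).smul ha
    rwa [smul_add, smul_smul, mul_inv_cancel_left₀ ha] at this

lemma eq_top_of_forall_full (h : ∀ p : Fin m ⊕ Fin m → F, p ≠ 0 → Full H p) : H = ⊤ := by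
  rw [eq_top_iff, ← closure_transv_eq_top, Subgroup.closure_le]
  rintro g ⟨v, c, rfl⟩
  by_cases hv : v = 0
  · subst hv
    have : transv (0 : Fin m ⊕ Fin m → F) c = 1 := by
      apply ext_of_mulVec; intro x
      show MinIdx.act _ x = MinIdx.act 1 x
      rw [act_transv, act_one, smul_zero, add_zero]
    rw [this]; exact H.one_mem
  · exact (h v hv).2 c

/-- `x` is not in the radical of `X`. -/
def NonRad (X : Submodule F (Fin m ⊕ Fin m → F)) (x : Fin m ⊕ Fin m → F) : Prop :=
  x ∈ X ∧ ∃ z ∈ X, ⟪x, z⟫ ≠ 0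

/-- A subspace all whose non-radical vectors are full centres. -/
def FullSpace (H : Subgroup (Matrix.symplecticGroup (Fin m) F))
    (X : Submodule F (Fin m ⊕ Fin m → F)) : Prop :=
  (∀ x, NonRad X x → Full H x) ∧ ∃ x, NonRad X x

lemma fullSpace_span {p r : Fin m ⊕ Fin m → F} (hp : Full H p) (hr : Full H r) (h : ⟪p, r⟫ ≠ 0) :
    FullSpace H (Submodule.span F {p, r}) := by
  refine ⟨fun x hx => ?_, p, Submodule.subset_span (by simp), r, Submodule.subset_span (by simp), h⟩
  obtain ⟨hxm, z, -, hxz⟩ := hx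
  obtain ⟨a, b, rfl⟩ := Submodule.mem_span_pair.mp hxm
  exact hp.combo hr h fun h0 => hxz (by rw [h0, fzero_l])

variable [Fintype F]

lemma exists_avoid_three {V : Type*} [AddCommGroup V] [Module F V] (hq : 3 ≤ Fintype.card F)
    (X A B C : Submodule F V) (hA : ¬ X ≤ A) (hB : ¬ X ≤ B) (hC : ¬ X ≤ C) :
    ∃ x ∈ X, x ∉ A ∧ x ∉ B ∧ x ∉ C := by
  classical
  obtain ⟨a, haX, ha⟩ := SetLike.not_le_iff_exists.mp hA
  obtain ⟨b, hbX, hb⟩ := SetLike.not_le_iff_exists.mp hB
  obtain ⟨y, hyX, hyA, hyB⟩ : ∃ y ∈ X, y ∉ A ∧ y ∉ B := by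
    by_cases h1 : a ∈ B
    · by_cases h2 : b ∈ A
      · refine ⟨a + b, X.add_mem haX hbX, fun h => ha ?_, fun h => hb ?_⟩
        · simpa using A.sub_mem h h2
        · simpa using B.sub_mem h h1
      · exact ⟨b, hbX, h2, hb⟩
    · exact ⟨a, haX, ha, h1⟩
  by_cases hyC : y ∈ C
  · obtain ⟨c, hcX, hc⟩ := SetLike.not_le_iff_exists.mp hC
    have key : ∀ S : Submodule F V, y ∉ S → ∀ k k' : F, c + k • y ∈ S → c + k' • y ∈ S → k = k' := by
      intro S hS k k' h h'
      by_contra hne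
      refine hS ((Submodule.smul_mem_iff S (sub_ne_zero.mpr hne)).mp ?_)
      simpa [sub_smul] using S.sub_mem h h'
    have hA1 : (Finset.univ.filter fun k : F => c + k • y ∈ A).card ≤ 1 :=
      Finset.card_le_one.mpr fun k hk k' hk' =>
        key A hyA k k' (Finset.mem_filter.mp hk).2 (Finset.mem_filter.mp hk').2
    have hB1 : (Finset.univ.filter fun k : F => c + k • y ∈ B).card ≤ 1 :=
      Finset.card_le_one.mpr fun k hk k' hk' =>
        key B hyB k k' (Finset.mem_filter.mp hk).2 (Finset.mem_filter.mp hk').2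
    obtain ⟨k, -, hk⟩ := Finset.exists_mem_notMem_of_card_lt_card
      (s := (Finset.univ.filter fun k : F => c + k • y ∈ A) ∪
        Finset.univ.filter fun k : F => c + k • y ∈ B) (t := Finset.univ) (by
        refine lt_of_le_of_lt (Finset.card_union_le _ _) ?_
        rw [Finset.card_univ]; omega)
    simp only [Finset.mem_union, Finset.mem_filter, Finset.mem_univ, true_and, not_or] at hk
    exact ⟨c + k • y, X.add_mem hcX (X.smul_mem k hyX), hk.1, hk.2,
      fun h => hc (by simpa using C.sub_mem h (C.smul_mem k hyC))⟩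
  · exact ⟨y, hyX, hyA, hyB, hyC⟩

/-- A full centre not orthogonal to a full space enlarges it. -/
theorem fullSpace_sup (hq : 3 ≤ Fintype.card F) {X : Submodule F (Fin m ⊕ Fin m → F)}
    (hX : FullSpace H X) {s : Fin m ⊕ Fin m → F} (hs : Full H s) {y₀ : Fin m ⊕ Fin m → F}
    (hy₀ : y₀ ∈ X) (hsy : ⟪y₀, s⟫ ≠ 0) : FullSpace H (X ⊔ Submodule.span F {s}) := by
  classical
  obtain ⟨hXf, w₀, hw₀⟩ := hX
  set X' := X ⊔ Submodule.span F {s} with hX'
  let R : Submodule F (Fin m ⊕ Fin m → F) := X ⊓ (sympBilin m F).orthogonal X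
  have hR : ∀ x ∈ X, x ∉ R → NonRad X x := by
    intro x hx hxR
    refine ⟨hx, ?_⟩
    by_contra hc
    push Not at hc
    exact hxR ⟨hx, fun z hz => by
      show sympBilin m F z x = 0
      rw [sympBilin_apply, fswap_zero (hc z hz)]⟩
  have hRz : ∀ x ∈ R, ∀ z ∈ X, ⟪x, z⟫ = 0 := fun x hx z hz => by
    have := hx.2 z hz
    exact fswap_zero (by simpa using this)
  have hw₀R : w₀ ∉ R := fun h => by
    obtain ⟨-, z, hz, hwz⟩ := hw₀
    exact hwz (hRz _ h z hz)
  -- generic vectors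
  have hgen : ∀ x ∈ X, x ∉ R → ⟪x, s⟫ ≠ 0 → ∀ c : F, x + c • s ≠ 0 → Full H (x + c • s) := by
    intro x hx hxR hxs c hne
    simpa using (hXf x (hR x hx hxR)).combo hs hxs (a := 1) (b := c) (by simpa using hne)
  have hsX' : s ∈ X' := Submodule.mem_sup_right (Submodule.mem_span_singleton_self s)
  refine ⟨fun v hv => ?_, w₀, Submodule.mem_sup_left hw₀.1, hw₀.2.imp fun z hz =>
    ⟨Submodule.mem_sup_left hz.1, hz.2⟩⟩
  obtain ⟨hvm, z, hz, hvz⟩ := hv
  have hv0 : v ≠ 0 := fun h => hvz (by rw [h, fzero_l])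
  obtain ⟨x, hx, s', hs', rfl⟩ := Submodule.mem_sup.mp hvm
  obtain ⟨c, rfl⟩ := Submodule.mem_span_singleton.mp hs'
  by_cases hxg : x ∉ R ∧ ⟪x, s⟫ ≠ 0
  · exact hgen x hx hxg.1 hxg.2 c hv0
  -- for `w ∈ X`, at most one multiple leaves the generic set
  have hline : ∀ w ∈ X, w ∉ R → ⟪w, s⟫ ≠ 0 → ∃ k : F, k ≠ 0 ∧ x + k • w ∉ R ∧ ⟪x + k • w, s⟫ ≠ 0 := by
    intro w hw hwR hws
    have hkey : ∀ k k' : F, k ≠ 0 → k' ≠ 0 → (x + k • w ∈ R ∨ ⟪x + k • w, s⟫ = 0) →
        (x + k' • w ∈ R ∨ ⟪x + k' • w, s⟫ = 0) → k = k' := by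
      intro k k' hk hk' h h'
      by_cases hxR : x ∈ R
      · have hbad : ∀ l : F, l ≠ 0 → x + l • w ∉ R := fun l hl h1 =>
          hwR ((Submodule.smul_mem_iff R hl).mp (by simpa using R.sub_mem h1 hxR))
        have e := h.resolve_left (hbad k hk)
        have e' := h'.resolve_left (hbad k' hk')
        rw [fadd_l, fsmul_l] at e e'
        exact mul_right_cancel₀ hws (by linear_combination e - e')
      · have hxs : ⟪x, s⟫ = 0 := by by_contra h0; exact hxg ⟨hxR, h0⟩
        have hbad : ∀ l : F, l ≠ 0 → ⟪x + l • w, s⟫ ≠ 0 := fun l hl => by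
          rw [fadd_l, fsmul_l, hxs, zero_add]; exact mul_ne_zero hl hws
        have e := h.resolve_right (hbad k hk)
        have e' := h'.resolve_right (hbad k' hk')
        by_contra hne
        refine hwR ((Submodule.smul_mem_iff R (sub_ne_zero.mpr hne)).mp ?_)
        simpa [sub_smul] using R.sub_mem e e'
    let bad : Finset F := Finset.univ.filter fun k => k ≠ 0 ∧ (x + k • w ∈ R ∨ ⟪x + k • w, s⟫ = 0)
    have hbc : bad.card ≤ 1 := Finset.card_le_one.mpr fun k hk k' hk' =>
      hkey k k' (Finset.mem_filter.mp hk).2.1 (Finset.mem_filter.mp hk').2.1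
        (Finset.mem_filter.mp hk).2.2 (Finset.mem_filter.mp hk').2.2
    obtain ⟨k, -, hk⟩ := Finset.exists_mem_notMem_of_card_lt_card
      (s := insert (0 : F) bad) (t := Finset.univ) (by
        refine lt_of_le_of_lt (Finset.card_insert_le _ _) ?_
        rw [Finset.card_univ]; omega)
    simp only [bad, Finset.mem_insert, Finset.mem_filter, Finset.mem_univ, true_and, not_or] at hk
    have := not_and.mp hk.2 hk.1
    exact ⟨k, hk.1, (not_or.mp this).1, (not_or.mp this).2⟩
  by_cases hvX : ∀ w ∈ X, ⟪x + c • s, w⟫ = 0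
  · -- `v` is orthogonal to `X`
    have hc0 : c = 0 := by
      by_contra hc
      have h1 := hvX y₀ hy₀
      rw [fadd_l, fsmul_l] at h1
      have hxy : ⟪x, y₀⟫ ≠ 0 := fun h0 => by
        rw [h0, zero_add, mul_eq_zero] at h1
        exact hsy (fswap_zero (h1.resolve_left hc))
      refine hxg ⟨fun hxR => hxy (hRz x hxR _ hy₀), fun hxs => ?_⟩
      have h2 := hvX x hx
      rw [fadd_l, fsmul_l, sympForm_self, zero_add, mul_eq_zero] at h2
      obtain ⟨t, ht, t', ht', rfl⟩ := Submodule.mem_sup.mp hz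
      obtain ⟨d, rfl⟩ := Submodule.mem_span_singleton.mp ht'
      refine hvz ?_
      rw [fadd_r, hvX t ht, fsmul_r, fadd_l, hxs, fsmul_l, sympForm_self]
      ring
    subst hc0
    simp only [zero_smul, add_zero] at hvX hvz hv0 ⊢
    have hxs : ⟪x, s⟫ ≠ 0 := by
      obtain ⟨t, ht, t', ht', rfl⟩ := Submodule.mem_sup.mp hz
      obtain ⟨d, rfl⟩ := Submodule.mem_span_singleton.mp ht'
      intro h0
      exact hvz (by rw [fadd_r, hvX t ht, fsmul_r, h0]; ring)
    obtain ⟨w, hw, hwR, hws, -⟩ := exists_avoid_three hq X R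
      (LinearMap.ker ((sympBilin m F).flip s)) R
      (fun h => hw₀R (h hw₀.1)) (fun h => hsy (by simpa using h hy₀)) (fun h => hw₀R (h hw₀.1))
    have hws' : ⟪w, s⟫ ≠ 0 := by simpa using hws
    obtain ⟨k, hk, hkR, hks⟩ := hline w hw hwR hws'
    have hv' : Full H ((x + k • w) + k • s) := hgen _ (X.add_mem hx (X.smul_mem k hw)) hkR hks k
      (fun h0 => hks (by
        have := congrArg (fun u => ⟪u, s⟫) h0
        simpa [fadd_l, fsmul_l, fzero_l, sympForm_self] using this))
    have hy : Full H (w + (1 : F) • s) := hgen w hw hwR hws' 1 (fun h0 => hws' (by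
      have := congrArg (fun u => ⟪u, s⟫) h0
      simpa [fadd_l, fsmul_l, fzero_l, sympForm_self] using this))
    have hne : ⟪(x + k • w) + k • s, w + (1 : F) • s⟫ ≠ 0 := by
      simp only [fadd_l, fadd_r, fsmul_l, fsmul_r, sympForm_self, hvX w hw,
        sympForm_swap w s]
      ring_nf
      exact hxs
    have e : (1 : F) • ((x + k • w) + k • s) + (-k) • (w + (1 : F) • s) = x := by module
    have := hv'.combo hy hne (a := 1) (b := -k) (by rw [e]; exact hv0)
    rwa [e] at this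
  · push Not at hvX
    obtain ⟨w₁, hw₁, hvw₁⟩ := hvX
    obtain ⟨w, hw, hwR, hws, hwv⟩ := exists_avoid_three hq X R
      (LinearMap.ker ((sympBilin m F).flip s)) (LinearMap.ker (sympBilin m F (x + c • s)))
      (fun h => hw₀R (h hw₀.1)) (fun h => hsy (by simpa using h hy₀))
      (fun h => hvw₁ (by simpa [fadd_l, fsmul_l] using h hw₁))
    have hws' : ⟪w, s⟫ ≠ 0 := by simpa using hws
    have hwv' : ⟪x + c • s, w⟫ ≠ 0 := by simpa [fadd_l, fsmul_l] using hwv
    obtain ⟨k, hk, hkR, hks⟩ := hline w hw hwR hws'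
    have hne : ⟪(x + k • w) + c • s, w⟫ ≠ 0 := by
      rw [fadd_l, fadd_l, fsmul_l k, sympForm_self, mul_zero, add_zero, ← fadd_l]
      exact hwv'
    have hv' : Full H ((x + k • w) + c • s) :=
      hgen _ (X.add_mem hx (X.smul_mem k hw)) hkR hks c (fun h0 => hne (by rw [h0, fzero_l]))
    have e : (1 : F) • ((x + k • w) + c • s) + (-k) • w = x + c • s := by module
    have := hv'.combo (hXf w (hR w hw hwR)) hne (a := 1) (b := -k) (by rw [e]; exact hv0)
    rwa [e] at this

/-- Either all full centres are mutually orthogonal, or there is a largest full space; the distinct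
translates of the latter are orthogonal. -/
theorem fullSpace_orth (hq : 3 ≤ Fintype.card F) {X Y : Submodule F (Fin m ⊕ Fin m → F)}
    (hX : FullSpace H X) (hY : FullSpace H Y)
    (hmax : ∀ Z, FullSpace H Z → Module.finrank F Z ≤ Module.finrank F X)
    (hdim : Module.finrank F Y = Module.finrank F X) :
    Y = X ∨ ∀ y ∈ Y, ∀ x ∈ X, ⟪x, y⟫ = 0 := by
  classical
  obtain ⟨hYf, w, hw⟩ := hY
  let O := (sympBilin m F).orthogonal X
  have hmemO : ∀ y, y ∈ O ↔ ∀ x ∈ X, ⟪x, y⟫ = 0 := fun y =>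
    ⟨fun h x hx => by simpa using h x hx, fun h x hx => by
      show sympBilin m F x y = 0
      rw [sympBilin_apply]; exact h x hx⟩
  have hcases : ∀ y, NonRad Y y → y ∈ X ∨ y ∈ O := by
    intro y hy
    by_contra h
    push Not at h
    obtain ⟨h1, h2⟩ := h
    rw [hmemO] at h2
    push Not at h2
    obtain ⟨x, hx, hxy⟩ := h2
    have hbig := hmax _ (fullSpace_sup hq hX (hYf y hy) hx hxy)
    have hlt : X < X ⊔ Submodule.span F {y} :=
      lt_of_le_of_ne le_sup_left fun e => h1 (e ▸ Submodule.mem_sup_right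
        (Submodule.mem_span_singleton_self y))
    exact absurd (Submodule.finrank_lt_finrank_of_lt hlt) (not_lt.mpr hbig)
  -- all non-radical vectors are in one of the two
  have hone : (∀ y, NonRad Y y → y ∈ X) ∨ ∀ y, NonRad Y y → y ∈ O := by
    by_contra h
    push Not at h
    obtain ⟨⟨a, ha, haX⟩, b, hb, hbO⟩ := h
    have haO := (hcases a ha).resolve_left haX
    have hbX := (hcases b hb).resolve_right hbO
    have hrad : ∀ k : F, k ≠ 0 → ∀ z ∈ Y, ⟪a + k • b, z⟫ = 0 := by
      intro k hk z hz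
      by_contra hne
      rcases hcases _ ⟨Y.add_mem ha.1 (Y.smul_mem k hb.1), z, hz, hne⟩ with h' | h'
      · exact haX (by simpa using X.sub_mem h' (X.smul_mem k hbX))
      · exact hbO ((Submodule.smul_mem_iff O hk).mp (by simpa using O.sub_mem h' haO))
    obtain ⟨k, -, hk⟩ := Finset.exists_mem_notMem_of_card_lt_card
      (s := ({0, 1} : Finset F)) (t := Finset.univ) (by
        have := Finset.card_le_two (a := (0 : F)) (b := 1)
        rw [Finset.card_univ]; omega)
    simp only [Finset.mem_insert, Finset.mem_singleton, not_or] at hk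
    obtain ⟨z, hz, hbz⟩ := hb.2
    have h1 := hrad 1 one_ne_zero z hz
    have h2 := hrad k hk.1 z hz
    rw [fadd_l, fsmul_l] at h1 h2
    exact hk.2 (mul_right_cancel₀ hbz (by linear_combination h2 - h1))
  have hspan : ∀ O' : Submodule F (Fin m ⊕ Fin m → F), (∀ y, NonRad Y y → y ∈ O') → Y ≤ O' := by
    intro O' h y hy
    by_cases hyn : NonRad Y y
    · exact h y hyn
    · obtain ⟨hwY, z, hz, hwz⟩ := hw
      have h0 : ⟪y, z⟫ = 0 := by
        by_contra h0; exact hyn ⟨hy, z, hz, h0⟩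
      have := h (y + w) ⟨Y.add_mem hy hwY, z, hz, by rwa [fadd_l, h0, zero_add]⟩
      simpa using O'.sub_mem this (h w ⟨hwY, z, hz, hwz⟩)
  rcases hone with h | h
  · exact Or.inl (Submodule.eq_of_le_of_finrank_eq (hspan X h) hdim)
  · exact Or.inr fun y hy => (hmemO y).mp (hspan O h hy)

end Cfsg.Agent.H2.MinIdx
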