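import Cfsg.Agent.H2.MinIdx.Scale

/-!
Actions of `Sp_{2n+2}(q)`, `q` odd, without fixed transvection groups have large degree.
-/

set_option autoImplicit false

namespace Cfsg.Agent.H2.MinIdx

open Matrix MulAction

variable {n : ℕ} {F : Type*} [Field F] [Fintype F]
variable {Ω : Type*} [MulAction (Matrix.symplecticGroup (Fin (n + 1)) F) Ω]

local notation "⟪" u ", " v "⟫" => Cfsg.sympForm _ F u v

omit [Fintype F] in
/-- Central factors drop out of commutators. -/
lemma commutator_central {G : Type*} [Group G] {z w a b : G} (hza : z * a = a * z) (hzb : z * b = b * z)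
    (hwa : w * a = a * w) (hwb : w * b = b * w) (hzw : z * w = w * z) :
    z * a * (w * b) * (z * a)⁻¹ * (w * b)⁻¹ = a * b * a⁻¹ * b⁻¹ := by
  have hza' : Commute z a := hza
  have hzb' : Commute z b := hzb
  have hzw' : Commute z w := hzw
  have hwa' : Commute w a := hwa
  have hwb' : Commute w b := hwb
  have h1 : Commute z (a * (w * b) * a⁻¹) :=
    (hza'.mul_right (hzw'.mul_right hzb')).mul_right hza'.inv_right
  have h2 : Commute w (a * b * a⁻¹ * b⁻¹) :=
    ((hwa'.mul_right hwb').mul_right hwa'.inv_right).mul_right hwb'.inv_right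
  calc z * a * (w * b) * (z * a)⁻¹ * (w * b)⁻¹
      = z * (a * (w * b) * a⁻¹) * z⁻¹ * (w * b)⁻¹ := by group
    _ = a * w * b * a⁻¹ * b⁻¹ * w⁻¹ := by rw [h1.eq]; group
    _ = w * (a * b * a⁻¹ * b⁻¹) * w⁻¹ := by rw [← hwa]; group
    _ = _ := by rw [h2.eq, mul_inv_cancel_right]

/-- Halving in an additive subgroup. -/
lemma mem_of_two_smul_mem {V : Type*} [AddCommGroup V] [Module F V] (h2 : (2 : F) ≠ 0)
    (A : AddSubgroup V) {a : V} (h : (2 : F) • a ∈ A) : a ∈ A := by
  obtain ⟨p, hp⟩ := CharP.exists F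
  have hpp : p.Prime := CharP.char_is_prime F p
  have hp2 : p ≠ 2 := by rintro rfl; exact h2 (CharP.cast_eq_zero F 2)
  obtain ⟨r, hr⟩ := hpp.odd_of_ne_two hp2
  have e : (r + 1) • ((2 : F) • a) = a := by
    rw [← Nat.cast_smul_eq_nsmul F, smul_smul]
    have h1 : (((r + 1 : ℕ) : F) * 2) = 1 := by
      have h0 : ((p : ℕ) : F) = 0 := CharP.cast_eq_zero F p
      rw [hr] at h0
      push_cast at h0 ⊢
      linear_combination h0
    rw [h1, one_smul]
  rw [← e]
  exact A.nsmul_mem h _

/-- The negative identity. -/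
def negOne (n : ℕ) (F : Type*) [Field F] : Matrix.symplecticGroup (Fin n) F :=
  ⟨-1, SymplecticGroup.neg_mem (Submonoid.one_mem _)⟩

omit [Fintype F] in
lemma act_negOne (a : Fin n ⊕ Fin n → F) : act (negOne n F) a = -a := by
  simp [act, negOne, Matrix.neg_mulVec]

omit [Fintype F] in
lemma negOne_comm (l : Matrix.symplecticGroup (Fin n) F) : negOne n F * l = l * negOne n F :=
  Subtype.ext (by simp [negOne])

lemma keep_aImg {ω : Ω} {l : Matrix.symplecticGroup (Fin n) F} (hl : l ∈ keep (n := n) (F := F) ω)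
    {a : Fin n ⊕ Fin n → F} (ha : a ∈ aImg (n := n) (F := F) ω) :
    act l a ∈ aImg (n := n) (F := F) ω := by
  obtain ⟨g, hg, hgl⟩ := mem_keep.mp hl
  have h := (mem_aImg_incl ω l a).mpr ha
  have h2 := aImg_smul_Q (incl l • ω) hg
  rw [hgl] at h2
  rwa [h2]

/-- Transvection centres of the commutators in the stabiliser of an orbit containing `-1`. -/
theorem exists_lift (h2 : (2 : F) ≠ 0) (ω : Ω) (hs : negOne n F ∈ keep (n := n) (F := F) ω) :
    ∃ ω' : Ω, ∀ l ∈ keep (n := n) (F := F) ω, ∀ l' ∈ keep (n := n) (F := F) ω,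
      incl (l * l' * l⁻¹ * l'⁻¹) • ω' = ω' := by
  obtain ⟨g, hg, hgs⟩ := mem_keep.mp hs
  obtain ⟨⟨a, t⟩, rfl⟩ := hg
  simp only at hgs
  set b : Fin n ⊕ Fin n → F := (-(2 : F)⁻¹) • a
  set β := qel (e0 : Fin (n + 1) ⊕ Fin (n + 1) → F) (up b) 0
  set ω' := β • ω with hω'
  set s := incl (negOne n F)
  have hb2 : b + b = -a := by
    rw [← two_smul F b, smul_smul, mul_neg, mul_inv_cancel₀ h2, neg_one_smul]
  -- a central lift of `-1`
  obtain ⟨z₀, hz₀⟩ : ∃ z, transv (e0 : Fin (n + 1) ⊕ Fin (n + 1) → F) z • s • ω' = ω' := by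
    have e1 : s * β = qel e0 (up (-b)) 0 * s := by
      have h := incl_qel (negOne n F) b 0
      rw [act_negOne, mul_inv_eq_iff_eq_mul] at h
      exact h
    have e2 : qel e0 (up a) t * s * β⁻¹ =
        qel e0 (up a) t * qel e0 (up b) 0 * s := by
      have h := incl_qel (negOne n F) (-b) 0
      rw [act_negOne, neg_neg, mul_inv_eq_iff_eq_mul] at h
      rw [show β⁻¹ = qel e0 (up (-b)) (-0) from qel_up_inv b 0, neg_zero, mul_assoc, h, ← mul_assoc]
    have e3 : β * (qel e0 (up a) t * s * β⁻¹) =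
        transv e0 (0 + (t + 0 + ⟪b, a⟫) + ⟪a + b, b⟫) * s := by
      rw [e2, ← mul_assoc, ← mul_assoc, mul_assoc β, qel_up_mul, qel_up_mul,
        show b + (a + b) = 0 by rw [add_left_comm, hb2, add_neg_cancel], map_zero, qel_zero_vec]
    refine ⟨0 + (t + 0 + ⟪b, a⟫) + ⟪a + b, b⟫, ?_⟩
    rw [smul_smul, ← e3, hω', mul_smul, mul_smul, mul_smul, inv_smul_smul, hgs]
  have hk : ∀ l ∈ keep (n := n) (F := F) ω,
      ∃ z, transv (e0 : Fin (n + 1) ⊕ Fin (n + 1) → F) z • incl l • ω' = ω' := by
    intro l hl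
    obtain ⟨g, hg, hgl⟩ := mem_keep.mp hl
    have h1 : (β * g * incl l * β⁻¹) • ω' = ω' := by
      rw [hω', mul_smul, mul_smul, mul_smul, inv_smul_smul, hgl]
    obtain ⟨⟨c, u⟩, hcu⟩ : β * g * (incl l * β⁻¹ * (incl l)⁻¹) ∈ Qgrp n F :=
      (Qgrp n F).mul_mem ((Qgrp n F).mul_mem (qel_mem _ _) hg)
        (incl_normalises l ((Qgrp n F).inv_mem (qel_mem _ _)))
    simp only at hcu
    have h2' : (qel e0 (up c) u * incl l) • ω' = ω' := by
      rw [hcu, show β * g * (incl l * β⁻¹ * (incl l)⁻¹) * incl l = β * g * incl l * β⁻¹ by group]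
      exact h1
    have hz : (transv e0 z₀ * s) • ω' = ω' := by rw [mul_smul]; exact hz₀
    -- conjugation by the lift of `-1`
    have h3 : (qel e0 (up (-c)) u * incl l) • ω' = ω' := by
      have hc : transv e0 z₀ * s * (qel e0 (up c) u * incl l) =
          qel e0 (up (-c)) u * incl l * (transv e0 z₀ * s) := by
        have h := incl_qel (negOne n F) c u
        rw [act_negOne, mul_inv_eq_iff_eq_mul] at h
        have hcomm : s * incl l = incl l * s := by rw [← map_mul, ← map_mul, negOne_comm]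
        calc transv e0 z₀ * s * (qel e0 (up c) u * incl l)
            = transv e0 z₀ * (s * qel e0 (up c) u) * incl l := by group
          _ = transv e0 z₀ * qel e0 (up (-c)) u * (s * incl l) := by rw [h]; simp only [s, mul_assoc]
          _ = qel e0 (up (-c)) u * (transv e0 z₀ * incl l) * s := by
              rw [transv_qel_comm, hcomm]; group
          _ = _ := by rw [transv_incl_comm]; group
      have := congrArg (fun x => x • ω') hc
      rw [mul_smul, h2', hz, mul_smul (qel e0 (up (-c)) u * incl l), hz] at this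
      exact this.symm
    have h4 : c ∈ aImg (n := n) (F := F) ω' := by
      have h5 : (qel e0 (up c) u * (qel e0 (up (-c)) u)⁻¹) • ω' = ω' := by
        have h6 : qel e0 (up c) u * (qel e0 (up (-c)) u)⁻¹ =
            qel e0 (up c) u * incl l * (qel e0 (up (-c)) u * incl l)⁻¹ := by group
        have h7 : (qel e0 (up (-c)) u * incl l)⁻¹ • ω' = ω' := by rw [inv_smul_eq_iff, h3]
        rw [h6, mul_smul, h7, h2']
      rw [qel_up_inv, qel_up_mul, neg_neg] at h5
      refine mem_of_two_smul_mem h2 _ ?_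
      rw [two_smul]
      exact ⟨_, h5⟩
    obtain ⟨u', hu'⟩ := h4
    refine ⟨-u' + u + ⟪c, -c⟫, ?_⟩
    have e : (qel e0 (up c) u')⁻¹ * qel e0 (up c) u = transv e0 (-u' + u + ⟪c, -c⟫) := by
      rw [qel_up_inv, qel_up_mul, neg_add_cancel, map_zero, qel_zero_vec]
    rw [← e, smul_smul, mul_assoc, mul_smul, h2', inv_smul_eq_iff, hu']
  refine ⟨ω', fun l hl l' hl' => ?_⟩
  obtain ⟨z, hz⟩ := hk l hl
  obtain ⟨z', hz'⟩ := hk l' hl'
  set x := transv e0 z * incl l
  set y := transv e0 z' * incl l'
  have hx : x • ω' = ω' := by rw [mul_smul]; exact hz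
  have hy : y • ω' = ω' := by rw [mul_smul]; exact hz'
  have key : incl (l * l' * l⁻¹ * l'⁻¹) = x * y * x⁻¹ * y⁻¹ := by
    rw [map_mul, map_mul, map_mul, map_inv, map_inv]
    exact (commutator_central (transv_incl_comm l z) (transv_incl_comm l' z) (transv_incl_comm l z')
      (transv_incl_comm l' z') (by rw [transv_mul, transv_mul, add_comm z z'])).symm
  rw [key, mul_smul, mul_smul, mul_smul, inv_smul_eq_iff.mpr hy.symm, inv_smul_eq_iff.mpr hx.symm,
    hy, hx]

omit [Fintype F] in
/-- The subgroup of elements of `Sp_{2n}` fixing a point. -/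
lemma transv_fix_false (hmove : ∀ (ω : Ω) (p : Fin (n + 1) ⊕ Fin (n + 1) → F), p ≠ 0 →
      ∃ t, transv p t • ω ≠ ω) (ω : Ω) {a : Fin n ⊕ Fin n → F} (ha : a ≠ 0)
    (h : ∀ t, incl (transv a t) • ω = ω) : False := by
  obtain ⟨t, ht⟩ := hmove ω (up a) fun h0 => ha (up_injective (h0.trans (map_zero up).symm))
  exact ht (by rw [← incl_transv]; exact h t)

private lemma pts_le_line {q : ℕ} (hq : 3 ≤ q) : pts 2 q ≤ q * (q + 1) * (q + 1) := by
  simp [pts, Finset.sum_range_succ]
  nlinarith

private lemma two_pts_le {q : ℕ} (hq : 3 ≤ q) (n : ℕ) :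
    2 * pts (n + 1) q ≤ 3 * (q + 1) * q ^ (2 * n) ∧ 2 * pts (n + 1) q ≤ 3 * q ^ (2 * n + 1) := by
  have h := pts_mul (n + 1) (q := q) (by omega)
  obtain ⟨r, rfl⟩ := Nat.exists_eq_add_of_le (show 1 ≤ q by omega)
  rw [show 1 + r - 1 = r by omega] at h
  have e : (1 + r) ^ (2 * (n + 1)) = (1 + r) * (1 + r) * (1 + r) ^ (2 * n) := by ring
  have hr : 2 ≤ r := by omega
  refine ⟨?_, ?_⟩
  · refine Nat.le_of_mul_le_mul_right ?_ (show 0 < r by omega)
    have h2 : 2 * ((1 + r) * (1 + r)) ≤ 3 * (1 + r + 1) * r := by nlinarith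
    calc 2 * pts (n + 1) (1 + r) * r ≤ 2 * ((1 + r) * (1 + r)) * (1 + r) ^ (2 * n) := by
          nlinarith [h, e]
      _ ≤ 3 * (1 + r + 1) * r * (1 + r) ^ (2 * n) := Nat.mul_le_mul_right _ h2
      _ = _ := by ring
  · refine Nat.le_of_mul_le_mul_right ?_ (show 0 < r by omega)
    have h2 : 2 * ((1 + r) * (1 + r)) ≤ 3 * (1 + r) * r := by nlinarith
    calc 2 * pts (n + 1) (1 + r) * r ≤ 2 * ((1 + r) * (1 + r)) * (1 + r) ^ (2 * n) := by
          nlinarith [h, e]
      _ ≤ 3 * (1 + r) * r * (1 + r) ^ (2 * n) := Nat.mul_le_mul_right _ h2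
      _ = _ := by rw [pow_succ]; ring

/-- Odd characteristic: without fixed transvection groups the degree is at least the number of points. -/
theorem odd_bound [Finite Ω] [Nonempty Ω] (h2 : (2 : F) ≠ 0) (hn : 1 ≤ n)
    (hexc : n = 1 → 5 ≤ Fintype.card F)
    (hmove : ∀ (ω : Ω) (p : Fin (n + 1) ⊕ Fin (n + 1) → F), p ≠ 0 → ∃ t, transv p t • ω ≠ ω) :
    pts (n + 1) (Fintype.card F) ≤ Nat.card Ω := by
  classical
  obtain ⟨ω⟩ : Nonempty Ω := inferInstance
  by_contra! hsmall
  obtain ⟨p, hp⟩ := CharP.exists F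
  have hpp : p.Prime := CharP.char_is_prime F p
  have := Fact.mk hpp
  have hp3 : 3 ≤ p := by
    have : p ≠ 2 := by rintro rfl; exact h2 (CharP.cast_eq_zero F 2)
    have := hpp.two_le; omega
  obtain ⟨e, -, hqe⟩ := FiniteField.card F p
  have hqp : p ≤ Fintype.card F := by rw [hqe]; exact Nat.le_self_pow e.pos.ne' p
  set q := Fintype.card F with hq
  have hq3 : 3 ≤ q := hp3.trans hqp
  set Z := zSub (n := n) (F := F) ω
  set A := aImg (n := n) (F := F) ω
  set M := keep (n := n) (F := F) ω
  set k := M.index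
  set N := Nat.card Ω
  have hZtop : Z ≠ ⊤ := by
    intro h
    obtain ⟨t, ht⟩ := hmove ω e0 e0_ne_zero
    exact ht (mem_zSub.mp (by show t ∈ Z; rw [h]; trivial))
  have hAS : ∀ l ∈ M, ∀ a ∈ A, act l a ∈ A := fun l hl a ha => keep_aImg hl ha
  -- the basic inequality
  have key : (q + 1) * k * q ^ (2 * n) ≤ 2 * N * Nat.card A := by
    have h1 := invariants_bound (n := n) (F := F) ω
    have h3 := scales_bound Z hZtop
    have hZpos : 0 < Nat.card Z := Nat.card_pos
    refine Nat.le_of_mul_le_mul_right ?_ (Nat.mul_pos hZpos (show 0 < q by omega))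
    calc (q + 1) * k * q ^ (2 * n) * (Nat.card Z * q)
        = ((q + 1) * Nat.card Z) * (k * q ^ (2 * n + 1)) := by rw [pow_succ]; ring
      _ ≤ (2 * Nat.card (scales Z) * q) * (k * q ^ (2 * n + 1)) := Nat.mul_le_mul_right _ h3
      _ = 2 * q * (Nat.card (scales Z) * k * q ^ (2 * n + 1)) := by ring
      _ ≤ 2 * q * (N * (Nat.card Z * Nat.card A)) := Nat.mul_le_mul_left _ h1
      _ = _ := by ring
  -- perfectness of the Levi factor
  have hperf : commutator (Matrix.symplecticGroup (Fin n) F) = ⊤ := by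
    refine commutator_sp_eq_top ?_
    rcases Nat.lt_or_ge n 3 with h | h
    · rcases Nat.lt_or_ge n 2 with h' | h'
      · exact Or.inr (Or.inr (by have := hexc (by omega); omega))
      · exact Or.inr (Or.inl ⟨by omega, hq3⟩)
    · exact Or.inl h
  have hsingle : (Pi.single (Sum.inl ⟨0, hn⟩) 1 : Fin n ⊕ Fin n → F) ≠ 0 := by simp
  -- `M` is proper
  have hMtop : M ≠ ⊤ := by
    intro h
    obtain ⟨ω', hω'⟩ := exists_lift h2 ω (by show negOne n F ∈ M; rw [h]; trivial)
    have hall : commutator (Matrix.symplecticGroup (Fin n) F) ≤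
        (stabilizer (Matrix.symplecticGroup (Fin (n + 1)) F) ω').comap incl := by
      rw [commutator_def, Subgroup.commutator_le]
      intro l _ l' _
      exact hω' l (by show l ∈ M; rw [h]; trivial) l' (by show l' ∈ M; rw [h]; trivial)
    rw [hperf] at hall
    exact transv_fix_false hmove ω' hsingle fun t => hall (Subgroup.mem_top _)
  have hk3 : 3 ≤ k := by
    have h0 : k ≠ 0 := Subgroup.index_ne_zero_of_finite
    have h1 : k ≠ 1 := fun h => hMtop (Subgroup.index_eq_one.mp h)
    have h2' : k ≠ 2 := fun h => by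
      have hnor : M.Normal := Subgroup.normal_of_index_eq_two h
      refine hMtop (eq_top_iff.mpr ?_)
      rw [← hperf, commutator_def, Subgroup.commutator_le]
      intro x _ y _
      rw [commutatorElement_def]
      have hx := Subgroup.mul_mem_iff_of_index_two h (a := x) (b := y)
      have hyx := Subgroup.mul_mem_iff_of_index_two h (a := y) (b := x)
      have hinv := Subgroup.mul_mem_iff_of_index_two h (a := x * y) (b := x⁻¹ * y⁻¹)
      have hinv' := Subgroup.mul_mem_iff_of_index_two h (a := x⁻¹) (b := y⁻¹)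
      rw [show x * y * x⁻¹ * y⁻¹ = (x * y) * (x⁻¹ * y⁻¹) by group, hinv, hx, hinv', inv_mem_iff,
        inv_mem_iff]
    omega
  have hApos : 0 < Nat.card A := Nat.card_pos
  have hq2n : 1 ≤ q ^ (2 * n) := Nat.one_le_pow _ _ (by omega)
  -- `A` is non-trivial
  by_cases hA0 : A = ⊥
  · rw [hA0, AddSubgroup.card_bot, mul_one] at key
    have := (two_pts_le hq3 n).1
    have h3 : (q + 1) * 3 * q ^ (2 * n) ≤ (q + 1) * k * q ^ (2 * n) :=
      Nat.mul_le_mul_right _ (Nat.mul_le_mul_left _ hk3)
    nlinarith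
  -- isotropy
  have hAsq : Nat.card A * Nat.card A ≤ q ^ (2 * n) := by
    obtain ⟨φ, hφ, hφZ⟩ := exists_functional (p := p) Z hZtop
    rw [← card_annih φ hφ A]
    refine Nat.mul_le_mul_right _ (AddSubgroup.card_le_of_le ?_)
    intro c hc a ha
    obtain ⟨t, ht⟩ := hc
    obtain ⟨s, hs⟩ := ha
    refine hφZ _ (mem_of_two_smul_mem h2 Z ?_)
    rw [mem_zSub]
    have e1 : (qel e0 (up c) t * qel e0 (up a) s) • ω = ω := by rw [mul_smul, hs, ht]
    have e2 : (qel e0 (up a) s * qel e0 (up c) t) • ω = ω := by rw [mul_smul, ht, hs]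
    have e3 : transv e0 ((2 : F) • ⟪c, a⟫) * (qel e0 (up c) t * qel e0 (up a) s) =
        qel e0 (up a) s * qel e0 (up c) t := by
      rw [show transv e0 ((2 : F) • ⟪c, a⟫) = qel e0 (up (0 : Fin n ⊕ Fin n → F)) ((2 : F) • ⟪c, a⟫)
        by rw [map_zero, qel_zero_vec], qel_up_mul, qel_up_mul, qel_up_mul, zero_add, fzero_r,
        add_comm c a, sympForm_swap c a, smul_eq_mul]
      congr 1
      ring
    have h4 := congrArg (fun x => x • ω) e3
    rwa [mul_smul, e1, e2] at h4
  -- covering of the non-zero vectors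
  have hU : Nat.card {x : Fin n ⊕ Fin n → F // x ≠ 0} = q ^ (2 * n) - 1 := by
    rw [Nat.card_eq_fintype_card, Fintype.card_subtype_compl, Fintype.card_subtype_eq,
      Fintype.card_fun, Fintype.card_sum, Fintype.card_fin, two_mul]
  let X1 := {x : Fin n ⊕ Fin n → F // x ≠ 0}
  let _ : MulAction (Matrix.symplecticGroup (Fin n) F) X1 :=
    { smul := fun g x => ⟨act g x.1, act_ne_zero g x.2⟩
      one_smul := fun x => Subtype.ext (act_one x.1)
      mul_smul := fun g h x => Subtype.ext (act_mul g h x.1) }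
  have : IsPretransitive (Matrix.symplecticGroup (Fin n) F) X1 := ⟨fun x y => by
    obtain ⟨g, hg⟩ := exists_map_vec x.2 y.2
    exact ⟨g, Subtype.ext hg⟩⟩
  have hcover : q ^ (2 * n) - 1 ≤ k * (Nat.card A - 1) := by
    rw [← hU]
    obtain ⟨a, ha, ha0⟩ : ∃ a ∈ A, a ≠ 0 := by
      by_contra h; push Not at h
      exact hA0 (eq_bot_iff.mpr fun x hx => AddSubgroup.mem_bot.mpr (h x hx))
    have hle := card_le_index_mul (G := Matrix.symplecticGroup (Fin n) F) M
      ({x | x.1 ∈ A} : Set X1) ⟨⟨a, ha0⟩, ha⟩ fun l hl x hx => hAS l hl x.1 hx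
    refine hle.trans (Nat.mul_le_mul_left _ (le_of_eq ?_))
    have h5 : Nat.card ({x | x.1 ∈ A} : Set X1) = Nat.card {x : A // x ≠ 0} :=
      Nat.card_congr
        { toFun := fun x => ⟨⟨x.1.1, x.2⟩, fun h => x.1.2 (congrArg Subtype.val h)⟩
          invFun := fun x => ⟨⟨x.1.1, fun h => x.2 (Subtype.ext h)⟩, x.1.2⟩
          left_inv := fun _ => rfl
          right_inv := fun _ => rfl }
    rw [h5, Nat.card_eq_fintype_card, Fintype.card_subtype_compl, Fintype.card_subtype_eq,
      Nat.card_eq_fintype_card]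
  have hqn : q ^ n * q ^ n = q ^ (2 * n) := by rw [← pow_add, two_mul]
  have hA2 : q ^ (2 * n) ≤ k * Nat.card A := by
    have h1 : k * (Nat.card A - 1) + k ≤ k * Nat.card A := by
      rw [Nat.mul_sub, mul_one]
      have := Nat.le_mul_of_pos_right k hApos
      omega
    omega
  have hAle : Nat.card A ≤ q ^ n := by
    rw [← hqn] at hAsq
    exact Nat.mul_self_le_mul_self_iff.mp hAsq
  -- small `A`
  by_cases hsm : 3 * Nat.card A ≤ q ^ n
  · have h9 : 9 * (Nat.card A * Nat.card A) ≤ q ^ (2 * n) := by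
      have := Nat.mul_le_mul hsm hsm; nlinarith
    have h2P := (two_pts_le hq3 n).1
    refine absurd ?_ (not_le.mpr hsmall)
    refine Nat.le_of_mul_le_mul_right ?_ (show 0 < 2 * q ^ (2 * n) by omega)
    calc pts (n + 1) q * (2 * q ^ (2 * n)) = 2 * pts (n + 1) q * q ^ (2 * n) := by ring
      _ ≤ 3 * (q + 1) * q ^ (2 * n) * q ^ (2 * n) := Nat.mul_le_mul_right _ h2P
      _ ≤ 9 * ((q + 1) * q ^ (2 * n) * (k * Nat.card A)) := by
          have h3 := Nat.mul_le_mul_left ((q + 1) * q ^ (2 * n)) hA2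
          nlinarith
      _ = 9 * ((q + 1) * k * q ^ (2 * n) * Nat.card A) := by ring
      _ ≤ 9 * (2 * N * Nat.card A * Nat.card A) :=
          Nat.mul_le_mul_left _ (Nat.mul_le_mul_right _ key)
      _ = 2 * N * (9 * (Nat.card A * Nat.card A)) := by ring
      _ ≤ 2 * N * q ^ (2 * n) := Nat.mul_le_mul_left _ h9
      _ = _ := by ring
  have hAeq : Nat.card A = q ^ n := by
    let _ : Algebra (ZMod p) F := ZMod.algebra F p
    have hA : Nat.card A = p ^ Module.finrank (ZMod p) (AddSubgroup.toZModSubmodule p A) := by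
      have h := Module.natCard_eq_pow_finrank (K := ZMod p) (V := AddSubgroup.toZModSubmodule p A)
      rw [Nat.card_zmod] at h
      exact h
    rw [hA, hqe, ← pow_mul] at hsm hAle ⊢
    refine le_antisymm hAle ?_
    by_contra hlt
    rw [not_le, Nat.pow_lt_pow_iff_right (by omega)] at hlt
    refine hsm (le_trans ?_ (Nat.pow_le_pow_right (by omega) hlt))
    rw [pow_succ']
    exact Nat.mul_le_mul_right _ hp3
  rw [hAeq] at key
  have key2 : (q + 1) * k * q ^ n ≤ 2 * N := by
    refine Nat.le_of_mul_le_mul_right ?_ (show 0 < q ^ n from pow_pos (by omega) n)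
    calc (q + 1) * k * q ^ n * q ^ n = (q + 1) * k * q ^ (2 * n) := by rw [mul_assoc, hqn]
      _ ≤ _ := key
  obtain ⟨a0, ha0, ha00⟩ : ∃ a ∈ A, a ≠ 0 := by
    by_contra h; push Not at h
    exact hA0 (eq_bot_iff.mpr fun x hx => AddSubgroup.mem_bot.mpr (h x hx))
  by_cases hline : ∀ b ∈ A, ∃ c : F, c • a0 = b
  · -- a line
    have hle : q ^ n ≤ q := by
      rw [← hAeq, show q = Nat.card F from (Nat.card_eq_fintype_card).symm]
      refine Nat.card_le_card_of_injective (fun b : A => (hline b.1 b.2).choose) fun b b' h => ?_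
      apply Subtype.ext
      rw [← (hline b.1 b.2).choose_spec, ← (hline b'.1 b'.2).choose_spec]
      exact congrArg (· • a0) h
    have hn1 : n = 1 := by
      by_contra h
      have : q ^ 2 ≤ q ^ n := Nat.pow_le_pow_right (by omega) (by omega)
      nlinarith
    subst hn1
    have hq5 : 5 ≤ q := hexc rfl
    have hAline : ∀ b, b ∈ A ↔ ∃ c : F, c • a0 = b := by
      intro b
      refine ⟨hline b, ?_⟩
      rintro ⟨c, rfl⟩
      have hinj : Function.Injective fun b : A => (hline b.1 b.2).choose := fun b b' h => by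
        apply Subtype.ext
        rw [← (hline b.1 b.2).choose_spec, ← (hline b'.1 b'.2).choose_spec]
        exact congrArg (· • a0) h
      obtain ⟨b, hb⟩ := ((Nat.bijective_iff_injective_and_card _).mpr ⟨hinj, by
        rw [hAeq, pow_one, Nat.card_eq_fintype_card]⟩).2 c
      have := (hline b.1 b.2).choose_spec
      simp only at hb
      rw [hb] at this
      exact this ▸ b.2
    let St : Subgroup (Matrix.symplecticGroup (Fin 1) F) :=
      { carrier := {l | ∀ b, act l b ∈ A ↔ b ∈ A}
        one_mem' := fun b => by rw [act_one]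
        mul_mem' := fun {x y} hx hy b => by rw [act_mul]; exact (hx _).trans (hy _)
        inv_mem' := fun {x} hx b => by rw [← hx, act_act_inv] }
    have hMSt : M ≤ St := fun l hl b =>
      ⟨fun h => by have h2 := hAS l⁻¹ (M.inv_mem hl) _ h; rwa [act_inv_act] at h2, hAS l hl b⟩
    have hSt : q + 1 ≤ St.index := by
      have hc := card_le_index_mul (G := Matrix.symplecticGroup (Fin 1) F) St
        ({x | x.1 ∈ A} : Set X1) ⟨⟨a0, ha00⟩, ha0⟩ fun l hl x hx => (hl x.1).mpr hx
      rw [show Nat.card X1 = q ^ (2 * 1) - 1 from hU] at hc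
      have h5 : Nat.card ({x | x.1 ∈ A} : Set X1) ≤ q - 1 := by
        have : Nat.card ({x | x.1 ∈ A} : Set X1) ≤ Nat.card {x : A // x ≠ 0} :=
          Nat.card_le_card_of_injective (fun x => ⟨⟨x.1.1, x.2⟩, fun h => x.1.2 (congrArg Subtype.val h)⟩)
            fun x y h => Subtype.ext (Subtype.ext (congrArg (fun z => z.1.1) h))
        refine this.trans (le_of_eq ?_)
        rw [Nat.card_eq_fintype_card, Fintype.card_subtype_compl, Fintype.card_subtype_eq,
          ← Nat.card_eq_fintype_card, hAeq, pow_one]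
      have h6 := hc.trans (Nat.mul_le_mul_left _ h5)
      refine Nat.le_of_mul_le_mul_right ?_ (show 0 < q - 1 by omega)
      have : (q + 1) * (q - 1) = q ^ (2 * 1) - 1 := by
        rw [← Nat.sq_sub_sq]
      omega
    have hlt : k < 2 * (q + 1) := by
      by_contra h
      push Not at h
      have h3 := pts_le_line hq3
      have h4 : (q + 1) * (2 * (q + 1)) * q ≤ (q + 1) * k * q :=
        Nat.mul_le_mul_right _ (Nat.mul_le_mul_left _ h)
      rw [pow_one] at key2
      nlinarith
    have hMeq : M = St := by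
      refine le_antisymm hMSt ?_
      rw [← Subgroup.relIndex_eq_one]
      have h1 := Subgroup.relIndex_mul_index hMSt
      rw [show M.index = k from rfl] at h1
      have h0 : M.relIndex St ≠ 0 := (Subgroup.index_ne_zero_of_finite : (M.subgroupOf St).index ≠ 0)
      by_contra h
      have : 2 * St.index ≤ M.relIndex St * St.index := Nat.mul_le_mul_right _ (by omega)
      omega
    obtain ⟨c, -, hc⟩ := Finset.exists_mem_notMem_of_card_lt_card
      (s := ({0, 1, -1} : Finset F)) (t := Finset.univ) (by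
        have := Finset.card_le_three (a := (0 : F)) (b := 1) (c := -1)
        rw [Finset.card_univ]; omega)
    simp only [Finset.mem_insert, Finset.mem_singleton, not_or] at hc
    obtain ⟨h, hh⟩ := exists_map_vec ha00 (smul_ne_zero hc.1 ha00)
    have hmemSt : ∀ l, (∃ d : F, d ≠ 0 ∧ act l a0 = d • a0) → l ∈ M := by
      rintro l ⟨d, hd, hl⟩
      rw [hMeq]
      intro b
      rw [hAline, hAline]
      constructor
      · rintro ⟨e, he⟩
        refine ⟨e / d, act_injective l ?_⟩
        rw [act_smul, hl, smul_smul, div_mul_cancel₀ _ hd, he]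
      · rintro ⟨e, rfl⟩
        exact ⟨e * d, by rw [act_smul, hl, smul_smul]⟩
    obtain ⟨ω', hω'⟩ := exists_lift h2 ω (hmemSt _ ⟨-1, by simp, by rw [act_negOne, neg_one_smul]⟩)
    refine transv_fix_false hmove ω' ha00 fun t => ?_
    have hcc : c * c - 1 ≠ 0 := fun h0 => by
      rcases mul_self_eq_one_iff.mp (sub_eq_zero.mp h0) with h | h
      · exact hc.2.1 h
      · exact hc.2.2 h
    have hmem := hω' h (hmemSt h ⟨c, hc.1, hh⟩) (transv a0 (t / (c * c - 1)))
      (hmemSt _ ⟨1, one_ne_zero, by rw [act_transv, sympForm_self, mul_zero, zero_smul, add_zero,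
        one_smul]⟩)
    rw [conj_transv, show (h : Matrix (Fin 1 ⊕ Fin 1) (Fin 1 ⊕ Fin 1) F) *ᵥ a0 = c • a0 from hh,
      transv_smul, transv_inv, transv_mul] at hmem
    rwa [show c * c * (t / (c * c - 1)) + -(t / (c * c - 1)) = t from by
      rw [← sub_eq_add_neg, ← sub_one_mul]; exact mul_div_cancel₀ t hcc] at hmem
  · -- two independent vectors in `A`
    push Not at hline
    obtain ⟨b0, hb0, hb0c⟩ := hline
    have hind : LinearIndependent F ![a0, b0] := (LinearIndependent.pair_iff' ha00).mpr hb0c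
    let G2 := Matrix.symplecticGroup (Fin n) F
    let X2 := MulAction.orbit G2 ![a0, b0]
    let S2 : Set X2 := {x | x.1 0 ∈ A ∧ x.1 1 ∈ A}
    have hcov2 : Nat.card X2 ≤ k * Nat.card S2 := by
      refine card_le_index_mul (G := G2) M S2 ⟨⟨_, mem_orbit_self _⟩, by simp [ha0],
        by simp [hb0]⟩ fun l hl x hx => ?_
      exact ⟨hAS l hl _ hx.1, hAS l hl _ hx.2⟩
    set β := ⟪a0, b0⟫
    have hX2 : ∀ x : (Fin 2 → Fin n ⊕ Fin n → F), x ∈ X2 ↔
        LinearIndependent F x ∧ ⟪x 0, x 1⟫ = β := by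
      intro x
      rw [mem_orbit_tuple_iff _ _ hind]
      refine and_congr_right fun _ => ⟨fun h => by simpa using h 0 1, fun h i j => ?_⟩
      fin_cases i <;> fin_cases j <;>
        simp [h, sympForm_swap (x 0) (x 1), sympForm_swap a0 b0, β]
    -- lower bound for the number of pairs
    let X0 := Σ a : X1, {b : Fin n ⊕ Fin n → F // ⟪a.1, b⟫ = β ∧ ∀ d : F, d • a.1 ≠ b}
    have hX0 : Nat.card X0 ≤ Nat.card X2 := by
      refine Nat.card_le_card_of_injective (fun x => ⟨![x.1.1, x.2.1], (hX2 _).mpr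
        ⟨(LinearIndependent.pair_iff' x.1.2).mpr x.2.2.2, by simpa using x.2.2.1⟩⟩) ?_
      rintro ⟨⟨a, ha⟩, b, hb⟩ ⟨⟨a', ha'⟩, b', hb'⟩ h
      have h0 := congrFun (congrArg Subtype.val h) 0
      have h1 := congrFun (congrArg Subtype.val h) 1
      simp only [Matrix.cons_val_zero, Matrix.cons_val_one] at h0 h1
      subst h0
      subst h1
      rfl
    have hfin : Module.finrank F (Fin n ⊕ Fin n → F) = 2 * n := by simp; omega
    have hfib : ∀ a : X1, Nat.card {b : Fin n ⊕ Fin n → F // ⟪a.1, b⟫ = β} = q ^ (2 * n - 1) := by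
      intro a
      rw [← hfin, show q = Nat.card F from (Nat.card_eq_fintype_card).symm,
        ← card_functional_fiber (sympBilin n F a.1) (fun h => a.2 ((sympBilin_nondegenerate n F).1 _
          fun v => by simp [h])) β]
      exact Nat.card_congr (Equiv.subtypeEquivRight fun v => by simp)
    have := Fintype.ofFinite X1
    by_cases hn1 : n = 1
    · -- in dimension two
      subst hn1
      have hβ : β ≠ 0 := by
        intro h0
        have hspan : Submodule.span F (Set.range ![a0, b0]) = ⊤ :=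
          hind.span_eq_top_of_card_eq_finrank (by rw [hfin]; simp)
        refine ha00 (sympForm_eq_zero_forall fun v => ?_)
        have hv : v ∈ Submodule.span F (Set.range ![a0, b0]) := hspan ▸ Submodule.mem_top
        rw [Matrix.range_cons_cons_empty, Submodule.mem_span_pair] at hv
        obtain ⟨r, s, rfl⟩ := hv
        rw [fadd_r, fsmul_r, fsmul_r, sympForm_self, show ⟪a0, b0⟫ = 0 from h0]
        ring
      have hlow : (q ^ 2 - 1) * q ≤ Nat.card X2 := by
        refine le_trans (le_of_eq ?_) hX0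
        rw [Nat.card_sigma, Finset.sum_congr rfl (g := fun _ => q) fun a _ => ?_, Finset.sum_const,
          Finset.card_univ, ← Nat.card_eq_fintype_card, hU, smul_eq_mul]
        have h := hfib a
        rw [show 2 * 1 - 1 = 1 from rfl, pow_one] at h
        refine Eq.trans (Nat.card_congr (Equiv.subtypeEquivRight fun b => and_iff_left_iff_imp.mpr
          fun hb d hd => hβ ?_)) h
        rw [← hb, ← hd, fsmul_r, sympForm_self, mul_zero]
      have hup : 3 * Nat.card S2 ≤ (q - 1) * q := by
        -- at most `q/3` partners for each vector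
        let R := {x : A // x ≠ 0}
        let sl : R → Set A := fun a => {b | ⟪a.1.1, b.1⟫ = β}
        have h3 : ∀ a : R, 3 * Nat.card (sl a) ≤ q := by
          intro a
          let D : AddSubgroup A := ((sympBilin 1 F a.1.1).toAddMonoidHom.comp A.subtype).ker
          have hD : ∀ b : A, b ∈ D ↔ ⟪a.1.1, b.1⟫ = 0 := fun b => by simp [D, AddMonoidHom.mem_ker]
          have hDle : Nat.card (sl a) ≤ Nat.card D := by
            rcases isEmpty_or_nonempty (sl a) with h | ⟨⟨b, hb⟩⟩
            · simp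
            · refine Nat.card_le_card_of_injective (fun c => ⟨c.1 - b, (hD _).mpr ?_⟩) fun c c' h => ?_
              · rw [AddSubgroup.coe_sub, fsub_r, show ⟪a.1.1, b.1⟫ = β from hb,
                  show ⟪a.1.1, c.1.1⟫ = β from c.2, sub_self]
              · exact Subtype.ext (sub_left_inj.mp (congrArg Subtype.val h))
          have hproper : D ≠ ⊤ := by
            intro htop
            have hall : ∀ b ∈ A, ⟪a.1.1, b⟫ = 0 := fun b hb => (hD ⟨b, hb⟩).mp (htop ▸ trivial)
            have ha1 : a.1.1 ≠ 0 := fun h => a.2 (Subtype.ext h)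
            refine ha1 (sympForm_eq_zero_forall fun v => ?_)
            have hv : v ∈ Submodule.span F (Set.range ![a0, b0]) := by
              rw [hind.span_eq_top_of_card_eq_finrank (by rw [hfin]; simp)]; trivial
            rw [Matrix.range_cons_cons_empty, Submodule.mem_span_pair] at hv
            obtain ⟨r, s, rfl⟩ := hv
            rw [fadd_r, fsmul_r, fsmul_r, hall _ ha0, hall _ hb0]
            ring
          have hidx : 3 ≤ D.index := by
            have h1 : D.index ≠ 1 := fun h => hproper (AddSubgroup.index_eq_one.mp h)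
            have h2' : D.index ∣ p ^ (e : ℕ) := by
              rw [← hqe, show q = Nat.card A by rw [hAeq, pow_one]]
              exact AddSubgroup.index_dvd_card D
            obtain ⟨i, -, hi⟩ := (Nat.dvd_prime_pow hpp).mp h2'
            rw [hi] at h1 ⊢
            exact hp3.trans (Nat.le_self_pow (fun h0 => h1 (by simp [h0])) p)
          have h4 := D.card_mul_index
          rw [hAeq, pow_one] at h4
          calc 3 * Nat.card (sl a) ≤ D.index * Nat.card D := Nat.mul_le_mul hidx hDle
            _ = q := by rw [mul_comm]; exact h4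
        have hinj : Nat.card S2 ≤ Nat.card (Σ a : R, sl a) := by
          refine Nat.card_le_card_of_injective (fun x => ⟨⟨⟨x.1.1 0, x.2.1⟩, fun h =>
            (((hX2 _).mp x.1.2).1.ne_zero 0) (congrArg Subtype.val h)⟩, ⟨x.1.1 1, x.2.2⟩,
            ((hX2 _).mp x.1.2).2⟩) ?_
          intro x y h
          refine Subtype.ext (Subtype.ext (funext fun i => ?_))
          fin_cases i
          · exact congrArg (fun z => z.1.1.1) h
          · exact congrArg (fun z => z.2.1.1) h
        have := Fintype.ofFinite R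
        rw [Nat.card_sigma] at hinj
        calc 3 * Nat.card S2 ≤ 3 * ∑ a : R, Nat.card (sl a) := Nat.mul_le_mul_left _ hinj
          _ = ∑ a : R, 3 * Nat.card (sl a) := Finset.mul_sum _ _ _
          _ ≤ ∑ _a : R, q := Finset.sum_le_sum fun a _ => h3 a
          _ = (q - 1) * q := by
            rw [Finset.sum_const, Finset.card_univ, smul_eq_mul, ← Nat.card_eq_fintype_card,
              Nat.card_eq_fintype_card, Fintype.card_subtype_compl, Fintype.card_subtype_eq,
              ← Nat.card_eq_fintype_card, hAeq, pow_one]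
      have hk : 3 * (q + 1) ≤ k := by
        refine Nat.le_of_mul_le_mul_right ?_ (Nat.mul_pos (show 0 < q - 1 by omega) (show 0 < q by omega))
        have : (q + 1) * (q - 1) = q ^ 2 - 1 := by rw [← Nat.sq_sub_sq]
        calc 3 * (q + 1) * ((q - 1) * q) = 3 * ((q ^ 2 - 1) * q) := by rw [← this]; ring
          _ ≤ 3 * (k * Nat.card S2) := Nat.mul_le_mul_left _ (hlow.trans hcov2)
          _ = k * (3 * Nat.card S2) := by ring
          _ ≤ _ := Nat.mul_le_mul_left _ hup
      have h3 := pts_le_line hq3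
      have h4 : (q + 1) * (3 * (q + 1)) * q ≤ (q + 1) * k * q :=
        Nat.mul_le_mul_right _ (Nat.mul_le_mul_left _ hk)
      rw [pow_one] at key2
      nlinarith
    · -- general dimension
      have hn2 : 2 ≤ n := by omega
      have hlow : (q ^ (2 * n) - 1) * (q ^ (2 * n - 1) - q) ≤ Nat.card X2 := by
        refine le_trans ?_ hX0
        rw [Nat.card_sigma, ← hU]
        refine le_trans (le_of_eq ?_) (Finset.sum_le_sum
          (f := fun _ => q ^ (2 * n - 1) - q) (s := Finset.univ) fun a _ => ?_)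
        · rw [Finset.sum_const, Finset.card_univ, ← Nat.card_eq_fintype_card, smul_eq_mul]
        · rw [← hfib a, Nat.sub_le_iff_le_add, show q = Nat.card F from (Nat.card_eq_fintype_card).symm,
            ← Nat.card_sum]
          refine Nat.card_le_card_of_injective (fun b => if hb : ∃ d : F, d • a.1 = b.1 then .inr hb.choose
            else .inl ⟨b.1, b.2, fun d hd => hb ⟨d, hd⟩⟩) fun b b' h => ?_
          simp only at h
          split_ifs at h with h1 h2'
          · apply Subtype.ext
            rw [← h1.choose_spec, ← h2'.choose_spec, Sum.inr.inj h]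
          · injection h with h'
            exact Subtype.ext (Subtype.mk.inj h')
      have hup : Nat.card S2 ≤ q ^ (2 * n) := by
        rw [← hqn, ← hAeq, ← Nat.card_prod]
        refine Nat.card_le_card_of_injective (fun x => (⟨x.1.1 0, x.2.1⟩, ⟨x.1.1 1, x.2.2⟩)) ?_
        intro x y h
        refine Subtype.ext (Subtype.ext (funext fun i => ?_))
        fin_cases i
        · exact congrArg (fun z => z.1.1) h
        · exact congrArg (fun z => z.2.1) h
      have hY : q ^ (2 * n - 1) - q ≤ k := by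
        by_contra hlt
        push Not at hlt
        have h1 := (hlow.trans hcov2).trans (Nat.mul_le_mul_left _ hup)
        obtain ⟨Y, hY⟩ : ∃ Y, Y = q ^ (2 * n - 1) - q := ⟨_, rfl⟩
        rw [← hY] at h1 hlt
        obtain ⟨X, hX⟩ : ∃ X, q ^ (2 * n) = X + 1 := ⟨q ^ (2 * n) - 1, by omega⟩
        rw [hX, Nat.add_sub_cancel] at h1
        have hYX : Y ≤ X := by
          have : q ^ (2 * n - 1) ≤ q ^ (2 * n) := Nat.pow_le_pow_right (by omega) (by omega)
          omega
        nlinarith
      obtain ⟨j, rfl⟩ : ∃ j, n = 2 + j := ⟨n - 2, by omega⟩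
      have h9 : 8 * q ^ (2 * (2 + j) - 1) ≤ 9 * k := by
        have h1 : 9 * q ≤ q ^ (2 * (2 + j) - 1) := by
          calc 9 * q ≤ q ^ 2 * q := Nat.mul_le_mul_right _ (by nlinarith)
            _ = q ^ 3 := by ring
            _ ≤ _ := Nat.pow_le_pow_right (by omega) (by omega)
        omega
      have h2P := (two_pts_le hq3 (2 + j)).2
      have h5 : 4 * q ^ (2 * (2 + j) + 1) ≤ (q + 1) * (q ^ (2 * (2 + j) - 1) * q ^ (2 + j)) := by
        rw [← pow_add]
        exact Nat.mul_le_mul (by omega) (Nat.pow_le_pow_right (by omega) (by omega))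
      have h6 : (q + 1) * (8 * q ^ (2 * (2 + j) - 1)) * q ^ (2 + j) ≤ (q + 1) * (9 * k) * q ^ (2 + j) :=
        Nat.mul_le_mul_right _ (Nat.mul_le_mul_left _ h9)
      nlinarith

end Cfsg.Agent.H2.MinIdx
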