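import Cfsg.Agent.H69.SL2Tori
import Cfsg.Agent.H64.SL2Sylow

/-!
Subgroups of `SL₂(2^f)` all whose `2`-subgroups have order at most two.
-/

set_option autoImplicit false

namespace Cfsg.Agent.H2.MinIdx

open Matrix Matrix.SpecialLinearGroup
open Cfsg.Agent.H69
open scoped MatrixGroups

variable {F : Type*} [Field F] [Fintype F]

local notation "M₂" => Matrix (Fin 2) (Fin 2) F

omit [Fintype F] in
lemma ringChar_eq_two (h2 : (2 : F) = 0) : ringChar F = 2 := by
  by_contra h
  exact Ring.two_ne_zero h h2

omit [Fintype F] in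
lemma eq_one_of_scalar (h2 : (2 : F) = 0) {g : SL(2, F)} (hg : IsScalar2 (g : M₂)) : g = 1 := by
  obtain ⟨h01, h10, h00⟩ := hg
  have hd : (g : M₂) 0 0 * (g : M₂) 0 0 = 1 := by
    have h := g.2
    rw [det_fin_two, h01, ← h00] at h
    simpa using h
  have h1 : ((g : M₂) 0 0 - 1) * ((g : M₂) 0 0 - 1) = 0 := by
    linear_combination hd - ((g : M₂) 0 0 - 1) * h2
  have h1' : (g : M₂) 0 0 = 1 := sub_eq_zero.mp (mul_self_eq_zero.mp h1)
  apply Subtype.ext
  ext i j
  fin_cases i <;> fin_cases j
  · exact h1'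
  · exact h01
  · exact h10
  · exact h00.symm.trans h1'

omit [Fintype F] in
lemma mul_self_eq_one_iff_trace (h2 : (2 : F) = 0) {g : SL(2, F)} (hg : g ≠ 1) :
    g * g = 1 ↔ (g : M₂).trace = 0 := by
  have hns : ¬ IsScalar2 (g : M₂) := fun h => hg (eq_one_of_scalar h2 h)
  have e : ((g * g : SL(2, F)) : M₂) = (g : M₂).trace • (g : M₂) - (1 : M₂) := by
    rw [coe_mul, mul_self_fin_two, g.2, one_smul]
  have hneg : -(1 : M₂) = 1 := by
    ext i j
    rcases eq_or_ne i j with rfl | hij
    · rw [Matrix.neg_apply, one_apply_eq]; linear_combination -h2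
    · simp [one_apply_ne hij]
  constructor
  · intro h
    rw [h, coe_one] at e
    have e' : (1 : F) • (1 : M₂) + (0 : F) • (g : M₂) =
        (1 : F) • (1 : M₂) + (g : M₂).trace • (g : M₂) := by
      rw [one_smul, zero_smul, add_zero]
      conv_lhs => rw [e]
      rw [sub_eq_add_neg, hneg, add_comm]
    exact (smul_add_smul_inj hns e').2.symm
  · intro h
    apply Subtype.ext
    rw [e, h, zero_smul, zero_sub, hneg, coe_one]

/-- Elements with trace zero are conjugate. -/
lemma isConj_of_trace_zero (h2 : (2 : F) = 0) {g h : SL(2, F)} (hg : g ≠ 1) (hh : h ≠ 1)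
    (hgt : (g : M₂).trace = 0) (hht : (h : M₂).trace = 0) : IsConj g h :=
  sl2_isConj_of_trace (fun hs => hg (eq_one_of_scalar h2 hs)) (fun hs => hh (eq_one_of_scalar h2 hs))
    (by rw [hgt, hht]) (Or.inr (ringChar_eq_two h2))

lemma card_centralizer_invol (h2 : (2 : F) = 0) {g : SL(2, F)} (hg : g ≠ 1)
    (ht : (g : M₂).trace = 0) :
    Nat.card (Subgroup.centralizer ({g} : Set SL(2, F))) = Fintype.card F := by
  rw [← Nat.card_eq_fintype_card]
  refine card_centralizer_unipotent_even (fun h => hg (eq_one_of_scalar h2 h)) ?_ (ringChar_eq_two h2)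
  rw [ht]; linear_combination -(2 : F) * h2

lemma trace_ne_zero_of_odd (h2 : (2 : F) = 0) {g : SL(2, F)} (hg : g ≠ 1) (ho : Odd (orderOf g)) :
    (g : M₂).trace ≠ 0 := by
  intro h
  have h1 := (mul_self_eq_one_iff_trace h2 hg).mpr h
  have h2' : orderOf g ∣ 2 := orderOf_dvd_of_pow_eq_one (by rw [sq, h1])
  rcases (Nat.dvd_prime Nat.prime_two).mp h2' with h | h
  · exact hg (orderOf_eq_one_iff.mp h)
  · rw [h] at ho; exact absurd ho (by decide)

lemma card_centralizer_semisimple (h2 : (2 : F) = 0) {g : SL(2, F)} (hg : g ≠ 1)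
    (ht : (g : M₂).trace ≠ 0) :
    IsCyclic (Subgroup.centralizer ({g} : Set SL(2, F))) ∧
      (Nat.card (Subgroup.centralizer ({g} : Set SL(2, F))) = Fintype.card F + 1 ∨
        Nat.card (Subgroup.centralizer ({g} : Set SL(2, F))) + 1 = Fintype.card F) := by
  have hns : ¬ IsScalar2 (g : M₂) := fun h => hg (eq_one_of_scalar h2 h)
  have ht4 : (g : M₂).trace ^ 2 ≠ 4 := fun h => ht (pow_eq_zero_iff two_ne_zero |>.mp
    (by linear_combination h + (2 : F) * h2))
  refine ⟨Cfsg.Agent.H69.isCyclic_centralizer hns ht4, ?_⟩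
  have hc := card_centralizer_add hns (Or.inl ht4)
  rw [Nat.card_eq_fintype_card (α := F)] at hc
  rcases rootCount_eq_zero_or_two ht4 with h | h <;> rw [h] at hc <;> omega

/-- An odd order subgroup is abelian. -/
lemma commute_of_odd (h2 : (2 : F) = 0) (O : Subgroup SL(2, F)) (hO : Odd (Nat.card O))
    (a b : SL(2, F)) (ha : a ∈ O) (hb : b ∈ O) : a * b = b * a := by
  have hz : IsZGroup O := ⟨fun r hr P => by
    have := Fact.mk hr
    by_cases hr2 : r = 2
    · subst hr2
      have hbot : (P : Subgroup O) = ⊥ := by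
        rw [← Subgroup.card_eq_one, Sylow.card_eq_multiplicity, Nat.factorization_eq_zero_of_not_dvd,
          pow_zero]
        exact fun h => Nat.not_even_iff_odd.mpr hO (even_iff_two_dvd.mpr h)
      rw [hbot]
      exact inferInstance
    · have hcp : CharP F 2 := ringChar.of_eq (ringChar_eq_two h2)
      have := H64.SL2.isCyclic_of_isPGroup 2 hr2 hr2 ((P : Subgroup O).map O.subtype)
        (P.2.map O.subtype)
      exact isCyclic_of_surjective
        ((P : Subgroup O).equivMapOfInjective O.subtype O.subtype_injective).symm.toMonoidHom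
        (((P : Subgroup O).equivMapOfInjective O.subtype O.subtype_injective).symm.surjective)⟩
  suffices h : commutator O = ⊥ by
    rw [commutator_def, Subgroup.commutator_eq_bot_iff_le_centralizer] at h
    have h1 := Subgroup.mem_centralizer_iff.mp (h (Subgroup.mem_top (⟨b, hb⟩ : O))) ⟨a, ha⟩
      (Subgroup.mem_top _)
    exact congrArg Subtype.val h1
  by_contra hne
  have := hz.isCyclic_commutator
  obtain ⟨gen, hgen⟩ := IsCyclic.exists_generator (α := commutator O)
  obtain ⟨c, hc, hc1⟩ := (commutator O).ne_bot_iff_exists_ne_one.mp hne |> fun ⟨c, hc⟩ =>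
    (⟨c.1, c.2, fun h => hc (Subtype.ext h)⟩ : ∃ c, c ∈ commutator O ∧ c ≠ 1)
  have hg1 : ((gen : O) : SL(2, F)) ≠ 1 := fun h => hc1 (by
    obtain ⟨k, hk⟩ := Subgroup.mem_zpowers_iff.mp (hgen ⟨c, hc⟩)
    have : gen = 1 := Subtype.ext (Subtype.ext h)
    rw [this, _root_.one_zpow] at hk
    exact (congrArg Subtype.val hk).symm)
  set g : SL(2, F) := ((gen : O) : SL(2, F))
  have hodd : Odd (orderOf g) := by
    refine Odd.of_dvd_nat hO ?_
    have : orderOf g = orderOf (gen : O) := orderOf_injective O.subtype O.subtype_injective (gen : O)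
    rw [this]; exact orderOf_dvd_natCard _
  have ht := trace_ne_zero_of_odd h2 hg1 hodd
  obtain ⟨hcyc, -⟩ := card_centralizer_semisimple h2 hg1 ht
  have hns : ¬ IsScalar2 (g : M₂) := fun h => hg1 (eq_one_of_scalar h2 h)
  -- every element of `O` centralises `g`
  have hcent : ∀ x ∈ O, x ∈ Subgroup.centralizer ({g} : Set SL(2, F)) := by
    intro x hx
    have hy : (⟨x, hx⟩ : O) * (gen : O) * (⟨x, hx⟩ : O)⁻¹ ∈ commutator O :=
      (Subgroup.Normal.conj_mem inferInstance _ gen.2 _)
    obtain ⟨k, hk⟩ := Subgroup.mem_zpowers_iff.mp (hgen ⟨_, hy⟩)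
    have hk' : g ^ k = x * g * x⁻¹ := by
      have := congrArg (fun z : commutator O => ((z : O) : SL(2, F))) hk
      simpa using this
    have hcom : x * g * x⁻¹ ∈ Subgroup.centralizer ({g} : Set SL(2, F)) := by
      rw [← hk', Subgroup.mem_centralizer_singleton_iff]
      exact ((Commute.refl g).zpow_left k).eq
    obtain ⟨α, β, hab, he⟩ := exists_coeff_of_mem_centralizer hns hcom
    have htr : ((x * g * x⁻¹ : SL(2, F)) : M₂).trace = (g : M₂).trace :=
      (sl2_trace_eq_of_isConj (isConj_iff.mpr ⟨x, rfl⟩)).symm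
    rw [he, trace_add, trace_smul, trace_smul, trace_one] at htr
    have hβ : β = 1 := by
      refine mul_right_cancel₀ ht ?_
      simp only [smul_eq_mul, Fintype.card_fin, Nat.cast_ofNat] at htr
      linear_combination htr - α * h2
    subst hβ
    have hα : α * (α + (g : M₂).trace) = 0 := by
      simp only [normForm] at hab
      linear_combination hab
    have hsq : (x * x) * g * (x * x)⁻¹ = g := by
      rcases mul_eq_zero.mp hα with h | h
      · have : x * g * x⁻¹ = g := Subtype.ext (by rw [he, h]; simp)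
        calc (x * x) * g * (x * x)⁻¹ = x * (x * g * x⁻¹) * x⁻¹ := by group
          _ = g := by rw [this, this]
      · have hαt : α = (g : M₂).trace := by linear_combination h - (g : M₂).trace * h2
        have e1 : ((x * (x * g * x⁻¹) * x⁻¹ : SL(2, F)) : M₂) = (g : M₂) := by
          have hyM : (x : M₂) * (g : M₂) * ((x⁻¹ : SL(2, F)) : M₂) =
              (g : M₂).trace • (1 : M₂) + (g : M₂) := by
            rw [← coe_mul, ← coe_mul, he, hαt, one_smul]
          have hxx : (x : M₂) * ((x⁻¹ : SL(2, F)) : M₂) = 1 := by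
            rw [← coe_mul, mul_inv_cancel, coe_one]
          rw [coe_mul, coe_mul, he, hαt, one_smul, mul_add, add_mul, mul_smul_comm, mul_one,
            smul_mul_assoc, hxx, hyM, ← add_assoc, ← add_smul,
            show (g : M₂).trace + (g : M₂).trace = 0 by linear_combination (g : M₂).trace * h2,
            zero_smul, zero_add]
        calc (x * x) * g * (x * x)⁻¹ = x * (x * g * x⁻¹) * x⁻¹ := by group
          _ = g := Subtype.ext e1
    -- `x` has odd order, so is a power of `x * x`
    obtain ⟨j, hj⟩ : Odd (orderOf x) := Odd.of_dvd_nat hO (by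
      have : orderOf x = orderOf (⟨x, hx⟩ : O) := orderOf_injective O.subtype O.subtype_injective ⟨x, hx⟩
      rw [this]; exact orderOf_dvd_natCard _)
    have hxx : x * x ∈ Subgroup.centralizer ({g} : Set SL(2, F)) :=
      Subgroup.mem_centralizer_singleton_iff.mpr (mul_inv_eq_iff_eq_mul.mp hsq)
    have : (x * x) ^ (j + 1) = x := by
      rw [← sq, ← pow_mul, show 2 * (j + 1) = orderOf x + 1 by omega, pow_succ,
        pow_orderOf_eq_one, one_mul]
    rw [← this]
    exact Subgroup.pow_mem _ hxx _
  have hab : ∀ x y : O, x * y = y * x := fun x y => Subtype.ext (by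
    have h := (IsCyclic.commGroup (α := Subgroup.centralizer ({g} : Set SL(2, F)))).mul_comm
      ⟨x.1, hcent _ x.2⟩ ⟨y.1, hcent _ y.2⟩
    have h' := congrArg Subtype.val h
    exact h')
  refine hne ?_
  rw [commutator_def, Subgroup.commutator_eq_bot_iff_le_centralizer]
  intro x _
  rw [Subgroup.mem_centralizer_iff]
  exact fun y _ => hab y x

/-- The structure of a subgroup with small `2`-subgroups. -/
theorem small_struct (h2 : (2 : F) = 0) (R : Subgroup SL(2, F)) (h3 : 3 ≤ Nat.card R)
    (hP : ∀ P : Subgroup SL(2, F), P ≤ R → IsPGroup 2 P → Nat.card P ≤ 2) :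
    (∀ M : Subgroup SL(2, F), (∀ m ∈ M, ∀ r ∈ R, m * r * m⁻¹ ∈ R) →
      Nat.card M ≤ 2 * (Fintype.card F + 1)) ∧
    (Fintype.card F ≤ Nat.card R → 4 ≤ Fintype.card F →
      (Nat.card R = Fintype.card F + 1 ∧ ∀ r ∈ R, r * r = 1 → r = 1) ∨
      ∃ k, (k = Fintype.card F + 1 ∨ k + 1 = Fintype.card F) ∧ Nat.card R = 2 * k ∧
        (∀ M : Subgroup SL(2, F), R ≤ M → (∀ m ∈ M, ∀ r ∈ R, m * r * m⁻¹ ∈ R) → M = R) ∧
        Nat.card {r : SL(2, F) // r ∈ R ∧ r ≠ 1 ∧ r * r = 1} = k) := by
  classical
  obtain ⟨P⟩ : Nonempty (Sylow 2 R) := inferInstance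
  have hPle : Nat.card P ≤ 2 := by
    have h := hP ((P : Subgroup R).map R.subtype) (Subgroup.map_subtype_le _) (P.2.map R.subtype)
    rwa [Subgroup.card_map_of_injective R.subtype_injective] at h
  -- the odd part
  obtain ⟨O, hOn, hOidx, hOodd⟩ :
      ∃ O : Subgroup R, O.Normal ∧ O.index ≤ 2 ∧ Odd (Nat.card O) := by
    by_cases hodd : Odd (Nat.card R)
    · exact ⟨⊤, inferInstance, by simp, by rwa [Subgroup.card_top]⟩
    have hP2 : Nat.card P = 2 := by
      refine le_antisymm hPle ?_
      by_contra h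
      have h1 : Nat.card P = 1 := by
        have : 0 < Nat.card P := Nat.card_pos
        omega
      have hdvd := Sylow.dvd_card_of_dvd_card (P := P)
        (even_iff_two_dvd.mp (Nat.not_odd_iff_even.mp hodd))
      rw [h1] at hdvd; omega
    have hcomm : Subgroup.normalizer ((P : Subgroup R) : Set R) ≤ Subgroup.centralizer (P : Set R) := by
      intro x hx
      rw [Subgroup.mem_centralizer_iff]
      intro y hy
      by_cases hy1 : y = 1
      · rw [hy1, one_mul, mul_one]
      have hy' := (Subgroup.mem_normalizer_iff.mp hx y).mp hy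
      have huniq : ∀ a b : (P : Subgroup R), a ≠ 1 → b ≠ 1 → a = b := by
        intro a b ha hb
        have h2c : Nat.card (P : Subgroup R) = 2 := hP2
        obtain ⟨u, v, huv, huniv⟩ := Nat.card_eq_two_iff.mp h2c
        have h1 : (1 : (P : Subgroup R)) ∈ ({u, v} : Set _) := huniv ▸ Set.mem_univ _
        have h1a : a ∈ ({u, v} : Set _) := huniv ▸ Set.mem_univ _
        have h1b : b ∈ ({u, v} : Set _) := huniv ▸ Set.mem_univ _
        simp only [Set.mem_insert_iff, Set.mem_singleton_iff] at h1 h1a h1b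
        rcases h1 with h1 | h1 <;> rcases h1a with h1a | h1a <;> rcases h1b with h1b | h1b <;>
          simp_all
      have e := congrArg Subtype.val (huniq ⟨x * y * x⁻¹, hy'⟩ ⟨y, hy⟩
        (fun h => hy1 (by simpa using congrArg Subtype.val h))
        (fun h => hy1 (congrArg Subtype.val h)))
      exact (mul_inv_eq_iff_eq_mul.mp e).symm
    have hcomp := MonoidHom.ker_transferSylow_isComplement' (P := P) hcomm
    refine ⟨(MonoidHom.transferSylow P hcomm).ker, inferInstance, ?_, ?_⟩
    · rw [hcomp.symm.index_eq_card]; omega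
    · have h := MonoidHom.not_dvd_card_ker_transferSylow (P := P) hcomm
      exact Nat.not_even_iff_odd.mp fun he => h (even_iff_two_dvd.mp he)
  set O' := O.map R.subtype
  have hcO : Nat.card O' = Nat.card O := Subgroup.card_map_of_injective R.subtype_injective
  have hO2 : 2 ≤ Nat.card O := by
    have h := O.card_mul_index
    by_contra hlt
    have h1 : Nat.card O = 1 := by
      have : 0 < Nat.card O := Nat.card_pos
      omega
    rw [h1, one_mul] at h
    omega
  obtain ⟨g₀, hg₀⟩ : ∃ g : O', g ≠ 1 := by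
    have : Nontrivial O' := Finite.one_lt_card_iff_nontrivial.mp (by omega)
    exact exists_ne 1
  have hodd' : Odd (Nat.card O') := hcO ▸ hOodd
  set g : SL(2, F) := (g₀ : SL(2, F))
  have hg1 : g ≠ 1 := fun h => hg₀ (Subtype.ext h)
  have ht := trace_ne_zero_of_odd h2 hg1 (Odd.of_dvd_nat hodd' (by
    have : orderOf g = orderOf g₀ := orderOf_injective O'.subtype O'.subtype_injective g₀
    rw [this]; exact orderOf_dvd_natCard _))
  obtain ⟨-, hCcard⟩ := card_centralizer_semisimple h2 hg1 ht
  set C := Subgroup.centralizer ({g} : Set SL(2, F))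
  have hns : ¬ IsScalar2 (g : M₂) := fun h => hg1 (eq_one_of_scalar h2 h)
  have hOC : O' ≤ C := fun x hx =>
    Subgroup.mem_centralizer_singleton_iff.mpr (commute_of_odd h2 O' hodd' x g hx g₀.2)
  have hodd_mem : ∀ r ∈ R, Odd (orderOf r) → r ∈ O' := by
    intro r hr ho
    refine ⟨⟨r, hr⟩, ?_, rfl⟩
    have hq : orderOf (QuotientGroup.mk (s := O) (⟨r, hr⟩ : R)) ∣ O.index := by
      rw [Subgroup.index]; exact orderOf_dvd_natCard _
    have hr' : orderOf (QuotientGroup.mk (s := O) (⟨r, hr⟩ : R)) ∣ orderOf r := by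
      have := orderOf_map_dvd (QuotientGroup.mk' O) (⟨r, hr⟩ : R)
      rwa [← orderOf_injective R.subtype R.subtype_injective ⟨r, hr⟩] at this
    have h1 : orderOf (QuotientGroup.mk (s := O) (⟨r, hr⟩ : R)) = 1 := by
      have hle := Nat.le_of_dvd (Nat.pos_of_ne_zero Subgroup.index_ne_zero_of_finite) hq
      have hodd2 := Odd.of_dvd_nat ho hr'
      have h12 : orderOf (QuotientGroup.mk (s := O) (⟨r, hr⟩ : R)) ≤ 2 := hle.trans hOidx
      rcases hodd2 with ⟨i, hi⟩
      omega
    exact (QuotientGroup.eq_one_iff _).mp (orderOf_eq_one_iff.mp h1)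
  -- normalising elements
  have hnorm : ∀ M : Subgroup SL(2, F), (∀ m ∈ M, ∀ r ∈ R, m * r * m⁻¹ ∈ R) →
      Nat.card M ≤ 2 * Nat.card C ∧ ∀ m ∈ M, m ∉ C → (m : M₂).trace = 0 := by
    intro M hM
    have himg : ∀ m ∈ M, m * g * m⁻¹ = g ∨
        ((m * g * m⁻¹ : SL(2, F)) : M₂) = (g : M₂).trace • (1 : M₂) + (g : M₂) := by
      intro m hm
      have hy : m * g * m⁻¹ ∈ C := hOC (hodd_mem _ (hM m hm g (Subgroup.map_subtype_le O g₀.2)) (by
        rw [show m * g * m⁻¹ = MulAut.conj m g from rfl, MulEquiv.orderOf_eq]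
        exact Odd.of_dvd_nat hodd' (by
          have : orderOf g = orderOf g₀ := orderOf_injective O'.subtype O'.subtype_injective g₀
          rw [this]; exact orderOf_dvd_natCard _)))
      obtain ⟨α, β, hab, he⟩ := exists_coeff_of_mem_centralizer hns hy
      have htr : ((m * g * m⁻¹ : SL(2, F)) : M₂).trace = (g : M₂).trace :=
        (sl2_trace_eq_of_isConj (isConj_iff.mpr ⟨m, rfl⟩)).symm
      rw [he, trace_add, trace_smul, trace_smul, trace_one] at htr
      have hβ : β = 1 := by
        refine mul_right_cancel₀ ht ?_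
        simp only [smul_eq_mul, Fintype.card_fin, Nat.cast_ofNat] at htr
        linear_combination htr - α * h2
      subst hβ
      have hα : α * (α + (g : M₂).trace) = 0 := by
        simp only [normForm] at hab
        linear_combination hab
      rcases mul_eq_zero.mp hα with h | h
      · left; exact Subtype.ext (by rw [he, h]; simp)
      · right; rw [he, show α = (g : M₂).trace by linear_combination h - (g : M₂).trace * h2, one_smul]
    refine ⟨?_, fun m hm hmC => ?_⟩
    · have h1 := ((C.subgroupOf M)).card_mul_index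
      have h2' : Nat.card (C.subgroupOf M) ≤ Nat.card C :=
        Nat.card_le_card_of_injective (fun x => (⟨x.1.1, x.2⟩ : C))
          fun x y h => Subtype.ext (Subtype.ext (congrArg (fun z : C => z.1) h))
      have h3' : (C.subgroupOf M).index ≤ 2 := by
        by_contra hgt
        have hf : Function.Injective fun c : M ⧸ C.subgroupOf M =>
            decide (((c.out : M) : SL(2, F)) * g * ((c.out : M) : SL(2, F))⁻¹ = g) := by
          intro a b hab'
          simp only [decide_eq_decide] at hab'
          have key : ((a.out : M) : SL(2, F)) * g * ((a.out : M) : SL(2, F))⁻¹ =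
              ((b.out : M) : SL(2, F)) * g * ((b.out : M) : SL(2, F))⁻¹ := by
            by_cases ha : ((a.out : M) : SL(2, F)) * g * ((a.out : M) : SL(2, F))⁻¹ = g
            · rw [ha, hab'.mp ha]
            · exact Subtype.ext ((himg _ a.out.2).resolve_left ha |>.trans
                ((himg _ b.out.2).resolve_left (fun hb => ha (hab'.mpr hb))).symm)
          rw [← QuotientGroup.out_eq' a, ← QuotientGroup.out_eq' b, QuotientGroup.eq]
          show ((a.out⁻¹ * b.out : M) : SL(2, F)) ∈ C
          rw [Subgroup.mem_centralizer_singleton_iff]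
          set u := ((a.out : M) : SL(2, F))
          set w := ((b.out : M) : SL(2, F))
          show u⁻¹ * w * g = g * (u⁻¹ * w)
          calc u⁻¹ * w * g = u⁻¹ * (w * g * w⁻¹) * w := by group
            _ = g * (u⁻¹ * w) := by rw [← key]; group
        have := Nat.card_le_card_of_injective _ hf
        rw [Nat.card_eq_fintype_card (α := Bool), Fintype.card_bool, ← Subgroup.index] at this
        omega
      calc Nat.card M = Nat.card (C.subgroupOf M) * (C.subgroupOf M).index := h1.symm
        _ ≤ Nat.card C * 2 := Nat.mul_le_mul h2' h3'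
        _ = _ := by ring
    · have h := (himg m hm).resolve_left fun h =>
        hmC (Subgroup.mem_centralizer_singleton_iff.mpr (mul_inv_eq_iff_eq_mul.mp h))
      have h' : (m : M₂) * (g : M₂) = ((g : M₂).trace • (1 : M₂) + (g : M₂)) * (m : M₂) := by
        rw [← h, ← coe_mul, ← coe_mul, inv_mul_cancel_right]
      have h'' := congrArg Matrix.trace h'
      rw [add_mul, trace_add, trace_mul_comm (g : M₂) (m : M₂), smul_mul_assoc, one_mul, trace_smul,
        smul_eq_mul] at h''
      exact (mul_eq_zero.mp (by linear_combination -h'' : (g : M₂).trace * (m : M₂).trace = 0)).resolve_left ht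
  refine ⟨fun M hM => (hnorm M hM).1.trans (by omega), fun hqR hq4 => ?_⟩
  set q := Fintype.card F
  have hmulR := O.card_mul_index
  -- `O` is the whole centraliser
  have hdvd : Nat.card O ∣ Nat.card C := hcO ▸ Subgroup.card_dvd_of_le hOC
  obtain ⟨d, hd⟩ := hdvd
  have hOge : q ≤ 2 * Nat.card O := by
    calc q ≤ Nat.card O * O.index := hqR.trans (le_of_eq hmulR.symm)
      _ ≤ Nat.card O * 2 := Nat.mul_le_mul_left _ hOidx
      _ = _ := by ring
  have hqe : Even q := by
    rw [Nat.even_iff]
    exact FiniteField.even_card_of_char_two (ringChar_eq_two h2)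
  have hCodd : Odd (Nat.card C) := by
    obtain ⟨j, hj⟩ := hqe
    rcases hCcard with h | h
    · exact ⟨j, by omega⟩
    · exact ⟨j - 1, by omega⟩
  have hd1 : d = 1 := by
    have hdodd : Odd d := by rw [hd] at hCodd; exact (Nat.odd_mul.mp hCodd).2
    by_contra hne
    have hd3 : 3 ≤ d := by rcases hdodd with ⟨i, hi⟩; omega
    have h6 : 3 * Nat.card O ≤ Nat.card C := by
      rw [hd, mul_comm (Nat.card O)]; exact Nat.mul_le_mul_right _ hd3
    omega
  rw [hd1, mul_one] at hd
  have hOeq : O' = C := Subgroup.eq_of_le_of_card_ge hOC (by omega)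
  have hidx0 : O.index ≠ 0 := Subgroup.index_ne_zero_of_finite
  have hidx12 : O.index = 1 ∨ O.index = 2 := by omega
  rcases hidx12 with h1 | h1 <;> rw [h1] at hmulR
  · left
    refine ⟨by omega, fun r hr hrr => ?_⟩
    by_contra hr1
    have hordR : orderOf r ∣ Nat.card R := by
      rw [show orderOf r = orderOf (⟨r, hr⟩ : R) from orderOf_injective R.subtype R.subtype_injective ⟨r, hr⟩]
      exact orderOf_dvd_natCard _
    have hoR : Odd (Nat.card R) := by
      rw [← hmulR, mul_one]; exact hOodd
    have h2o : orderOf r = 2 := by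
      rcases (Nat.dvd_prime Nat.prime_two).mp (orderOf_dvd_of_pow_eq_one (show r ^ 2 = 1 by rw [sq, hrr])) with h | h
      · exact absurd (orderOf_eq_one_iff.mp h) hr1
      · exact h
    rw [h2o] at hordR
    exact Nat.not_even_iff_odd.mpr hoR (even_iff_two_dvd.mpr hordR)
  · right
    refine ⟨Nat.card C, by omega, by omega, fun M hRM hM => ?_, ?_⟩
    · exact (Subgroup.eq_of_le_of_card_ge hRM (by have := (hnorm M hM).1; omega)).symm
    · have hRn : ∀ m ∈ R, ∀ r ∈ R, m * r * m⁻¹ ∈ R := fun m hm r hr =>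
        R.mul_mem (R.mul_mem hm hr) (R.inv_mem hm)
      have hiff : ∀ r, (r ∈ R ∧ r ≠ 1 ∧ r * r = 1) ↔ (r ∈ R ∧ r ∉ O') := by
        intro r
        refine ⟨fun ⟨hr, hr1, hrr⟩ => ⟨hr, fun hrO => ?_⟩, fun ⟨hr, hrO⟩ => ⟨hr, ?_, ?_⟩⟩
        · have hdvd2 : orderOf r ∣ Nat.card O' := by
            rw [show orderOf r = orderOf (⟨r, hrO⟩ : O') from
              orderOf_injective O'.subtype O'.subtype_injective ⟨r, hrO⟩]
            exact orderOf_dvd_natCard _
          rcases (Nat.dvd_prime Nat.prime_two).mp (orderOf_dvd_of_pow_eq_one (show r ^ 2 = 1 by rw [sq, hrr])) with h | h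
          · exact hr1 (orderOf_eq_one_iff.mp h)
          · rw [h] at hdvd2; exact Nat.not_even_iff_odd.mpr hodd' (even_iff_two_dvd.mpr hdvd2)
        · rintro rfl; exact hrO O'.one_mem
        · exact (mul_self_eq_one_iff_trace h2 (by rintro rfl; exact hrO O'.one_mem)).mpr
            ((hnorm R hRn).2 r hr (hOeq ▸ hrO))
      rw [Nat.card_congr (Equiv.subtypeEquivRight hiff)]
      have hsplit : Nat.card {r : SL(2, F) // r ∈ R ∧ r ∉ O'} + Nat.card O' = Nat.card R := by
        rw [← Nat.card_sum]
        have hle : O' ≤ R := Subgroup.map_subtype_le O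
        refine Nat.card_congr
          { toFun := fun x => x.elim (fun r => ⟨r.1, r.2.1⟩) fun o => ⟨o.1, hle o.2⟩
            invFun := fun r => if h : r.1 ∈ O' then .inr ⟨r.1, h⟩ else .inl ⟨r.1, r.2, h⟩
            left_inv := fun x => by
              rcases x with r | o
              · simp [r.2.2]
              · simp [o.2]
            right_inv := fun r => by
              by_cases h : r.1 ∈ O' <;> simp [h] }
      omega

end Cfsg.Agent.H2.MinIdx
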