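import Cfsg.Agent.H2.MinIdx.Fourier
import Cfsg.Agent.H2.MinIdx.SL2Small
import Cfsg.Agent.H92.SL2Mat

/-!
Orbits of a direct product, their fixed point numbers, and the classes of `SL₂(2^f)` involved.
-/

set_option autoImplicit false

namespace Cfsg.Agent.H2.MinIdx

open Matrix MulAction
open scoped MatrixGroups

section generic

variable {A B : Type*} [Group A] [Group B] [Finite A] [Finite B] (K : Subgroup (A × B))

omit [Finite A] [Finite B] in
lemma fst_normalises {m r : A} (hm : m ∈ K.map (MonoidHom.fst A B))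
    (hr : r ∈ K.comap (MonoidHom.inl A B)) : m * r * m⁻¹ ∈ K.comap (MonoidHom.inl A B) := by
  obtain ⟨⟨m, b⟩, hk, rfl⟩ := hm
  have := K.mul_mem (K.mul_mem hk hr) (K.inv_mem hk)
  simpa using this

omit [Finite A] [Finite B] in
lemma snd_normalises {m r : B} (hm : m ∈ K.map (MonoidHom.snd A B))
    (hr : r ∈ K.comap (MonoidHom.inr A B)) : m * r * m⁻¹ ∈ K.comap (MonoidHom.inr A B) := by
  obtain ⟨⟨a, m⟩, hk, rfl⟩ := hm
  have := K.mul_mem (K.mul_mem hk hr) (K.inv_mem hk)
  simpa using this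

omit [Finite A] [Finite B] in
lemma comap_inl_le : K.comap (MonoidHom.inl A B) ≤ K.map (MonoidHom.fst A B) :=
  fun a ha => ⟨(a, 1), ha, rfl⟩

omit [Finite A] [Finite B] in
lemma comap_inr_le : K.comap (MonoidHom.inr A B) ≤ K.map (MonoidHom.snd A B) :=
  fun b hb => ⟨(1, b), hb, rfl⟩

/-- The order of a subgroup of a product. -/
lemma card_eq_fst : Nat.card K = Nat.card (K.map (MonoidHom.fst A B)) *
    Nat.card (K.comap (MonoidHom.inr A B)) := by
  let f : K →* A := (MonoidHom.fst A B).comp K.subtype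
  have h := Subgroup.card_eq_card_quotient_mul_card_subgroup f.ker
  rw [Nat.card_congr (QuotientGroup.quotientKerEquivRange f).toEquiv] at h
  rw [h]
  congr 1
  · exact Nat.card_congr (Equiv.setCongr (by ext a; simp [f]))
  · refine Nat.card_congr
      { toFun := fun x => ⟨x.1.1.2, ?_⟩
        invFun := fun b => ⟨⟨(1, b.1), b.2⟩, rfl⟩
        left_inv := fun x => ?_
        right_inv := fun b => rfl }
    · show ((1 : A), x.1.1.2) ∈ K
      have h1 : x.1.1.1 = 1 := x.2
      rw [show ((1 : A), x.1.1.2) = x.1.1 from Prod.ext h1.symm rfl]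
      exact x.1.2
    · exact Subtype.ext (Subtype.ext (Prod.ext (show x.1.1.1 = 1 from x.2).symm rfl))

/-- The order of a subgroup of a product. -/
lemma card_eq_snd : Nat.card K = Nat.card (K.comap (MonoidHom.inl A B)) *
    Nat.card (K.map (MonoidHom.snd A B)) := by
  let f : K →* B := (MonoidHom.snd A B).comp K.subtype
  have h := Subgroup.card_eq_card_quotient_mul_card_subgroup f.ker
  rw [Nat.card_congr (QuotientGroup.quotientKerEquivRange f).toEquiv] at h
  rw [h, mul_comm]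
  congr 1
  · refine Nat.card_congr
      { toFun := fun x => ⟨x.1.1.1, ?_⟩
        invFun := fun a => ⟨⟨(a.1, 1), a.2⟩, rfl⟩
        left_inv := fun x => ?_
        right_inv := fun a => rfl }
    · show (x.1.1.1, (1 : B)) ∈ K
      have h1 : x.1.1.2 = 1 := x.2
      rw [show (x.1.1.1, (1 : B)) = x.1.1 from Prod.ext rfl h1.symm]
      exact x.1.2
    · exact Subtype.ext (Subtype.ext (Prod.ext rfl (show x.1.1.2 = 1 from x.2).symm))
  · exact Nat.card_congr (Equiv.setCongr (by ext a; simp [f]))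

omit [Finite A] [Finite B] in
/-- A subgroup whose first projection is its first intersection is a product. -/
lemma eq_prod (h : K.map (MonoidHom.fst A B) = K.comap (MonoidHom.inl A B)) :
    K = (K.comap (MonoidHom.inl A B)).prod (K.comap (MonoidHom.inr A B)) ∧
      K.map (MonoidHom.snd A B) = K.comap (MonoidHom.inr A B) := by
  have hsplit : ∀ a b, (a, b) ∈ K → (a, (1 : B)) ∈ K ∧ ((1 : A), b) ∈ K := by
    intro a b hab
    have ha : (a, (1 : B)) ∈ K := by
      have : a ∈ K.comap (MonoidHom.inl A B) := h ▸ ⟨(a, b), hab, rfl⟩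
      exact this
    refine ⟨ha, ?_⟩
    have := K.mul_mem (K.inv_mem ha) hab
    simpa using this
  refine ⟨?_, le_antisymm ?_ (comap_inr_le K)⟩
  · ext ⟨a, b⟩
    refine ⟨fun hab => hsplit a b hab, fun ⟨ha, hb⟩ => ?_⟩
    have := K.mul_mem (show (a, (1 : B)) ∈ K from ha) (show ((1 : A), b) ∈ K from hb)
    simpa using this
  · rintro b ⟨⟨a, b'⟩, hk, rfl⟩
    exact (hsplit a b' hk).2

/-- Fixed points on a transitive set, as a count of conjugators. -/
lemma fx_orbit {P : Type*} [Group P] [Finite P] {X : Type*} [MulAction P X] (x : X) (c : P) :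
    fx (orbit P x) c * Nat.card (stabilizer P x) =
      Nat.card {g : P // g⁻¹ * c * g ∈ stabilizer P x} := by
  have hsub : ∀ g : P, g⁻¹ * c * g ∈ stabilizer P x ↔
      (⟨g • x, mem_orbit x g⟩ : orbit P x) ∈ fixedBy (orbit P x) c := by
    intro g
    rw [mem_stabilizer_iff, mul_smul, mul_smul, inv_smul_eq_iff, MulAction.mem_fixedBy,
      Subtype.ext_iff]
    rfl
  let f : {g : P // g⁻¹ * c * g ∈ stabilizer P x} → fixedBy (orbit P x) c :=
    fun g => ⟨_, (hsub g.1).mp g.2⟩
  have hfs : ∀ y : fixedBy (orbit P x) c, ∃ g : P, g • x = y.1.1 := fun y => y.1.2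
  choose sec hsec using hfs
  have hin : ∀ y, (sec y)⁻¹ * c * sec y ∈ stabilizer P x := fun y => by
    rw [hsub]
    convert y.2 using 1
    exact Subtype.ext (hsec y)
  let e : fixedBy (orbit P x) c × stabilizer P x ≃ {g : P // g⁻¹ * c * g ∈ stabilizer P x} :=
    { toFun := fun p => ⟨sec p.1 * p.2.1, by
        have := (stabilizer P x).mul_mem ((stabilizer P x).mul_mem ((stabilizer P x).inv_mem p.2.2)
          (hin p.1)) p.2.2
        rw [show (sec p.1 * p.2.1)⁻¹ * c * (sec p.1 * p.2.1) =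
          (p.2.1)⁻¹ * ((sec p.1)⁻¹ * c * sec p.1) * p.2.1 by group]
        exact this⟩
      invFun := fun g => (f g, ⟨(sec (f g))⁻¹ * g.1, by
        rw [mem_stabilizer_iff, mul_smul, inv_smul_eq_iff, hsec]⟩)
      left_inv := fun p => by
        have h1 : f ⟨sec p.1 * p.2.1, by
            have := (stabilizer P x).mul_mem ((stabilizer P x).mul_mem ((stabilizer P x).inv_mem p.2.2)
              (hin p.1)) p.2.2
            rw [show (sec p.1 * p.2.1)⁻¹ * c * (sec p.1 * p.2.1) =
              (p.2.1)⁻¹ * ((sec p.1)⁻¹ * c * sec p.1) * p.2.1 by group]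
            exact this⟩ = p.1 := by
          apply Subtype.ext
          apply Subtype.ext
          show (sec p.1 * p.2.1) • x = _
          rw [mul_smul, mem_stabilizer_iff.mp p.2.2, hsec]
        refine Prod.ext h1 (Subtype.ext ?_)
        simp only [h1, inv_mul_cancel_left]
      right_inv := fun g => Subtype.ext (mul_inv_cancel_left _ _) }
  rw [fx, ← Nat.card_prod]
  exact Nat.card_congr e

lemma fx_sum_orbits {P : Type*} [Group P] {X : Type*} [MulAction P X] [Finite X]
    [Fintype (orbitRel.Quotient P X)] (c : P) :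
    fx X c = ∑ o : orbitRel.Quotient P X, fx (orbit P o.out) c := by
  have e : fixedBy X c ≃ Σ o : orbitRel.Quotient P X, fixedBy (orbit P o.out) c :=
    { toFun := fun y => ⟨Quotient.mk'' y.1, ⟨y.1, by
          obtain ⟨g, hg⟩ := Quotient.exact' (Quotient.out_eq' (Quotient.mk'' y.1 : orbitRel.Quotient P X))
          exact ⟨g⁻¹, by rw [show (Quotient.mk'' y.1 : orbitRel.Quotient P X).out = g • y.1 from hg.symm]
                         exact inv_smul_smul g y.1⟩⟩, Subtype.ext y.2⟩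
      invFun := fun s => ⟨s.2.1.1, congrArg Subtype.val s.2.2⟩
      left_inv := fun y => rfl
      right_inv := fun ⟨o, ⟨z, hz⟩, hfix⟩ => by
        have ho : (Quotient.mk'' z : orbitRel.Quotient P X) = o := by
          rw [← Quotient.out_eq' o]
          exact Quotient.sound' hz
        subst ho
        rfl }
  rw [fx, Nat.card_congr e, Nat.card_sigma]
  rfl

lemma card_sum_orbits {P : Type*} [Group P] {X : Type*} [MulAction P X] [Finite X]
    [Fintype (orbitRel.Quotient P X)] :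
    Nat.card X = ∑ o : orbitRel.Quotient P X, Nat.card (orbit P o.out) := by
  rw [← Nat.card_sigma]
  exact Nat.card_congr (MulAction.selfEquivSigmaOrbits P X)

end generic

section SL2

variable {F : Type*} [Field F] [Fintype F]

local notation "⟪" u ", " v "⟫" => Cfsg.sympForm _ F u v

omit [Fintype F] in
lemma sx_one_ne : (H92.sx (1 : F) : SL(2, F)) ≠ 1 := fun h => by
  have h' := congrArg (fun M : SL(2, F) => (M : Matrix (Fin 2) (Fin 2) F) 0 1) h
  simp at h'

omit [Fintype F] in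
lemma sx_trace (h2 : (2 : F) = 0) (t : F) :
    ((H92.sx t : SL(2, F)) : Matrix (Fin 2) (Fin 2) F).trace = 0 := by
  simp only [Matrix.trace_fin_two, H92.sx_00, H92.sx_11]
  linear_combination h2

lemma sl_zero_surjective :
    Function.Surjective (sl (n := 0) (F := F) : SL(2, F) → Matrix.symplecticGroup (Fin (0 + 1)) F) := by
  rw [← MonoidHom.range_eq_top, eq_top_iff, ← closure_transv_eq_top, Subgroup.closure_le]
  rintro _ ⟨v, c, rfl⟩
  have hv : v = ⟪v, (f0 : Fin (0 + 1) ⊕ Fin (0 + 1) → F)⟫ • e0 +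
      ⟪(e0 : Fin (0 + 1) ⊕ Fin (0 + 1) → F), v⟫ • f0 := by
    conv_lhs => rw [decomp v]
    have h0 : down v = 0 := Subsingleton.elim _ _
    rw [h0, map_zero, add_zero]
  set a := ⟪v, (f0 : Fin (0 + 1) ⊕ Fin (0 + 1) → F)⟫
  set b := ⟪(e0 : Fin (0 + 1) ⊕ Fin (0 + 1) → F), v⟫
  rw [hv]
  by_cases ha : a = 0
  · simp only [ha, zero_smul, zero_add, transv_smul]
    exact ⟨H92.sy (-(b * b * c)), by rw [sl, planeHom_sy, neg_neg]⟩
  · refine ⟨H92.sy (-(b / a)) * H92.sx (-(a * a * c)) * (H92.sy (-(b / a)))⁻¹, ?_⟩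
    rw [map_mul, map_mul, map_inv, sl, planeHom_sy, planeHom_sx, neg_neg, neg_neg, conj_transv]
    show transv (act (transv f0 (b / a)) e0) (a * a * c) = _
    rw [act_transv, form_e0_f0, mul_one, ← transv_smul, smul_add, smul_smul, mul_div_cancel₀ _ ha]

lemma card_SL2 : Nat.card SL(2, F) = Fintype.card F * (Fintype.card F ^ 2 - 1) := by
  rw [Nat.card_eq_of_bijective _ ⟨sl_injective (n := 0), sl_zero_surjective⟩, card_sp]
  simp [Nat.card_eq_fintype_card]

/-- Conjugators of an involution into a subgroup. -/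
lemma count_invol (h2 : (2 : F) = 0) (R : Subgroup SL(2, F)) {t : SL(2, F)} (ht1 : t ≠ 1)
    (ht : (t : Matrix (Fin 2) (Fin 2) F).trace = 0) :
    Nat.card {g : SL(2, F) // g⁻¹ * t * g ∈ R} =
      Fintype.card F * Nat.card {r : SL(2, F) // r ∈ R ∧ r ≠ 1 ∧ r * r = 1} := by
  classical
  have htt : t * t = 1 := (mul_self_eq_one_iff_trace h2 ht1).mpr ht
  have hsec : ∀ r : {r : SL(2, F) // r ∈ R ∧ r ≠ 1 ∧ r * r = 1}, ∃ g : SL(2, F), g⁻¹ * t * g = r.1 := by
    intro r
    obtain ⟨c, hc⟩ := isConj_iff.mp (isConj_of_trace_zero h2 ht1 r.2.2.1 ht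
      ((mul_self_eq_one_iff_trace h2 r.2.2.1).mp r.2.2.2))
    exact ⟨c⁻¹, by rw [inv_inv]; exact hc⟩
  choose sec hs using hsec
  set C := Subgroup.centralizer ({t} : Set SL(2, F))
  have hf : ∀ g : {g : SL(2, F) // g⁻¹ * t * g ∈ R}, g.1⁻¹ * t * g.1 ∈ R ∧ g.1⁻¹ * t * g.1 ≠ 1 ∧
      g.1⁻¹ * t * g.1 * (g.1⁻¹ * t * g.1) = 1 := fun g => ⟨g.2, fun h => ht1 (by
        have := congrArg (fun x => g.1 * x * g.1⁻¹) h
        simpa [mul_assoc] using this), by
        rw [show g.1⁻¹ * t * g.1 * (g.1⁻¹ * t * g.1) = g.1⁻¹ * (t * t) * g.1 by group, htt, mul_one,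
          inv_mul_cancel]⟩
  let f : {g : SL(2, F) // g⁻¹ * t * g ∈ R} → {r : SL(2, F) // r ∈ R ∧ r ≠ 1 ∧ r * r = 1} :=
    fun g => ⟨_, hf g⟩
  let e : {g : SL(2, F) // g⁻¹ * t * g ∈ R} ≃ {r : SL(2, F) // r ∈ R ∧ r ≠ 1 ∧ r * r = 1} × C :=
    { toFun := fun g => (f g, ⟨g.1 * (sec (f g))⁻¹, by
        rw [Subgroup.mem_centralizer_singleton_iff]
        have h := hs (f g)
        simp only [f] at h ⊢
        calc g.1 * (sec ⟨_, hf g⟩)⁻¹ * t = g.1 * ((sec ⟨_, hf g⟩)⁻¹ * t * sec ⟨_, hf g⟩) * (sec ⟨_, hf g⟩)⁻¹ := by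
              group
          _ = t * (g.1 * (sec ⟨_, hf g⟩)⁻¹) := by rw [h]; group⟩)
      invFun := fun p => ⟨p.2.1 * sec p.1, by
        have hc := Subgroup.mem_centralizer_singleton_iff.mp p.2.2
        rw [show (p.2.1 * sec p.1)⁻¹ * t * (p.2.1 * sec p.1) = (sec p.1)⁻¹ * (p.2.1⁻¹ * (t * p.2.1)) * sec p.1
          by group, ← hc, inv_mul_cancel_left, hs]
        exact p.1.2.1⟩
      left_inv := fun g => Subtype.ext (inv_mul_cancel_right _ _)
      right_inv := fun p => by
        have hc := Subgroup.mem_centralizer_singleton_iff.mp p.2.2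
        have h1 : ∀ h, f ⟨p.2.1 * sec p.1, h⟩ = p.1 := fun h => Subtype.ext (by
          show (p.2.1 * sec p.1)⁻¹ * t * (p.2.1 * sec p.1) = _
          rw [show (p.2.1 * sec p.1)⁻¹ * t * (p.2.1 * sec p.1) = (sec p.1)⁻¹ * (p.2.1⁻¹ * (t * p.2.1)) * sec p.1
            by group, ← hc, inv_mul_cancel_left, hs])
        refine Prod.ext (h1 _) (Subtype.ext ?_)
        simp only [h1, mul_inv_cancel_right] }
  rw [Nat.card_congr e, Nat.card_prod, card_centralizer_invol h2 ht1 ht, mul_comm]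

end SL2

end Cfsg.Agent.H2.MinIdx
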