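import Cfsg.Agent.H2.MinIdx.EvenHigh
import Cfsg.Agent.H2.MinIdx.EvenTwo
import Cfsg.Agent.H2.MinIdx.OddCase
import Cfsg.Agent.H2.MinIdx.GeomIndex
import Mathlib.LinearAlgebra.Projectivization.Cardinality

/-!
The minimal index of a proper subgroup of `Sp_{2m}(q)` and `PSp_{2m}(q)`, `q ≥ 3`.
-/

set_option autoImplicit false

namespace Cfsg.Agent.H2.MinIdx

open Matrix MulAction

variable {F : Type*} [Field F] [Fintype F]

/-- No transvection group fixes a coset unless it is conjugate into the subgroup. -/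
lemma move_or_full {n : ℕ} (H : Subgroup (Matrix.symplecticGroup (Fin (n + 1)) F)) :
    (∃ p, Full H p) ∨ ∀ (ω : Matrix.symplecticGroup (Fin (n + 1)) F ⧸ H)
      (p : Fin (n + 1) ⊕ Fin (n + 1) → F), p ≠ 0 → ∃ t, transv p t • ω ≠ ω := by
  refine or_iff_not_imp_left.mpr fun hno ω p hp => ?_
  by_contra h
  push Not at h
  obtain ⟨g, rfl⟩ := QuotientGroup.mk_surjective ω
  refine hno ⟨act g⁻¹ p, act_ne_zero _ hp, fun t => ?_⟩
  have h1 : g⁻¹ * (transv p t * g) ∈ H := QuotientGroup.eq.mp (h t).symm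
  rw [show transv (act g⁻¹ p) t = g⁻¹ * transv p t * g⁻¹⁻¹ from (conj_transv g⁻¹ p t).symm, inv_inv,
    mul_assoc]
  exact h1

/-- The minimal index of `Sp_{2n+2}(q)` in even characteristic. -/
theorem sp_bound_even (h2 : (2 : F) = 0) (h4 : 4 ≤ Fintype.card F) : ∀ n : ℕ, 1 ≤ n →
    ∀ H : Subgroup (Matrix.symplecticGroup (Fin (n + 1)) F), H ≠ ⊤ →
      pts (n + 1) (Fintype.card F) ≤ H.index := by
  intro n hn
  induction n, hn using Nat.le_induction with
  | base =>
    intro H hH
    rcases move_or_full H with ⟨p, hp⟩ | hmove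
    · exact full_index_bound le_rfl (by omega) hp hH
    · exact even_two h2 h4 hmove
  | succ j hj IH =>
    intro H hH
    rcases move_or_full H with ⟨p, hp⟩ | hmove
    · exact full_index_bound (by omega) (by omega) hp hH
    · exact even_high h2 hj h4 IH hmove

/-- The minimal index of `Sp_{2n+2}(q)`. -/
theorem sp_bound {n : ℕ} (hn : 1 ≤ n) (hq : 3 ≤ Fintype.card F)
    (hexc : n = 1 → Fintype.card F ≠ 3) (H : Subgroup (Matrix.symplecticGroup (Fin (n + 1)) F))
    (hH : H ≠ ⊤) : pts (n + 1) (Fintype.card F) ≤ H.index := by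
  by_cases h2 : (2 : F) = 0
  · have := FiniteField.even_card_of_char_two (ringChar_eq_two h2)
    exact sp_bound_even h2 (by omega) n hn H hH
  · rcases move_or_full H with ⟨p, hp⟩ | hmove
    · exact full_index_bound hn hq hp hH
    · refine odd_bound h2 hn (fun h1 => ?_) hmove
      have := FiniteField.odd_card_of_char_ne_two (F := F) (fun h => h2 (by
        have h' := ringChar.Nat.cast_ringChar (R := F)
        rw [h] at h'
        exact_mod_cast h'))
      have := hexc h1
      omega

/-- The stabiliser of a point has index the number of points. -/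
theorem psp_point_index (m : ℕ) (hm : 1 ≤ m) :
    ∃ H : Subgroup (Cfsg.PSp m F), H.index = pts m (Fintype.card F) := by
  have hne : (Pi.single (Sum.inl ⟨0, hm⟩) 1 : Fin m ⊕ Fin m → F) ≠ 0 := by simp
  refine ⟨stabilizer (Cfsg.PSp m F) (Projectivization.mk F _ hne), ?_⟩
  rw [index_stabilizer_of_transitive, Projectivization.card_of_finrank F (Fin m ⊕ Fin m → F)
    (n := 2 * m) (by simp [two_mul]), pts, Nat.card_eq_fintype_card]

end Cfsg.Agent.H2.MinIdx
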