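import Cfsg.Agent.H2.MinIdx.Geom

/-!
Orbits of the unipotent radical of the stabiliser of a point, and their invariants.
-/

set_option autoImplicit false

namespace Cfsg.Agent.H2.MinIdx

open Matrix MulAction

variable {n : ℕ} {F : Type*} [Field F]

local notation "⟪" u ", " v "⟫" => Cfsg.sympForm _ F u v

/-- The unipotent radical of the stabiliser of `⟨e0⟩`. -/
def Qgrp (n : ℕ) (F : Type*) [Field F] : Subgroup (Matrix.symplecticGroup (Fin (n + 1)) F) where
  carrier := Set.range fun p : (Fin n ⊕ Fin n → F) × F => qel e0 (up p.1) p.2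
  one_mem' := ⟨0, by simp [qel_zero_zero]⟩
  mul_mem' := by
    rintro _ _ ⟨p, rfl⟩ ⟨r, rfl⟩
    exact ⟨(p.1 + r.1, p.2 + r.2 + Cfsg.sympForm _ F r.1 p.1), (qel_up_mul _ _ _ _).symm⟩
  inv_mem' := by
    rintro _ ⟨p, rfl⟩
    exact ⟨-p, (qel_up_inv _ _).symm⟩

lemma qel_mem (a : Fin n ⊕ Fin n → F) (t : F) : qel e0 (up a) t ∈ Qgrp n F := ⟨(a, t), rfl⟩

lemma transv_mem_Q (t : F) : transv e0 t ∈ Qgrp n F := by
  simpa [qel_zero_vec] using qel_mem (F := F) (n := n) 0 t

lemma transv_qel_comm (a : Fin n ⊕ Fin n → F) (t s : F) :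
    transv e0 t * qel e0 (up a) s = qel e0 (up a) s * transv e0 t := by
  have e : transv e0 t = qel e0 (up (0 : Fin n ⊕ Fin n → F)) t := by rw [map_zero, qel_zero_vec]
  rw [e, qel_up_mul, qel_up_mul]
  simp [fzero_l, fzero_r, add_comm]

lemma transv_incl_comm (l : Matrix.symplecticGroup (Fin n) F) (t : F) :
    transv e0 t * incl l = incl l * transv e0 t := by
  have h := conj_transv (incl l) e0 t
  have h0 : (incl l : Matrix (Fin (n + 1) ⊕ Fin (n + 1)) (Fin (n + 1) ⊕ Fin (n + 1)) F) *ᵥ e0 = e0 :=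
    act_incl_e0 l
  rw [h0, mul_inv_eq_iff_eq_mul] at h
  exact h.symm

lemma incl_normalises (l : Matrix.symplecticGroup (Fin n) F)
    {x : Matrix.symplecticGroup (Fin (n + 1)) F} (hx : x ∈ Qgrp n F) :
    incl l * x * (incl l)⁻¹ ∈ Qgrp n F := by
  obtain ⟨p, rfl⟩ := hx
  rw [incl_qel]; exact qel_mem _ _

lemma tor_normalises (c : Fˣ) {x : Matrix.symplecticGroup (Fin (n + 1)) F} (hx : x ∈ Qgrp n F) :
    tor c * x * (tor c)⁻¹ ∈ Qgrp n F := by
  obtain ⟨p, rfl⟩ := hx
  rw [tor_qel]; exact qel_mem _ _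

variable {Ω : Type*} [MulAction (Matrix.symplecticGroup (Fin (n + 1)) F) Ω]

/-- Transvections with centre `e0` fixing a point. -/
def zSub (ω : Ω) : AddSubgroup F where
  carrier := {t | transv (e0 : Fin (n + 1) ⊕ Fin (n + 1) → F) t • ω = ω}
  zero_mem' := by simp [transv_zero]
  add_mem' {s t} hs ht := by
    show transv (e0 : Fin (n + 1) ⊕ Fin (n + 1) → F) (s + t) • ω = ω
    rw [← transv_mul, mul_smul, show transv e0 t • ω = ω from ht, show transv e0 s • ω = ω from hs]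
  neg_mem' {t} ht := by
    show transv (e0 : Fin (n + 1) ⊕ Fin (n + 1) → F) (-t) • ω = ω
    rw [← transv_inv, inv_smul_eq_iff]
    exact (show transv e0 t • ω = ω from ht).symm

lemma mem_zSub {ω : Ω} {t : F} :
    t ∈ zSub (n := n) (F := F) ω ↔ transv (e0 : Fin (n + 1) ⊕ Fin (n + 1) → F) t • ω = ω := Iff.rfl

/-- Image in the symplectic module of the stabiliser in the radical. -/
def aImg (ω : Ω) : AddSubgroup (Fin n ⊕ Fin n → F) where
  carrier := {a | ∃ t, qel e0 (up a) t • ω = ω}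
  zero_mem' := ⟨0, by simp [qel_zero_zero]⟩
  add_mem' := by
    rintro a b ⟨t, ht⟩ ⟨s, hs⟩
    exact ⟨t + s + Cfsg.sympForm _ F b a, by rw [← qel_up_mul, mul_smul, hs, ht]⟩
  neg_mem' := by
    rintro a ⟨t, ht⟩
    exact ⟨-t, by rw [← qel_up_inv, inv_smul_eq_iff, ht]⟩

lemma mem_aImg {ω : Ω} {a : Fin n ⊕ Fin n → F} :
    a ∈ aImg (n := n) (F := F) ω ↔ ∃ t, qel e0 (up a) t • ω = ω := Iff.rfl

lemma zSub_smul_Q (ω : Ω) {g : Matrix.symplecticGroup (Fin (n + 1)) F} (hg : g ∈ Qgrp n F) :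
    zSub (n := n) (F := F) (g • ω) = zSub (n := n) (F := F) ω := by
  obtain ⟨⟨a, s⟩, rfl⟩ := hg
  ext t
  rw [mem_zSub, mem_zSub, smul_smul, transv_qel_comm, ← smul_smul, smul_left_cancel_iff]

lemma aImg_smul_Q (ω : Ω) {g : Matrix.symplecticGroup (Fin (n + 1)) F} (hg : g ∈ Qgrp n F) :
    aImg (n := n) (F := F) (g • ω) = aImg (n := n) (F := F) ω := by
  obtain ⟨⟨b, s⟩, rfl⟩ := hg
  have key : ∀ a t, ∃ t', qel e0 (up b) s * qel e0 (up a) t * (qel e0 (up b) s)⁻¹ =
      qel e0 (up a) t' := by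
    intro a t
    rw [qel_up_inv, qel_up_mul, qel_up_mul]
    exact ⟨_, by rw [show b + a + -b = a by abel]⟩
  ext a
  simp only [mem_aImg]
  constructor
  · rintro ⟨t, ht⟩
    obtain ⟨t', ht'⟩ := key a t
    have key2 : qel e0 (up (-b)) (-s) * qel e0 (up a) t * qel e0 (up b) s = qel e0 (up a)
        (-s + t + Cfsg.sympForm _ F a (-b) + s + Cfsg.sympForm _ F b (-b + a)) := by
      rw [qel_up_mul, qel_up_mul, show -b + a + b = a by abel]
    refine ⟨-s + t + Cfsg.sympForm _ F a (-b) + s + Cfsg.sympForm _ F b (-b + a), ?_⟩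
    rw [← key2, mul_smul, mul_smul, ht, ← mul_smul, ← qel_up_inv, inv_mul_cancel, one_smul]
  · rintro ⟨t, ht⟩
    obtain ⟨t', ht'⟩ := key a t
    exact ⟨t', by rw [← ht', mul_smul, mul_smul, inv_smul_smul, ht]⟩

lemma mem_zSub_incl (ω : Ω) (l : Matrix.symplecticGroup (Fin n) F) :
    zSub (n := n) (F := F) (incl l • ω) = zSub (n := n) (F := F) ω := by
  ext t
  rw [mem_zSub, mem_zSub, smul_smul, transv_incl_comm, ← smul_smul, smul_left_cancel_iff]

lemma mem_zSub_tor (ω : Ω) (c : Fˣ) (t : F) :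
    (c : F) * c * t ∈ zSub (n := n) (F := F) (tor (n := n) c • ω) ↔ t ∈ zSub (n := n) (F := F) ω := by
  have h := tor_qel (n := n) c 0 t
  simp only [smul_zero, map_zero, qel_zero_vec] at h
  rw [mem_zSub, mem_zSub, ← h, smul_smul, inv_mul_cancel_right, ← smul_smul, smul_left_cancel_iff]

lemma mem_aImg_incl (ω : Ω) (l : Matrix.symplecticGroup (Fin n) F) (a : Fin n ⊕ Fin n → F) :
    act l a ∈ aImg (n := n) (F := F) (incl l • ω) ↔ a ∈ aImg (n := n) (F := F) ω := by
  simp only [mem_aImg]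
  refine exists_congr fun t => ?_
  rw [← incl_qel, smul_smul, inv_mul_cancel_right, ← smul_smul, smul_left_cancel_iff]

lemma mem_aImg_tor (ω : Ω) (c : Fˣ) (a : Fin n ⊕ Fin n → F) :
    (c : F) • a ∈ aImg (n := n) (F := F) (tor (n := n) c • ω) ↔ a ∈ aImg (n := n) (F := F) ω := by
  simp only [mem_aImg]
  constructor
  · rintro ⟨t, ht⟩
    refine ⟨((c : F) * c)⁻¹ * t, ?_⟩
    have h2 := tor_qel (n := n) c a (((c : F) * c)⁻¹ * t)
    rw [mul_inv_cancel_left₀ (mul_ne_zero c.ne_zero c.ne_zero)] at h2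
    rwa [← h2, smul_smul, inv_mul_cancel_right, ← smul_smul, smul_left_cancel_iff] at ht
  · rintro ⟨t, ht⟩
    exact ⟨(c : F) * c * t, by rw [← tor_qel, smul_smul, inv_mul_cancel_right, ← smul_smul, ht]⟩

variable [Fintype F]

/-- The size of an orbit of the radical. -/
theorem card_orbit_Q (ω : Ω) :
    Nat.card (orbit (Qgrp n F) ω) * (Nat.card (zSub (n := n) (F := F) ω) * Nat.card (aImg (n := n) (F := F) ω)) =
      Fintype.card F ^ (2 * n + 1) := by
  classical
  have hQ : Nat.card (Qgrp n F) = Fintype.card F ^ (2 * n + 1) := by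
    have hinj : Function.Injective
        fun p : (Fin n ⊕ Fin n → F) × F => qel (e0 : Fin (n + 1) ⊕ Fin (n + 1) → F) (up p.1) p.2 :=
      fun p r h => Prod.ext (qel_up_inj h).1 (qel_up_inj h).2
    show Nat.card (Set.range _) = _
    rw [Nat.card_range_of_injective hinj, Nat.card_eq_fintype_card]
    simp [pow_succ, two_mul]
  have hc : ∀ a : aImg (n := n) (F := F) ω, ∃ t, qel e0 (up a.1) t • ω = ω := fun a => a.2
  choose τ hτ using hc
  have hshift : ∀ (a : Fin n ⊕ Fin n → F) (t z : F),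
      transv e0 z * qel e0 (up a) t = qel e0 (up a) (z + t) := by
    intro a t z
    rw [show transv e0 z = qel e0 (up (0 : Fin n ⊕ Fin n → F)) z by rw [map_zero, qel_zero_vec],
      qel_up_mul, zero_add, fzero_r, add_zero]
  let f : aImg (n := n) (F := F) ω × zSub (n := n) (F := F) ω → stabilizer (Qgrp n F) ω := fun p =>
    ⟨⟨qel e0 (up p.1.1) (p.2.1 + τ p.1), qel_mem _ _⟩, by
      show qel e0 (up p.1.1) (p.2.1 + τ p.1) • ω = ω
      rw [← hshift, mul_smul, hτ p.1]
      exact p.2.2⟩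
  have hf : Function.Bijective f := by
    constructor
    · rintro ⟨a, z⟩ ⟨b, w⟩ h
      obtain ⟨h1, h2⟩ := qel_up_inj (congrArg (fun x : stabilizer (Qgrp n F) ω => x.1.1) h)
      have hab : a = b := Subtype.ext h1
      subst hab
      exact Prod.ext rfl (Subtype.ext (add_right_cancel h2))
    · rintro ⟨⟨_, ⟨⟨a, t⟩, rfl⟩⟩, hx⟩
      have hx' : qel e0 (up a) t • ω = ω := hx
      refine ⟨(⟨a, t, hx'⟩, ⟨t - τ ⟨a, t, hx'⟩, ?_⟩), ?_⟩
      · have := hshift a (τ ⟨a, t, hx'⟩) (t - τ ⟨a, t, hx'⟩)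
        rw [sub_add_cancel] at this
        rw [mem_zSub]
        calc _ = transv e0 (t - τ ⟨a, t, hx'⟩) • qel e0 (up a) (τ ⟨a, t, hx'⟩) • ω := by
              rw [hτ ⟨a, t, hx'⟩]
          _ = ω := by rw [← mul_smul, this, hx']
      · simp [f]
  rw [mul_comm (Nat.card (zSub (n := n) (F := F) ω)), ← Nat.card_prod, Nat.card_eq_of_bijective f hf, ← hQ,
    ← Nat.card_prod]
  exact Nat.card_congr (MulAction.orbitProdStabilizerEquivGroup (Qgrp n F) ω)

/-- Elements of `Sp_{2n}` keeping the orbit of the radical. -/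
def keep (ω : Ω) : Subgroup (Matrix.symplecticGroup (Fin n) F) where
  carrier := {l | ∃ g ∈ Qgrp n F, g • incl l • ω = ω}
  one_mem' := ⟨1, Subgroup.one_mem _, by simp⟩
  mul_mem' := by
    rintro l k ⟨g, hg, hl⟩ ⟨h, hh, hk⟩
    refine ⟨g * (incl l * h * (incl l)⁻¹), (Qgrp n F).mul_mem hg (incl_normalises l hh), ?_⟩
    rw [map_mul, smul_smul, show g * (incl l * h * (incl l)⁻¹) * (incl l * incl k) =
      g * incl l * (h * incl k) by group, mul_smul, mul_smul, mul_smul, hk, hl]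
  inv_mem' := by
    rintro l ⟨g, hg, hl⟩
    refine ⟨incl l⁻¹ * g⁻¹ * (incl l⁻¹)⁻¹, incl_normalises _ ((Qgrp n F).inv_mem hg), ?_⟩
    rw [smul_smul, map_inv, inv_inv, show (incl l)⁻¹ * g⁻¹ * incl l * (incl l)⁻¹ =
      (g * incl l)⁻¹ by group, inv_smul_eq_iff, mul_smul, hl]

omit [Fintype F] in
lemma mem_keep {ω : Ω} {l : Matrix.symplecticGroup (Fin n) F} :
    l ∈ keep (n := n) (F := F) ω ↔ ∃ g ∈ Qgrp n F, g • incl l • ω = ω := Iff.rfl

/-- Scalars acting on the transvections fixing a point. -/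
def scales (Z : AddSubgroup F) : Set (AddSubgroup F) :=
  Set.range fun c : Fˣ => Z.map (AddMonoidHom.mulLeft ((c : F) * c))

/-- Counting orbits of the radical by their invariants. -/
theorem invariants_bound [Finite Ω] (ω : Ω) :
    Nat.card (scales (zSub (n := n) (F := F) ω)) * (keep (n := n) (F := F) ω).index * Fintype.card F ^ (2 * n + 1) ≤
      Nat.card Ω * (Nat.card (zSub (n := n) (F := F) ω) * Nat.card (aImg (n := n) (F := F) ω)) := by
  classical
  have hsc : ∀ i : scales (zSub (n := n) (F := F) ω), ∃ c : Fˣ,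
      (zSub (n := n) (F := F) ω).map (AddMonoidHom.mulLeft ((c : F) * c)) = i.1 := fun i => i.2
  choose cs hcs using hsc
  let R := (Matrix.symplecticGroup (Fin n) F) ⧸ keep (n := n) (F := F) ω
  let f : scales (zSub (n := n) (F := F) ω) × R → Ω := fun p =>
    tor (n := n) (cs p.1) • incl p.2.out • ω
  have hz : ∀ p, zSub (n := n) (F := F) (f p) = p.1.1 := by
    intro p
    rw [← hcs p.1]
    ext t
    simp only [f, AddSubgroup.mem_map, AddMonoidHom.coe_mulLeft]
    constructor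
    · intro ht
      refine ⟨((cs p.1 : F) * cs p.1)⁻¹ * t, ?_,
        mul_inv_cancel_left₀ (mul_ne_zero (cs p.1).ne_zero (cs p.1).ne_zero) _⟩
      refine (SetLike.ext_iff.mp (mem_zSub_incl ω p.2.out) _).mp ?_
      rw [← mem_zSub_tor _ (cs p.1),
        mul_inv_cancel_left₀ (mul_ne_zero (cs p.1).ne_zero (cs p.1).ne_zero)]
      exact ht
    · rintro ⟨s, hs, rfl⟩
      rwa [mem_zSub_tor, mem_zSub_incl]
  have hsame : ∀ p r, f r ∈ orbit (Qgrp n F) (f p) → p = r := by
    rintro ⟨i, x⟩ ⟨j, y⟩ ⟨g, hg⟩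
    have hij : i = j := by
      apply Subtype.ext
      rw [← hz (i, x), ← hz (j, y), ← hg]
      exact (zSub_smul_Q _ g.2).symm
    subst hij
    refine Prod.ext rfl ?_
    simp only [f] at hg
    change (g : Matrix.symplecticGroup (Fin (n + 1)) F) • tor (cs i) • incl x.out • ω = _ at hg
    set τ := tor (n := n) (cs i)
    have hg' : (τ⁻¹ * g * τ) • incl x.out • ω = incl y.out • ω := by
      rw [mul_smul, mul_smul, hg, inv_smul_smul]
    have hmem : τ⁻¹ * g * τ ∈ Qgrp n F := by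
      obtain ⟨g, p, rfl⟩ := g
      have h2 := tor_qel (n := n) (cs i) (((cs i : F))⁻¹ • p.1) (((cs i : F) * cs i)⁻¹ * p.2)
      rw [mul_inv_cancel_left₀ (mul_ne_zero (cs i).ne_zero (cs i).ne_zero), smul_inv_smul₀
        (cs i).ne_zero] at h2
      show τ⁻¹ * qel e0 (up p.1) p.2 * τ ∈ Qgrp n F
      rw [← h2]
      simp only [τ, mul_assoc, inv_mul_cancel, mul_one, inv_mul_cancel_left]
      exact qel_mem _ _
    rw [← QuotientGroup.out_eq' x, ← QuotientGroup.out_eq' y, QuotientGroup.eq, mem_keep]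
    refine ⟨(incl x.out)⁻¹ * (τ⁻¹ * g * τ)⁻¹ * incl x.out, ?_, ?_⟩
    · simpa [map_inv] using incl_normalises x.out⁻¹ ((Qgrp n F).inv_mem hmem)
    · rw [map_mul, map_inv, smul_smul, show (incl x.out)⁻¹ * (τ⁻¹ * g * τ)⁻¹ * incl x.out *
        ((incl x.out)⁻¹ * incl y.out) = (incl x.out)⁻¹ * ((τ⁻¹ * g * τ)⁻¹ * incl y.out) by group,
        mul_smul, inv_smul_eq_iff, mul_smul, inv_smul_eq_iff]
      exact hg'.symm
  let F' : (Σ p, orbit (Qgrp n F) (f p)) → Ω := fun s => s.2.1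
  have hF : Function.Injective F' := by
    rintro ⟨p, x, hx⟩ ⟨r, y, hy⟩ (h : x = y)
    subst h
    obtain rfl := hsame p r (by
      rw [← orbit_eq_iff.mpr hx, orbit_eq_iff.mpr hy]; exact mem_orbit_self _)
    rfl
  have key := Nat.card_le_card_of_injective F' hF
  have := Fintype.ofFinite (scales (zSub (n := n) (F := F) ω) × R)
  rw [Nat.card_sigma] at key
  have hz' : ∀ p, Nat.card (zSub (n := n) (F := F) (f p)) = Nat.card (zSub (n := n) (F := F) ω) := by
    intro p
    rw [hz p, ← hcs p.1]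
    exact Nat.card_congr ((zSub (n := n) (F := F) ω).equivMapOfInjective _
      (mul_right_injective₀ (mul_ne_zero (cs p.1).ne_zero (cs p.1).ne_zero))).toEquiv.symm
  have ha' : ∀ p, Nat.card (aImg (n := n) (F := F) (f p)) = Nat.card (aImg (n := n) (F := F) ω) := by
    intro p
    refine (Nat.card_congr (Equiv.subtypeEquiv
      (((MulAction.toPerm p.2.out : Equiv.Perm (Fin n ⊕ Fin n → F)).trans
        (MulAction.toPerm (cs p.1)))) fun a => ?_)).symm
    show a ∈ aImg (n := n) (F := F) ω ↔ (cs p.1 : F) • act p.2.out a ∈ aImg (n := n) (F := F) (f p)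
    rw [mem_aImg_tor, mem_aImg_incl]
  calc Nat.card (scales (zSub (n := n) (F := F) ω)) * (keep (n := n) (F := F) ω).index * Fintype.card F ^ (2 * n + 1)
      = ∑ p, Nat.card (orbit (Qgrp n F) (f p)) *
          (Nat.card (zSub (n := n) (F := F) ω) * Nat.card (aImg (n := n) (F := F) ω)) := by
        rw [Finset.sum_congr rfl fun p _ => (?_ : Nat.card (orbit (Qgrp n F) (f p)) *
          (Nat.card (zSub (n := n) (F := F) ω) * Nat.card (aImg (n := n) (F := F) ω)) = Fintype.card F ^ (2 * n + 1)),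
          Finset.sum_const, Finset.card_univ,
          ← Nat.card_eq_fintype_card (α := scales (zSub (n := n) (F := F) ω) × R), Nat.card_prod,
          smul_eq_mul]
        · rfl
        · rw [← hz' p, ← ha' p]; exact card_orbit_Q _
    _ ≤ _ := by rw [← Finset.sum_mul]; exact Nat.mul_le_mul_right _ key

end Cfsg.Agent.H2.MinIdx
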