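import Cfsg.Agent.H2.MinIdx.Radical
import Cfsg.Agent.H2.Card

/-!
Counting lemmas: scalings of additive subgroups of a field, annihilators, transitive coverings.
-/

set_option autoImplicit false

namespace Cfsg.Agent.H2.MinIdx

open Matrix MulAction

variable {n : ℕ} {F : Type*} [Field F]

local notation "⟪" u ", " v "⟫" => Cfsg.sympForm _ F u v

/-- The scalars preserving an additive subgroup. -/
def multField [Finite F] (Z : AddSubgroup F) : Subfield F where
  carrier := {c | ∀ z ∈ Z, c * z ∈ Z}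
  mul_mem' {a b} ha hb z hz := by rw [mul_assoc]; exact ha _ (hb z hz)
  one_mem' z hz := by rwa [one_mul]
  add_mem' {a b} ha hb z hz := by rw [add_mul]; exact Z.add_mem (ha z hz) (hb z hz)
  zero_mem' z _ := by rw [zero_mul]; exact Z.zero_mem
  neg_mem' {a} ha z hz := by rw [neg_mul]; exact Z.neg_mem (ha z hz)
  inv_mem' a ha := by
    intro z hz
    by_cases h0 : a = 0
    · simp [h0]
    · have hinj : Function.Injective fun w : Z => (⟨a * w.1, ha _ w.2⟩ : Z) := fun v w h =>
        Subtype.ext (mul_left_cancel₀ h0 (congrArg Subtype.val h))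
      obtain ⟨w, hw⟩ := (Finite.injective_iff_surjective.mp hinj) ⟨z, hz⟩
      have h2 : a * w.1 = z := congrArg Subtype.val hw
      rw [← h2, inv_mul_cancel_left₀ h0]
      exact w.2

variable [Fintype F]

/-- Numerical facts about a proper non-zero additive subgroup and its scalars. -/
theorem multField_facts (Z : AddSubgroup F) (h0 : Z ≠ ⊥) (h1 : Z ≠ ⊤) :
    2 ≤ Nat.card (multField Z) ∧ Nat.card (multField Z) * Nat.card (multField Z) ≤ Fintype.card F ∧
      Nat.card Z * Nat.card (multField Z) ≤ Fintype.card F := by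
  set K := multField Z
  let Z' : Submodule K F :=
    { Z with smul_mem' := fun c z hz => by rw [Subfield.smul_def, smul_eq_mul]; exact c.2 z hz }
  have hq0 : 2 ≤ Nat.card K := Finite.one_lt_card
  have hF : Fintype.card F = Nat.card K ^ Module.finrank K F := by
    rw [← Nat.card_eq_fintype_card]; exact Module.natCard_eq_pow_finrank
  have hZ : Nat.card Z = Nat.card K ^ Module.finrank K Z' := by
    rw [← Module.natCard_eq_pow_finrank]; exact Nat.card_congr (Equiv.refl _)
  have hlt : Module.finrank K Z' < Module.finrank K F :=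
    Submodule.finrank_lt fun h => h1 (eq_top_iff.mpr fun x _ =>
      show x ∈ Z' from h ▸ Submodule.mem_top)
  have hd : 2 ≤ Module.finrank K F := by
    have hz0 : Module.finrank K Z' ≠ 0 := fun h => h0 (eq_bot_iff.mpr fun x hx => by
      have : x ∈ Z' := hx
      rw [Submodule.finrank_eq_zero.mp h, Submodule.mem_bot] at this
      simpa using this)
    omega
  refine ⟨hq0, ?_, ?_⟩
  · rw [hF, ← pow_two]; exact Nat.pow_le_pow_right (by omega) hd
  · rw [hZ, hF, ← pow_succ]; exact Nat.pow_le_pow_right (by omega) hlt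

/-- The number of scalings, multiplied by a bound on the stabiliser, is at least `q - 1`. -/
theorem card_scales_mul (Z : AddSubgroup F) :
    Fintype.card F - 1 ≤
        Nat.card (scales Z) * (2 * (Nat.card (multField Z) - 1)) ∧
      ((2 : F) = 0 → Fintype.card F - 1 ≤ Nat.card (scales Z) * (Nat.card (multField Z) - 1)) := by
  classical
  set K := multField Z
  let f : Fˣ → scales Z := fun c => ⟨_, Set.mem_range_self c⟩
  have hK : (Finset.univ.filter fun x : F => x ≠ 0 ∧ x ∈ K).card = Nat.card K - 1 := by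
    have h : Finset.univ.filter (fun x : F => x ≠ 0 ∧ x ∈ K) =
        (Finset.univ.filter fun x : F => x ∈ K).erase 0 := by ext; simp
    rw [h, Finset.card_erase_of_mem (by simp), Nat.card_eq_fintype_card, Fintype.card_subtype]
  have hfib : ∀ (e : ℕ), (∀ k : F, k ≠ 0 → (Finset.univ.filter fun c : Fˣ => (c : F) * c = k).card ≤ e) →
      Fintype.card F - 1 ≤ Nat.card (scales Z) * (e * (Nat.card K - 1)) := by
    intro e he
    have := Fintype.ofFinite (scales Z)
    rw [← Fintype.card_units, Nat.card_eq_fintype_card, mul_comm, ← Finset.card_univ,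
      ← Finset.card_univ]
    refine Finset.card_le_mul_card_image_of_maps_to (f := f) (fun _ _ => Finset.mem_univ _) _ ?_
    intro i _
    rcases Finset.eq_empty_or_nonempty (Finset.univ.filter fun c => f c = i) with h | ⟨c₀, hc₀⟩
    · simp [h]
    rw [Finset.mem_filter] at hc₀
    have hmaps : ∀ c ∈ Finset.univ.filter (fun c => f c = i),
        ((c / c₀ : Fˣ) : F) * ((c / c₀ : Fˣ) : F) ∈
          Finset.univ.filter fun x : F => x ≠ 0 ∧ x ∈ K := by
      intro c hc
      rw [Finset.mem_filter] at hc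
      refine Finset.mem_filter.mpr ⟨Finset.mem_univ _, mul_ne_zero (Units.ne_zero _) (Units.ne_zero _),
        fun z hz => ?_⟩
      have heq : Z.map (AddMonoidHom.mulLeft ((c : F) * c)) =
          Z.map (AddMonoidHom.mulLeft ((c₀ : F) * c₀)) :=
        congrArg Subtype.val (hc.2.trans hc₀.2.symm)
      have hm : (c : F) * c * z ∈ Z.map (AddMonoidHom.mulLeft ((c : F) * c)) := ⟨z, hz, rfl⟩
      rw [heq] at hm
      obtain ⟨w, hw, hwz⟩ := hm
      simp only [AddMonoidHom.coe_mulLeft] at hwz
      have hd : ((c / c₀ : Fˣ) : F) * c₀ = c := by rw [← Units.val_mul, div_mul_cancel]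
      have hw' : ((c / c₀ : Fˣ) : F) * ((c / c₀ : Fˣ) : F) * z = w := by
        refine mul_left_cancel₀ (mul_ne_zero c₀.ne_zero c₀.ne_zero) ?_
        linear_combination -hwz + z * (((c / c₀ : Fˣ) : F) * c₀ + c) * hd
      rw [hw']
      exact hw
    have hbij : (Finset.univ.filter fun c => f c = i).card ≤
        (e * (Finset.univ.filter fun x : F => x ≠ 0 ∧ x ∈ K).card) := by
      refine Finset.card_le_mul_card_image_of_maps_to hmaps _ fun k hk => ?_
      rw [Finset.mem_filter] at hk
      refine le_trans (Finset.card_le_card_of_injOn (fun c => c / c₀) ?_ ?_) (he k hk.2.1)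
      · intro c hc
        simp only [Finset.coe_filter, Set.mem_setOf_eq, Finset.mem_univ, true_and] at hc ⊢
        exact hc.2
      · intro a _ b _ hab
        exact (div_left_inj).mp hab
    rw [hK] at hbij
    exact hbij
  refine ⟨hfib 2 fun k hk => ?_, fun h2 => ?_⟩
  · by_contra hgt
    obtain ⟨a, b, c, ha, hb, hc, hab, hac, hbc⟩ := Finset.two_lt_card_iff.mp (lt_of_not_ge hgt)
    rw [Finset.mem_filter] at ha hb hc
    rcases mul_self_eq_mul_self_iff.mp (hb.2.trans ha.2.symm) with h | h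
    · exact hab (Units.ext h.symm)
    rcases mul_self_eq_mul_self_iff.mp (hc.2.trans ha.2.symm) with h' | h'
    · exact hac (Units.ext h'.symm)
    exact hbc (Units.ext (h.trans h'.symm))
  · simpa using hfib 1 fun k hk => Finset.card_le_one.mpr fun a ha b hb => by
      rw [Finset.mem_filter] at ha hb
      apply Units.ext
      have h : ((a : F) - b) * ((a : F) - b) = 0 := by
        linear_combination ha.2 + hb.2 - 2 * hb.2 + ((b : F) * b - (a : F) * b) * h2
      exact sub_eq_zero.mp (mul_self_eq_zero.mp h)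

/-- Scalings in any characteristic. -/
theorem scales_bound (Z : AddSubgroup F) (h1 : Z ≠ ⊤) :
    (Fintype.card F + 1) * Nat.card Z ≤ 2 * Nat.card (scales Z) * Fintype.card F := by
  have hq : 1 < Fintype.card F := Fintype.one_lt_card
  have : Nonempty (scales Z) := ⟨⟨_, Set.mem_range_self 1⟩⟩
  have hs : 0 < Nat.card (scales Z) := Nat.card_pos
  by_cases h0 : Z = ⊥
  · subst h0
    rw [AddSubgroup.card_bot, mul_one]
    calc Fintype.card F + 1 ≤ 2 * Fintype.card F := by omega
      _ ≤ _ := Nat.mul_le_mul_right _ (Nat.le_mul_of_pos_right _ hs)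
  obtain ⟨hk, hkk, hZk⟩ := multField_facts Z h0 h1
  obtain ⟨hs2, -⟩ := card_scales_mul Z
  obtain ⟨j, hj⟩ := Nat.exists_eq_add_of_le hk
  obtain ⟨r, hr⟩ := Nat.exists_eq_add_of_le hq.le
  refine Nat.le_of_mul_le_mul_right ?_ (show 0 < Nat.card (multField Z) - 1 by omega)
  rw [hj, show 2 + j - 1 = j + 1 by omega] at hs2 ⊢
  rw [hj] at hkk hZk
  rw [hr] at hs2 hkk hZk hq ⊢
  rw [show 1 + r - 1 = r by omega] at hs2
  have h3 : (1 + r + 1) * (j + 1) ≤ r * (2 + j) := by
    nlinarith [Nat.zero_le j]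
  calc (1 + r + 1) * Nat.card Z * (j + 1) = Nat.card Z * ((1 + r + 1) * (j + 1)) := by ring
    _ ≤ Nat.card Z * (r * (2 + j)) := Nat.mul_le_mul_left _ h3
    _ = r * (Nat.card Z * (2 + j)) := by ring
    _ ≤ Nat.card (scales Z) * (2 * (j + 1)) * (1 + r) := Nat.mul_le_mul hs2 hZk
    _ = _ := by ring

/-- Scalings in characteristic two. -/
theorem scales_bound_two (h2 : (2 : F) = 0) (Z : AddSubgroup F) (h0 : Z ≠ ⊥) (h1 : Z ≠ ⊤) :
    (Fintype.card F + 2) * Nat.card Z ≤ Nat.card (scales Z) * Fintype.card F := by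
  have hq : 1 < Fintype.card F := Fintype.one_lt_card
  obtain ⟨hk, hkk, hZk⟩ := multField_facts Z h0 h1
  have hs2 := (card_scales_mul Z).2 h2
  obtain ⟨j, hj⟩ := Nat.exists_eq_add_of_le hk
  obtain ⟨r, hr⟩ := Nat.exists_eq_add_of_le hq.le
  refine Nat.le_of_mul_le_mul_right ?_ (show 0 < Nat.card (multField Z) - 1 by omega)
  rw [hj, show 2 + j - 1 = j + 1 by omega] at hs2 ⊢
  rw [hj] at hkk hZk
  rw [hr] at hs2 hkk hZk hq ⊢
  rw [show 1 + r - 1 = r by omega] at hs2
  have h3 : (1 + r + 2) * (j + 1) ≤ r * (2 + j) := by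
    nlinarith [Nat.le_mul_self j]
  calc (1 + r + 2) * Nat.card Z * (j + 1) = Nat.card Z * ((1 + r + 2) * (j + 1)) := by ring
    _ ≤ Nat.card Z * (r * (2 + j)) := Nat.mul_le_mul_left _ h3
    _ = r * (Nat.card Z * (2 + j)) := by ring
    _ ≤ Nat.card (scales Z) * (j + 1) * (1 + r) := Nat.mul_le_mul hs2 hZk
    _ = _ := by ring

/-- A subgroup stabilising a non-empty subset of a transitive set. -/
theorem card_le_index_mul {G X : Type*} [Group G] [Finite G] [MulAction G X] [IsPretransitive G X]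
    (K : Subgroup G) (S : Set X) [Finite S] (hS : S.Nonempty) (hK : ∀ k ∈ K, ∀ x ∈ S, k • x ∈ S) :
    Nat.card X ≤ K.index * Nat.card S := by
  obtain ⟨s0, hs0⟩ := hS
  have hsurj : Function.Surjective fun p : (G ⧸ K) × S => p.1.out • p.2.1 := by
    intro x
    obtain ⟨g, hg⟩ := exists_smul_eq G s0 x
    refine ⟨(QuotientGroup.mk g, ⟨((QuotientGroup.mk g : G ⧸ K).out⁻¹ * g) • s0,
      hK _ ?_ _ hs0⟩), ?_⟩
    · rw [← QuotientGroup.eq, QuotientGroup.out_eq']
    · simp only [smul_smul, mul_inv_cancel_left, hg]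
  have := Nat.card_le_card_of_surjective _ hsurj
  rwa [Nat.card_prod] at this

/-- Functionals orthogonal to an additive subgroup. -/
def annih {R : Type*} [AddCommGroup R] (φ : F →+ R) (A : AddSubgroup (Fin n ⊕ Fin n → F)) :
    AddSubgroup (Fin n ⊕ Fin n → F) where
  carrier := {c | ∀ a ∈ A, φ ⟪c, a⟫ = 0}
  zero_mem' a _ := by rw [fzero_l, map_zero]
  add_mem' hb hc a ha := by rw [fadd_l, map_add, hb a ha, hc a ha, add_zero]
  neg_mem' hb a ha := by rw [fneg_l, map_neg, hb a ha, neg_zero]

/-- The order of the annihilator. -/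
theorem card_annih {p : ℕ} [Fact p.Prime] [CharP F p] (φ : F →+ ZMod p) (hφ : φ ≠ 0)
    (A : AddSubgroup (Fin n ⊕ Fin n → F)) :
    Nat.card (annih φ A) * Nat.card A = Fintype.card F ^ (2 * n) := by
  let _ : Algebra (ZMod p) F := ZMod.algebra F p
  let A' : Submodule (ZMod p) (Fin n ⊕ Fin n → F) := AddSubgroup.toZModSubmodule p A
  let φ' : F →ₗ[ZMod p] ZMod p := φ.toZModLinearMap p
  let b : LinearMap.BilinForm (ZMod p) (Fin n ⊕ Fin n → F) :=
    ((sympBilin n F).restrictScalars₁₂ (ZMod p) (ZMod p)).compr₂ φ'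
  have hb : ∀ x y, b x y = φ ⟪x, y⟫ := fun x y => by
    show φ (sympBilin n F x y) = _
    rw [sympBilin_apply]
  obtain ⟨t, ht⟩ : ∃ t, φ t ≠ 0 := by
    by_contra h; push Not at h; exact hφ (AddMonoidHom.ext h)
  have hnd : b.Nondegenerate := by
    constructor
    · intro x hx
      by_contra hx0
      obtain ⟨v, hv⟩ : ∃ v, ⟪x, v⟫ ≠ 0 := by
        by_contra h; push Not at h; exact hx0 (sympForm_eq_zero_forall h)
      have := hx ((t / ⟪x, v⟫) • v)
      rw [hb, fsmul_r, div_mul_cancel₀ _ hv] at this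
      exact ht this
    · intro x hx
      by_contra hx0
      obtain ⟨v, hv⟩ := exists_sympForm_ne hx0
      have := hx ((t / ⟪v, x⟫) • v)
      rw [hb, fsmul_l, div_mul_cancel₀ _ hv] at this
      exact ht this
  have hrefl : b.IsRefl := fun x y h => by
    rw [hb] at h ⊢
    rw [sympForm_swap, map_neg, h, neg_zero]
  have e : Nat.card (annih φ A) = Nat.card (b.orthogonal A') := by
    refine Nat.card_congr (Equiv.subtypeEquivRight fun c => ?_)
    show (∀ a ∈ A, φ ⟪c, a⟫ = 0) ↔ ∀ a ∈ A', b a c = 0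
    refine forall₂_congr fun a _ => ?_
    rw [hb, sympForm_swap c a, map_neg, neg_eq_zero]
  rw [e, show Nat.card A = Nat.card A' from rfl,
    Module.natCard_eq_pow_finrank (K := ZMod p) (V := b.orthogonal A'),
    Module.natCard_eq_pow_finrank (K := ZMod p) (V := A'), ← pow_add,
    LinearMap.BilinForm.finrank_orthogonal hnd,
    Nat.sub_add_cancel (Submodule.finrank_le A'),
    ← Module.natCard_eq_pow_finrank]
  simp [two_mul]

/-- A non-zero functional vanishing on a proper additive subgroup. -/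
theorem exists_functional {p : ℕ} [Fact p.Prime] [CharP F p] (Z : AddSubgroup F) (h1 : Z ≠ ⊤) :
    ∃ φ : F →+ ZMod p, φ ≠ 0 ∧ ∀ z ∈ Z, φ z = 0 := by
  let _ : Algebra (ZMod p) F := ZMod.algebra F p
  obtain ⟨x, hx⟩ : ∃ x, x ∉ Z := by
    by_contra h; push Not at h; exact h1 (eq_top_iff.mpr fun x _ => h x)
  obtain ⟨f, hf, hfZ⟩ := Submodule.exists_dual_map_eq_bot_of_notMem
    (p := AddSubgroup.toZModSubmodule p Z) (x := x) hx inferInstance
  refine ⟨f.toAddMonoidHom, fun h => hf (by simpa using DFunLike.congr_fun h x), fun z hz => ?_⟩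
  have : f z ∈ (AddSubgroup.toZModSubmodule p Z).map f := ⟨z, hz, rfl⟩
  rwa [hfZ, Submodule.mem_bot] at this

end Cfsg.Agent.H2.MinIdx
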