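import Cfsg.Agent.H2.MinIdx.EvenRoot
import Cfsg.Agent.H2.MinIdx.ProductOrbit
import Cfsg.Agent.H2.Simple

/-!
The action of `Sp₂ × Sp_{2n}` and of `Sp₂ × Sp₂` inside the symplectic group in characteristic two.
-/

set_option autoImplicit false

namespace Cfsg.Agent.H2.MinIdx

open Matrix MulAction
open scoped MatrixGroups

variable {n : ℕ} {F : Type*} [Field F] [Fintype F]

local notation "⟪" u ", " v "⟫" => Cfsg.sympForm _ F u v

/-- A normal subgroup of a symplectic group in characteristic two. -/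
theorem normal_sp {m : ℕ} (h2 : (2 : F) = 0) (hm : 1 ≤ m)
    (hperf : commutator (Matrix.symplecticGroup (Fin m) F) = ⊤)
    (N : Subgroup (Matrix.symplecticGroup (Fin m) F)) [N.Normal] : N = ⊥ ∨ N = ⊤ := by
  classical
  have hc : Subgroup.center (Matrix.symplecticGroup (Fin m) F) = ⊥ := by
    rw [← Subgroup.card_eq_one, card_center_sp hm, Nat.card_eq_fintype_card]
    have hev : Fintype.card F % 2 = 0 := FiniteField.even_card_of_char_two (ringChar_eq_two h2)
    have hodd : Odd (Fintype.card F - 1) := by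
      have := Fintype.one_lt_card (α := F)
      exact Nat.odd_iff.mpr (by omega)
    exact Nat.coprime_two_left.mpr hodd
  have := psp_isSimpleGroup_of hm hperf
  let π := QuotientGroup.mk' (Subgroup.center (Matrix.symplecticGroup (Fin m) F))
  have hinj : Function.Injective π := by
    rw [← MonoidHom.ker_eq_bot_iff, QuotientGroup.ker_mk', hc]
  have hN : (N.map π).Normal := Subgroup.Normal.map inferInstance π (QuotientGroup.mk'_surjective _)
  rcases hN.eq_bot_or_eq_top with h | h
  · exact Or.inl ((Subgroup.map_eq_bot_iff_of_injective N hinj).mp h)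
  · refine Or.inr (Subgroup.map_injective hinj ?_)
    rw [h, Subgroup.map_top_of_surjective π (QuotientGroup.mk'_surjective _)]

/-- A normal subgroup of `SL₂(2^f)`, `f ≥ 2`. -/
theorem normal_SL2 (h2 : (2 : F) = 0) (h4 : 4 ≤ Fintype.card F) (N : Subgroup SL(2, F)) [N.Normal] :
    N = ⊥ ∨ N = ⊤ := by
  let e := sl (n := 0) (F := F)
  have hN : (N.map e).Normal := Subgroup.Normal.map inferInstance e sl_zero_surjective
  rcases normal_sp h2 le_rfl (commutator_sp_eq_top (Or.inr (Or.inr h4))) (N.map e) with h | h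
  · exact Or.inl ((Subgroup.map_eq_bot_iff_of_injective N sl_injective).mp h)
  · refine Or.inr (Subgroup.map_injective (sl_injective (n := 0)) ?_)
    rw [h, Subgroup.map_top_of_surjective e sl_zero_surjective]

omit [Fintype F] in
lemma neg_two_zero (h2 : (2 : F) = 0) (a : F) : -a = a := by linear_combination -a * h2

lemma sl_sx (h2 : (2 : F) = 0) (t : F) :
    (sl (H92.sx t) : Matrix.symplecticGroup (Fin (n + 1)) F) = transv e0 t := by
  rw [sl, planeHom_sx, neg_two_zero h2]

variable {Ω : Type*} [MulAction (Matrix.symplecticGroup (Fin (n + 1)) F) Ω]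

/-- The first Levi factor at a point. -/
noncomputable def slStab (ω : Ω) : Subgroup SL(2, F) :=
  (stabilizer (Matrix.symplecticGroup (Fin (n + 1)) F) ω).comap sl

lemma mem_slStab {ω : Ω} {g : SL(2, F)} :
    g ∈ slStab (n := n) ω ↔ (sl g : Matrix.symplecticGroup (Fin (n + 1)) F) • ω = ω := Iff.rfl

lemma sx_surj_centralizer (h2 : (2 : F) = 0) {x : SL(2, F)}
    (hx : x ∈ Subgroup.centralizer ({H92.sx (1 : F)} : Set SL(2, F))) : ∃ s, H92.sx s = x := by
  let f : F → Subgroup.centralizer ({H92.sx (1 : F)} : Set SL(2, F)) := fun s =>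
    ⟨H92.sx s, Subgroup.mem_centralizer_singleton_iff.mpr (by
      rw [← H92.sx_add, ← H92.sx_add, add_comm])⟩
  have hf : Function.Injective f := fun s r h => by
    have := congrArg (fun z => ((z.1 : SL(2, F)) : Matrix (Fin 2) (Fin 2) F) 0 1) h
    simpa [f] using this
  obtain ⟨s, hs⟩ := ((Nat.bijective_iff_injective_and_card f).mpr ⟨hf, by
    rw [card_centralizer_invol h2 sx_one_ne (sx_trace h2 1), Nat.card_eq_fintype_card]⟩).2 ⟨x, hx⟩
  exact ⟨s, congrArg Subtype.val hs⟩

/-- The `2`-subgroups of the first Levi factor at a point. -/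
theorem slStab_small [Finite Ω] (h2 : (2 : F) = 0)
    (hle : ∀ ω : Ω, Nat.card (zSub (n := n) (F := F) ω) ≤ 2) (ω : Ω) (P : Subgroup SL(2, F))
    (hP : P ≤ slStab (n := n) ω) (hPG : IsPGroup 2 P) : Nat.card P ≤ 2 := by
  classical
  by_cases hbot : P = ⊥
  · simp [hbot]
  have : Nontrivial P := (Subgroup.nontrivial_iff_ne_bot P).mpr hbot
  have := hPG.center_nontrivial
  obtain ⟨⟨z, hzc⟩, hz⟩ := exists_ne (1 : Subgroup.center P)
  -- an involution in the centre
  obtain ⟨k, hk⟩ := hPG z
  have hz1 : z ≠ 1 := fun h => hz (Subtype.ext h)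
  obtain ⟨t, htc, ht1, htt⟩ : ∃ t : P, t ∈ Subgroup.center P ∧ t ≠ 1 ∧ t * t = 1 := by
    have hex : ∃ j, z ^ 2 ^ j = 1 := ⟨k, hk⟩
    have hj0 : Nat.find hex ≠ 0 := fun h => hz1 (by simpa [h] using Nat.find_spec hex)
    obtain ⟨j, hj⟩ := Nat.exists_eq_succ_of_ne_zero hj0
    refine ⟨z ^ 2 ^ j, Subgroup.pow_mem _ hzc _, Nat.find_min hex (by omega), ?_⟩
    have h := Nat.find_spec hex
    rwa [hj, pow_succ, pow_mul, sq] at h
  have ht1' : (t : SL(2, F)) ≠ 1 := fun h => ht1 (Subtype.ext h)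
  obtain ⟨g, hg⟩ := isConj_iff.mp (isConj_of_trace_zero h2 (sx_one_ne (F := F)) ht1' (sx_trace h2 1)
    ((mul_self_eq_one_iff_trace h2 ht1').mp (congrArg Subtype.val htt)))
  have hsec : ∀ x : P, ∃ s : F, g * H92.sx s * g⁻¹ = (x : SL(2, F)) := by
    intro x
    have hx : g⁻¹ * (x : SL(2, F)) * g ∈ Subgroup.centralizer ({H92.sx (1 : F)} : Set SL(2, F)) := by
      rw [Subgroup.mem_centralizer_singleton_iff]
      have hxt : (x : SL(2, F)) * t = t * x := congrArg Subtype.val (Subgroup.mem_center_iff.mp htc x)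
      rw [← hg] at hxt
      calc g⁻¹ * (x : SL(2, F)) * g * H92.sx (1 : F) = g⁻¹ * ((x : SL(2, F)) * (g * H92.sx 1 * g⁻¹)) * g := by group
        _ = _ := by rw [hxt]; group
    obtain ⟨s, hs⟩ := sx_surj_centralizer h2 hx
    exact ⟨s, by rw [hs]; group⟩
  choose sec hs using hsec
  let f : P → zSub (n := n) (F := F) ((sl g : Matrix.symplecticGroup (Fin (n + 1)) F)⁻¹ • ω) := fun x =>
    ⟨sec x, by
      rw [mem_zSub, ← sl_sx h2]
      have h : (sl (x : SL(2, F)) : Matrix.symplecticGroup (Fin (n + 1)) F) • ω = ω := hP x.2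
      rw [← hs x, map_mul, map_mul, map_inv, mul_smul, mul_smul] at h
      rw [eq_inv_smul_iff, h]⟩
  refine le_trans (Nat.card_le_card_of_injective f fun x y h => Subtype.ext ?_) (hle _)
  rw [← hs x, ← hs y, show sec x = sec y from congrArg Subtype.val h]

/-- The product of the two Levi factors. -/
noncomputable def pairHom :
    SL(2, F) × Matrix.symplecticGroup (Fin n) F →* Matrix.symplecticGroup (Fin (n + 1)) F :=
  MonoidHom.noncommCoprod sl incl sl_incl_commute

lemma pairHom_apply (p : SL(2, F) × Matrix.symplecticGroup (Fin n) F) :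
    pairHom p = sl p.1 * incl p.2 := MonoidHom.noncommCoprod_apply _ _ _ _

/-- The symplectic plane `⟨up e0, up f0⟩` as an `SL₂`. -/
noncomputable def slTwo : SL(2, F) →* Matrix.symplecticGroup (Fin (1 + 1)) F :=
  (incl (n := 1)).comp (sl (n := 0))

lemma exists_slTwo_conj : ∃ g : Matrix.symplecticGroup (Fin (1 + 1)) F, ∀ M : SL(2, F),
    g * sl M * g⁻¹ = slTwo M := by
  let e1 : Fin (1 + 1) ⊕ Fin (1 + 1) → F := up (e0 (n := 0))
  let f1 : Fin (1 + 1) ⊕ Fin (1 + 1) → F := up (f0 (n := 0))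
  have h1 : ⟪e1, f1⟫ = 1 := by rw [form_up, form_e0_f0]
  obtain ⟨g, -, hge, hgf⟩ := exists_map_pair (u := (e0 : Fin (1 + 1) ⊕ Fin (1 + 1) → F)) (v := f0)
    (u' := e1) (v' := f1) (by rw [form_e0_f0]; exact one_ne_zero) (by rw [h1, form_e0_f0])
  refine ⟨g, fun M => ?_⟩
  have key : ((MulAut.conj g).toMonoidHom.comp (sl (n := 1))) = slTwo (F := F) := by
    refine MonoidHom.eq_of_eqOn_dense (s := Set.range H92.sx ∪ Set.range H92.sy) H92.sl2_closure_sx_sy ?_
    rintro _ (⟨t, rfl⟩ | ⟨t, rfl⟩)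
    · show g * sl (H92.sx t) * g⁻¹ = incl (sl (H92.sx t))
      rw [sl, sl, planeHom_sx, planeHom_sx, incl_transv, conj_transv, hge]
    · show g * sl (H92.sy t) * g⁻¹ = incl (sl (H92.sy t))
      rw [sl, sl, planeHom_sy, planeHom_sy, incl_transv, conj_transv, hgf]
  exact DFunLike.congr_fun key M

/-- A product of two transvections with orthogonal independent centres. -/
theorem fx_typeC (h2 : (2 : F) = 0) (hn : 1 ≤ n) {p r : Fin (n + 1) ⊕ Fin (n + 1) → F}
    (hpr : ⟪p, r⟫ = 0) (hind : LinearIndependent F ![p, r]) :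
    fx Ω (transv p 1 * transv r 1) =
      fx Ω (qel (e0 : Fin (n + 1) ⊕ Fin (n + 1) → F) (up (a1 hn)) 1) := by
  have hrp : ⟪r, p⟫ = 0 := fswap_zero hpr
  have hne : p + r ≠ 0 := fun h => by
    have := (LinearIndependent.pair_iff.mp hind 1 1 (by simpa using h)).1
    exact one_ne_zero this
  have e : transv p 1 * transv r 1 = qel (p + r) r 1 := by
    have hor : ⟪r, p + r⟫ = 0 := by rw [fadd_r, hrp, sympForm_self, add_zero]
    apply ext_of_mulVec
    intro x
    show act _ x = act _ x
    rw [act_mul, act_transv, act_transv, act_qel hor]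
    simp only [fadd_l, fadd_r, fsmul_l, hrp]
    match_scalars
    all_goals first
      | ring1
      | linear_combination (-(⟪x, r⟫ + ⟪x, p⟫)) * h2
      | linear_combination ⟪x, p⟫ * h2
      | linear_combination ⟪x, r⟫ * h2
      | linear_combination -⟪x, r⟫ * h2
      | linear_combination -⟪x, p⟫ * h2
      | linear_combination (-(⟪x, r⟫ + 2 * ⟪x, p⟫)) * h2
      | linear_combination 2 * ⟪x, r⟫ * h2
  obtain ⟨g, hg⟩ := exists_map_vec hne (e0_ne_zero (F := F) (n := n))
  rw [e, ← fx_conj (qel (p + r) r 1) g, qel_conj, show act g (p + r) = e0 from hg]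
  set a := act g r
  have hae : ⟪a, e0⟫ = 0 := by
    rw [← hg, show ⟪act g r, _⟫ = ⟪r, p + r⟫ from form_act g r (p + r), fadd_r, hrp, sympForm_self,
      add_zero]
  have hsplit : a = up (down a) + ⟪a, f0⟫ • e0 := by
    conv_lhs => rw [decomp a, fswap_zero hae, zero_smul, add_zero, add_comm]
  have hd : down a ≠ 0 := fun h => by
    have e1 : act g r = ⟪a, f0⟫ • act g (p + r) := by
      rw [show act g (p + r) = e0 from hg]
      conv_lhs => rw [show act g r = a from rfl, hsplit, h, map_zero, zero_add]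
    rw [← act_smul] at e1
    have e2 := act_injective g e1
    have h3 := LinearIndependent.pair_iff.mp hind ⟪a, f0⟫ (⟪a, f0⟫ - 1) (by
      rw [sub_smul, one_smul]
      rw [smul_add] at e2
      linear_combination (norm := module) -e2)
    rw [h3.1, zero_sub, neg_eq_zero] at h3
    exact one_ne_zero h3.2
  rw [hsplit, qel_shift (form_up_e0 _), h2, zero_mul, add_zero]
  exact fx_qel_one h2 hn hd one_ne_zero

end Cfsg.Agent.H2.MinIdx
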